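import Cfsg.Agent.H64.JzDefs

/-!
# S2953 (team project JY): statements of the pieces and the assembly

Notation of `H64/JzDefs.lean` (`Base S M T K L` = a configuration).  `Good T P` = the clause of
S2953 for one `P = K ⊔ T`; `Concl53 T` = the conclusion of S2953.
-/

set_option autoImplicit false
open Cfsg

namespace Cfsg.Agent.H64.Jy

open Cfsg.Agent.H64.Jz

universe u

/-- The clause of S2953 for one `P`. -/
def Good {G : Type u} [Group G] (T P : Subgroup G) : Prop :=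
  Subgroup.centralizer (Cfsg.pCoreOf 2 P : Set G) ≤ Cfsg.pCoreOf 2 P ∧ Cfsg.IsSylowTwoIn T P ∧
  (Cfsg.pCoreOf 2 P).relIndex P = 6 ∧ ¬ ⁅P, P⁆ ≤ Cfsg.pCoreOf 2 P ∧
  ⁅Cfsg.omegaCenterOf T, P⁆ ≠ ⊥ ∧
  ∃ L : Subgroup G, Cfsg.IsMaximalTwoLocal L ∧ P ≤ L ∧ Cfsg.IsSylowTwoIn T L ∧
    ∀ L' : Subgroup G, Cfsg.IsMaximalTwoLocal L' → P ≤ L' → L' = L

/-- The conclusion of S2953. -/
def Concl53 {G : Type u} [Group G] (T : Subgroup G) : Prop :=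
  ∃ K₁ K₂ : Subgroup G, K₁ ≠ K₂ ∧ Cfsg.IsJComponent T K₁ ∧ Cfsg.IsJComponent T K₂ ∧
    Cfsg.pCoreOf 2 ((K₁ ⊔ T) ⊔ (K₂ ⊔ T)) = ⊥ ∧
    ∀ P ∈ [K₁ ⊔ T, K₂ ⊔ T], Good T P

/-- JY-GOODA: `C_G(O₂(P)) ≤ O₂(P)`, `T` Sylow in `P`, and the unique maximal 2-local over `P`. -/
def StGoodA : Prop := ∀ {G : Type u} [Group G] [Finite G] (S : Sylow 2 G) (M T K L : Subgroup G),
  Base S M T K L →
  Subgroup.centralizer (Cfsg.pCoreOf 2 (K ⊔ T) : Set G) ≤ Cfsg.pCoreOf 2 (K ⊔ T) ∧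
  Cfsg.IsSylowTwoIn T (K ⊔ T) ∧
  ∃ L₀ : Subgroup G, Cfsg.IsMaximalTwoLocal L₀ ∧ K ⊔ T ≤ L₀ ∧ Cfsg.IsSylowTwoIn T L₀ ∧
    ∀ L' : Subgroup G, Cfsg.IsMaximalTwoLocal L' → K ⊔ T ≤ L' → L' = L₀

/-- JY-GOODB: `|P : O₂(P)| = 6` and `P / O₂(P)` is not abelian. -/
def StGoodB : Prop := ∀ {G : Type u} [Group G] [Finite G] (S : Sylow 2 G) (M T K L : Subgroup G),
  Base S M T K L →
  (Cfsg.pCoreOf 2 (K ⊔ T)).relIndex (K ⊔ T) = 6 ∧ ¬ ⁅K ⊔ T, K ⊔ T⁆ ≤ Cfsg.pCoreOf 2 (K ⊔ T)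

/-- JY-GOODC: `P` does not centralize `Ω₁Z(T)`. -/
def StGoodC : Prop := ∀ {G : Type u} [Group G] [Finite G] (S : Sylow 2 G) (M T K L : Subgroup G),
  Base S M T K L → ⁅Cfsg.omegaCenterOf T, K ⊔ T⁆ ≠ ⊥

/-- JY-GOOD. -/
def StGood : Prop := ∀ {G : Type u} [Group G] [Finite G] (S : Sylow 2 G) (M T K L : Subgroup G),
  Base S M T K L → Good T (K ⊔ T)

theorem good_of (hA : StGoodA.{u}) (hB : StGoodB.{u}) (hC : StGoodC.{u}) : StGood.{u} := by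
  intro G _ _ S M T K L h
  obtain ⟨h1, h2, h3⟩ := hA S M T K L h
  obtain ⟨h4, h5⟩ := hB S M T K L h
  exact ⟨h1, h2, h4, h5, hC S M T K L h, h3⟩

/-- JY-PAIR: two configurations for the same `T` with different maximal 2-locals. -/
def StPair : Prop := ∀ {G : Type u} [Group G] [Finite G] (S S₂ : Sylow 2 G)
    (M M₂ T K₁ L₁ K₂ L₂ : Subgroup G),
  Base S M T K₁ L₁ → Base S₂ M₂ T K₂ L₂ → L₁ ≠ L₂ →
  K₁ ≠ K₂ ∧ Cfsg.pCoreOf 2 ((K₁ ⊔ T) ⊔ (K₂ ⊔ T)) = ⊥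

/-- JY-CONJ: conjugating a configuration by `g ∈ M ∩ N_G(T)`, `g ∉ L`. -/
def StConj : Prop := ∀ {G : Type u} [Group G] [Finite G] (S : Sylow 2 G) (M T K L : Subgroup G),
  Base S M T K L → ∀ g : G, g ∈ M → g ∈ Subgroup.normalizer (T : Set G) → g ∉ L →
  ∃ K₂ L₂ : Subgroup G, Base S M T K₂ L₂ ∧ L₂ ≠ L

/-- JY-NOTIN: for `T < S` some `x ∈ M ∩ N_G(T)` is outside `L`. -/
def StNotIn : Prop := ∀ {G : Type u} [Group G] [Finite G] (S : Sylow 2 G) (M T K L : Subgroup G),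
  Base S M T K L → T ≠ (S : Subgroup G) →
  ∃ x : G, x ∈ M ∧ x ∈ Subgroup.normalizer (T : Set G) ∧ x ∉ L

/-- JY-NS: `N_G(S) ≤ M`. -/
def StNS : Prop := ∀ {G : Type u} [Group G] [Finite G] (S : Sylow 2 G) (M T K L : Subgroup G),
  Base S M T K L → Subgroup.normalizer ((S : Subgroup G) : Set G) ≤ M

/-- JY-NJ: for `T = S`, `N_G(J(S)) ≤ N_G(S)`. -/
def StNJ : Prop := ∀ {G : Type u} [Group G] [Finite G] (S : Sylow 2 G) (M K L : Subgroup G),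
  Base S M (S : Subgroup G) K L →
  Subgroup.normalizer (Cfsg.thompsonSubgroupOf 2 (S : Subgroup G) : Set G) ≤
    Subgroup.normalizer ((S : Subgroup G) : Set G)

/-- JY-SETUP2: for `T = S` and `N_G(J(S)) ≤ L`, a configuration for the base `L`. -/
def StSetup2 : Prop := ∀ {G : Type u} [Group G] [Finite G] (S : Sylow 2 G) (M K L : Subgroup G),
  Base S M (S : Subgroup G) K L →
  Subgroup.normalizer (Cfsg.thompsonSubgroupOf 2 (S : Subgroup G) : Set G) ≤ L →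
  ∃ T' K' L' : Subgroup G, Base S L T' K' L'

/-- The residual situation of S2953. -/
def RCtx2 {G : Type u} [Group G] (S : Sylow 2 G) (M K L T' K' L' : Subgroup G) : Prop :=
  Base S M (S : Subgroup G) K L ∧ Subgroup.normalizer ((S : Subgroup G) : Set G) ≤ L ∧
  Base S L T' K' L' ∧ T' ≠ (S : Subgroup G)

/-- JY-KILL2: the residual situation is impossible. -/
def StKill2 : Prop := ∀ {G : Type u} [Group G] [Finite G] (S : Sylow 2 G)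
    (M K L T' K' L' : Subgroup G), RCtx2 S M K L T' K' L' → False

/-- JY-START: a configuration exists. -/
def StStart : Prop := ∀ {G : Type u} [Group G] [Finite G], Cfsg.Agent.H58.Uq.ZN G →
  Cfsg.pCore 2 G = ⊥ → ∀ (S : Sylow 2 G) (M : Subgroup G), Cfsg.IsTwoLocal M →
  Subgroup.normalizer (Cfsg.thompsonSubgroupOf 2 (S : Subgroup G) : Set G) ≤ M →
  ∀ T : Subgroup G, T ∈ Cfsg.maxStraddlingTwoSubgroups M →
  ∃ (S' : Sylow 2 G) (K L : Subgroup G), Base S' M T K L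

/-- The conclusion of S2953 for every configuration. -/
def StMain53 : Prop := ∀ {G : Type u} [Group G] [Finite G] (S : Sylow 2 G)
    (M T K L : Subgroup G), Base S M T K L → Concl53 T

theorem concl_of_pair (hGood : StGood.{u}) (hPair : StPair.{u}) {G : Type u} [Group G] [Finite G]
    (S S₂ : Sylow 2 G) (M M₂ T K₁ L₁ K₂ L₂ : Subgroup G)
    (h₁ : Base S M T K₁ L₁) (h₂ : Base S₂ M₂ T K₂ L₂) (hne : L₁ ≠ L₂) : Concl53 T := by
  obtain ⟨hK, hcore⟩ := hPair S S₂ M M₂ T K₁ L₁ K₂ L₂ h₁ h₂ hne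
  refine ⟨K₁, K₂, hK, h₁.2.2.2.2.2.2.1.1.1, h₂.2.2.2.2.2.2.1.1.1, hcore, ?_⟩
  intro P hP
  simp only [List.mem_cons, List.not_mem_nil, or_false] at hP
  rcases hP with rfl | rfl
  · exact hGood S M T K₁ L₁ h₁
  · exact hGood S₂ M₂ T K₂ L₂ h₂

/-- Assembly. -/
theorem main53 (hGood : StGood.{u}) (hPair : StPair.{u}) (hConj : StConj.{u})
    (hNotIn : StNotIn.{u}) (hNS : StNS.{u}) (hNJ : StNJ.{u}) (hSetup2 : StSetup2.{u})
    (hKill2 : StKill2.{u}) : StMain53.{u} := by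
  intro G _ _ S M T K L hB
  by_cases hTS : T = (S : Subgroup G)
  · subst hTS
    by_cases hN : Subgroup.normalizer ((S : Subgroup G) : Set G) ≤ L
    · have hJ := (hNJ S M K L hB).trans hN
      obtain ⟨T', K', L', hB'⟩ := hSetup2 S M K L hB hJ
      by_cases hT' : T' = (S : Subgroup G)
      · subst hT'
        have hK'L : ¬ K' ≤ L := hB'.2.2.2.2.2.2.1.2.1
        have hK'L' : K' ≤ L' := le_sup_left.trans hB'.2.2.2.2.2.2.2.2
        have hne : L ≠ L' := fun h => hK'L (h ▸ hK'L')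
        exact concl_of_pair hGood hPair S S M L _ K L K' L' hB hB' hne
      · exact (hKill2 S M K L T' K' L' ⟨hB, hN, hB', hT'⟩).elim
    · obtain ⟨g, hgN, hgL⟩ := SetLike.not_le_iff_exists.mp hN
      obtain ⟨K₂, L₂, hB₂, hne⟩ := hConj S M _ K L hB g (hNS S M _ K L hB hgN) hgN hgL
      exact concl_of_pair hGood hPair S S M M _ K L K₂ L₂ hB hB₂ hne.symm
  · obtain ⟨x, hxM, hxN, hxL⟩ := hNotIn S M T K L hB hTS
    obtain ⟨K₂, L₂, hB₂, hne⟩ := hConj S M T K L hB x hxM hxN hxL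
    exact concl_of_pair hGood hPair S S M M T K L K₂ L₂ hB hB₂ hne.symm

/-- S2953 from the pieces. -/
theorem result_of53 (hStart : StStart.{u}) (h : StMain53.{u}) {G : Type u} [Group G] [Finite G]
    (hL : Cfsg.IsCharacteristicTwoType G)
    (hN : ∀ N : Subgroup G, Cfsg.IsTwoLocal N → Group.IsSolvable ↥N)
    (hZ : ∀ S : Sylow 2 G, Subgroup.centralizer (Cfsg.omegaCenterOf (S : Subgroup G) : Set G) ≤
      Subgroup.normalizer ((S : Subgroup G) : Set G))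
    (hO : Cfsg.pCore 2 G = ⊥) (S : Sylow 2 G) (M : Subgroup G) (hM : Cfsg.IsTwoLocal M)
    (hMJ : Subgroup.normalizer (Cfsg.thompsonSubgroupOf 2 (S : Subgroup G) : Set G) ≤ M)
    (T : Subgroup G) (hT : T ∈ Cfsg.maxStraddlingTwoSubgroups M) :
    ∃ K₁ K₂ : Subgroup G, K₁ ≠ K₂ ∧ Cfsg.IsJComponent T K₁ ∧ Cfsg.IsJComponent T K₂ ∧
      Cfsg.pCoreOf 2 ((K₁ ⊔ T) ⊔ (K₂ ⊔ T)) = ⊥ ∧
      ∀ P ∈ [K₁ ⊔ T, K₂ ⊔ T],
        Subgroup.centralizer (Cfsg.pCoreOf 2 P : Set G) ≤ Cfsg.pCoreOf 2 P ∧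
        Cfsg.IsSylowTwoIn T P ∧
        (Cfsg.pCoreOf 2 P).relIndex P = 6 ∧ ¬ ⁅P, P⁆ ≤ Cfsg.pCoreOf 2 P ∧
        ⁅Cfsg.omegaCenterOf T, P⁆ ≠ ⊥ ∧
        ∃ L : Subgroup G, Cfsg.IsMaximalTwoLocal L ∧ P ≤ L ∧ Cfsg.IsSylowTwoIn T L ∧
          ∀ L' : Subgroup G, Cfsg.IsMaximalTwoLocal L' → P ≤ L' → L' = L := by
  obtain ⟨S', K, L, hB⟩ := hStart ⟨hL, hN, hZ⟩ hO S M hM hMJ T hT
  exact h S' M T K L hB

end Cfsg.Agent.H64.Jy

#print axioms Cfsg.Agent.H64.Jy.main53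
#print axioms Cfsg.Agent.H64.Jy.result_of53
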