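import Cfsg.Agent.H58.UqDefs

/-!
# S2951 (team project JZ): statements of the pieces

`Base S M T K L` = the hypotheses of S2951; `Concl S T L` = its three clauses.
`J(T) = thompsonSubgroupOf 2 T`, `Z = omegaCenterOf S`, `Z₀ = omegaCenterOf (J(T))`.
-/

set_option autoImplicit false
open Cfsg

namespace Cfsg.Agent.H64.Jz

universe u

/-- The hypotheses of S2951 (`ZN` bundles characteristic 2 type, solvable 2-locals, hZ). -/
def Base {G : Type u} [Group G] (S : Sylow 2 G) (M T K L : Subgroup G) : Prop :=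
  Cfsg.Agent.H58.Uq.ZN G ∧ pCore 2 G = ⊥ ∧ IsTwoLocal M ∧
  Subgroup.normalizer (thompsonSubgroupOf 2 (S : Subgroup G) : Set G) ≤ M ∧
  T ∈ maxStraddlingTwoSubgroups M ∧ T ≤ (S : Subgroup G) ∧ K ∈ jComponentsOutside M T ∧
  IsMaximalTwoLocal L ∧ K ⊔ thompsonSubgroupOf 2 T ≤ L

/-- The three clauses of S2951. -/
def Concl {G : Type u} [Group G] (S : Sylow 2 G) (T L : Subgroup G) : Prop :=
  (omegaCenterOf (S : Subgroup G) = omegaCenterOf (thompsonSubgroupOf 2 T) ∧
      Nat.card ↥(omegaCenterOf (thompsonSubgroupOf 2 T)) = 2) ∨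
  (omegaCenterOf (S : Subgroup G) = omegaCenterOf (thompsonSubgroupOf 2 T) ∧
      Nat.card ↥(omegaCenterOf (thompsonSubgroupOf 2 T)) = 4 ∧ T = (S : Subgroup G)) ∨
  (omegaCenterOf T = omegaCenterOf (thompsonSubgroupOf 2 T) ∧
      Nat.card ↥(omegaCenterOf (thompsonSubgroupOf 2 T)) = 4 ∧
      (L ⊓ Subgroup.centralizer (omegaCenterOf (thompsonSubgroupOf 2 T) : Set G)).relIndex
        (Subgroup.normalizer (omegaCenterOf (thompsonSubgroupOf 2 T) : Set G)) = 2)

/-- JZ-LT: the case `T < S` (clause 1 or 3). -/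
def StLt : Prop := ∀ {G : Type u} [Group G] [Finite G] (S : Sylow 2 G) (M T K L : Subgroup G),
  Base S M T K L → T ≠ (S : Subgroup G) → Concl S T L

/-- JZ-Z2: for `T < S`, `Ω₁Z(S)` has order 2. -/
def StZ2 : Prop := ∀ {G : Type u} [Group G] [Finite G] (S : Sylow 2 G) (M T K L : Subgroup G),
  Base S M T K L → T ≠ (S : Subgroup G) → Nat.card ↥(omegaCenterOf (S : Subgroup G)) = 2

/-- JZ-NORM: each clause gives `T ≤ N_G(K)`. -/
def StNorm : Prop := ∀ {G : Type u} [Group G] [Finite G] (S : Sylow 2 G) (M T K L : Subgroup G),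
  Base S M T K L → Concl S T L → T ≤ Subgroup.normalizer (K : Set G)

/-- JZ-SC: `T = S` and a second `J(S)`-component outside `L`. -/
def StSC : Prop := ∀ {G : Type u} [Group G] [Finite G] (S : Sylow 2 G) (M T K L : Subgroup G),
  Base S M T K L → T = (S : Subgroup G) →
  (∃ K' : Subgroup G, IsJComponent T K' ∧ ¬ K' ≤ L) → Concl S T L

/-- JZ-OUT1: `T = S`, `N_G(J(S)) ⊄ L` gives a `J(S)`-component outside `L`. -/
def StOut1 : Prop := ∀ {G : Type u} [Group G] [Finite G] (S : Sylow 2 G) (M T K L : Subgroup G),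
  Base S M T K L → T = (S : Subgroup G) →
  ¬ Subgroup.normalizer (thompsonSubgroupOf 2 (S : Subgroup G) : Set G) ≤ L →
  ∃ K' : Subgroup G, IsJComponent T K' ∧ ¬ K' ≤ L

/-- JZ-MAXS: a nonempty straddling family has a maximal member inside a given Sylow subgroup of
`G` contained in `M`. -/
def StMaxS : Prop := ∀ {G : Type u} [Group G] [Finite G] (S : Sylow 2 G) (M : Subgroup G),
  (S : Subgroup G) ≤ M → (straddlingTwoSubgroups M).Nonempty →
  ∃ T : Subgroup G, T ∈ maxStraddlingTwoSubgroups M ∧ T ≤ (S : Subgroup G)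

/-- JZ-OUT2: `T = S`, `N_G(J(S)) ≤ L`, and a 2-local over `J(S)` not inside `L` give a
`J(S)`-component outside `L`. -/
def StOut2 : Prop := ∀ {G : Type u} [Group G] [Finite G] (S : Sylow 2 G) (M T K L : Subgroup G),
  Base S M T K L → T = (S : Subgroup G) →
  Subgroup.normalizer (thompsonSubgroupOf 2 (S : Subgroup G) : Set G) ≤ L →
  (∃ X : Subgroup G, IsTwoLocal X ∧ thompsonSubgroupOf 2 (S : Subgroup G) ≤ X ∧ ¬ X ≤ L) →
  ∃ K' : Subgroup G, IsJComponent T K' ∧ ¬ K' ≤ L

/-- JZ-NSE: a member of the family of a Sylow 2-subgroup `S` of `G` containing `N_G(J(S))` is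
not strongly embedded: it has a straddling 2-subgroup. -/
def StNSE : Prop := ∀ {G : Type u} [Group G] [Finite G], Cfsg.Agent.H58.Uq.ZN G →
  pCore 2 G = ⊥ → ∀ (S : Sylow 2 G) (L : Subgroup G), IsTwoLocal L →
  Subgroup.normalizer (thompsonSubgroupOf 2 (S : Subgroup G) : Set G) ≤ L →
  L ∈ jOvergroups (S : Subgroup G) → (straddlingTwoSubgroups L).Nonempty

/-- The residual situation (R): `T = S`, every 2-local over `J(S)` lies in `L`, and
`(T', K', L')` is a configuration for the base `L`, with `T' < S`. -/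
def RCtx {G : Type u} [Group G] (S : Sylow 2 G) (M K L T' K' L' : Subgroup G) : Prop :=
  Base S M (S : Subgroup G) K L ∧
  (∀ X : Subgroup G, IsTwoLocal X → thompsonSubgroupOf 2 (S : Subgroup G) ≤ X → X ≤ L) ∧
  Base S L T' K' L' ∧ T' ≠ (S : Subgroup G)

/-- JZ-SETUP: the residual situation exists. -/
def StSetup : Prop := ∀ {G : Type u} [Group G] [Finite G] (S : Sylow 2 G) (M K L : Subgroup G),
  Base S M (S : Subgroup G) K L →
  (∀ X : Subgroup G, IsTwoLocal X → thompsonSubgroupOf 2 (S : Subgroup G) ≤ X → X ≤ L) →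
  ∃ T' K' L' : Subgroup G, RCtx S M K L T' K' L'

/-- JZ-RESA: in (R), if `T'` has an elementary abelian subgroup of the largest order of `S`,
clause 1 holds. -/
def StResA : Prop := ∀ {G : Type u} [Group G] [Finite G] (S : Sylow 2 G)
    (M K L T' K' L' : Subgroup G), RCtx S M K L T' K' L' →
  maxElemAbelianOrder T' = maxElemAbelianOrder (S : Subgroup G) →
  Concl S (S : Subgroup G) L

/-- JZ-RESN: in (R), if `S` normalizes `K`, clause 1 holds. -/
def StResN : Prop := ∀ {G : Type u} [Group G] [Finite G] (S : Sylow 2 G)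
    (M K L T' K' L' : Subgroup G), RCtx S M K L T' K' L' →
  (S : Subgroup G) ≤ Subgroup.normalizer (K : Set G) → Concl S (S : Subgroup G) L

/-- JZ-KILL: (R) with `a(T') < a(S)` and `S` not normalizing `K` is impossible. -/
def StKill : Prop := ∀ {G : Type u} [Group G] [Finite G] (S : Sylow 2 G)
    (M K L T' K' L' : Subgroup G), RCtx S M K L T' K' L' →
  maxElemAbelianOrder T' ≠ maxElemAbelianOrder (S : Subgroup G) →
  ¬ (S : Subgroup G) ≤ Subgroup.normalizer (K : Set G) → False

/-- The statement S2951 (conclusion split as: first conjunct from S2946, clauses = `Concl`). -/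
def StMain : Prop := ∀ {G : Type u} [Group G] [Finite G] (S : Sylow 2 G) (M T K L : Subgroup G),
  Base S M T K L → Concl S T L

/-- Assembly of the clauses. -/
theorem main (hLt : StLt.{u}) (hSC : StSC.{u}) (hO1 : StOut1.{u}) (hO2 : StOut2.{u})
    (hSet : StSetup.{u}) (hA : StResA.{u}) (hN : StResN.{u}) (hKill : StKill.{u}) :
    StMain.{u} := by
  intro G _ _ S M T K L hB
  by_cases hTS : T = (S : Subgroup G)
  · by_cases hJ : Subgroup.normalizer (thompsonSubgroupOf 2 (S : Subgroup G) : Set G) ≤ L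
    · by_cases hX : ∃ X : Subgroup G, IsTwoLocal X ∧
          thompsonSubgroupOf 2 (S : Subgroup G) ≤ X ∧ ¬ X ≤ L
      · exact hSC S M T K L hB hTS (hO2 S M T K L hB hTS hJ hX)
      · have hX' : ∀ X : Subgroup G, IsTwoLocal X →
            thompsonSubgroupOf 2 (S : Subgroup G) ≤ X → X ≤ L := by
          intro X h1 h2
          by_contra h3
          exact hX ⟨X, h1, h2, h3⟩
        subst hTS
        obtain ⟨T', K', L', hR⟩ := hSet S M K L hB hX'
        by_cases ha : maxElemAbelianOrder T' = maxElemAbelianOrder (S : Subgroup G)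
        · exact hA S M K L T' K' L' hR ha
        · by_cases hn : (S : Subgroup G) ≤ Subgroup.normalizer (K : Set G)
          · exact hN S M K L T' K' L' hR hn
          · exact (hKill S M K L T' K' L' hR ha hn).elim
    · exact hSC S M T K L hB hTS (hO1 S M T K L hB hTS hJ)
  · exact hLt S M T K L hB hTS

end Cfsg.Agent.H64.Jz
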