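import Cfsg.Agent.H64.JzAsm2
import Cfsg.Agent.H58.Q46.Final
import Cfsg.Agent.H87.ZcLtJz
import Cfsg.Agent.H62.JzSC
import Cfsg.Agent.H3.JzOut1
import Cfsg.Agent.H25.JzOut2
import Cfsg.Agent.H90.JzSetup
import Cfsg.Agent.H46.JzNSE
import Cfsg.Agent.H91.JzMaxS
import Cfsg.Agent.H26.JzResAof
import Cfsg.Agent.H32.JzResN
import Cfsg.Agent.H4.JzZ2of
import Cfsg.Agent.H61.JzNorm
import Cfsg.Agent.H52.SrMain
import Cfsg.Agent.H28.JkMain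
import Cfsg.Agent.H4.JkA
import Cfsg.Agent.H65.JkFix
import Cfsg.Agent.H24.JkZ
import Cfsg.Agent.H5.JkTr
import Cfsg.Agent.H44.JkTI
import Cfsg.Agent.H72.JkF1

/-!
# S2951 (team project JZ): the final wiring

`stMain : StMain` from the pieces of the team (JZ-LT helper87, JZ-SC helper62, JZ-OUT1 helper3,
JZ-OUT2 helper25, JZ-SETUP helper90, JZ-NSE helper46, JZ-MAXS helper91, JZ-RESA helper26,
JZ-RESN helper32, JZ-Z2 helper4, JZ-NORM helper61, SR helper52 and his team, JZ-KILL helper28 and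
his team (KA helper4, KFIX helper65, KZ helper24, KTR helper5, KTI helper44, KF1 helper72)), and
the S2946 copy of helper58.
-/

set_option autoImplicit false
open Cfsg

namespace Cfsg.Agent.H64.Jz

universe u

/-- JZ-Z2. -/
theorem z2Final : StZ2.{u} :=
  Cfsg.Agent.H4.Jz.z2_of
    (fun hL hN hZ T hT hT1 K hK Z₀ hZ₀ => Cfsg.Agent.H58.Q46.s2946 hL hN hZ T hT hT1 K hK Z₀ hZ₀)

/-- JZ-LT. -/
theorem ltFinal : StLt.{u} :=
  Cfsg.Agent.H87.Zc.stLt_of46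
    (fun hL hN hZ T hT hT1 K hK Z₀ hZ₀ => Cfsg.Agent.H58.Q46.s2946 hL hN hZ T hT hT1 K hK Z₀ hZ₀)

/-- JZ-NORM. -/
theorem normFinal : StNorm.{u} :=
  Cfsg.Agent.H61.Jz.norm_of
    (fun hL hN hZ T hT hT1 K hK Z₀ hZ₀ => Cfsg.Agent.H58.Q46.s2946 hL hN hZ T hT hT1 K hK Z₀ hZ₀)

/-- JZ-RESA. -/
theorem resAFinal : StResA.{u} :=
  Cfsg.Agent.H26.JzA.resA_of
    (fun hL hN hZ T hT hT1 K hK Z₀ hZ₀ => Cfsg.Agent.H58.Q46.s2946 hL hN hZ T hT hT1 K hK Z₀ hZ₀)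

/-- JZ-RESN. -/
theorem resNFinal : StResN.{u} :=
  Cfsg.Agent.H32.Jz.resN_of
    (fun hL hN hZ T hT hT1 K hK Z₀ hZ₀ => Cfsg.Agent.H58.Q46.s2946 hL hN hZ T hT hT1 K hK Z₀ hZ₀)
    z2Final

/-- JZ-KILL. -/
theorem killFinal : StKill.{u} :=
  Cfsg.Agent.H28.Jk.kill Cfsg.Agent.H52.Sr.struct Cfsg.Agent.H4.Jk.ka Cfsg.Agent.H65.Jk.kfix
    Cfsg.Agent.H24.Jk.kz Cfsg.Agent.H5.Jk.ktr Cfsg.Agent.H44.Jk.kti Cfsg.Agent.H72.Jk.kf1
    z2Final ltFinal normFinal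

/-- The clause statement of S2951. -/
theorem stMain : StMain.{u} :=
  main ltFinal Cfsg.Agent.H62.Jz.sc Cfsg.Agent.H3.Jz.out1 Cfsg.Agent.H25.Jz.out2
    (Cfsg.Agent.H90.Jz.setup Cfsg.Agent.H46.Jz.nse Cfsg.Agent.H91.Jz.maxS)
    resAFinal resNFinal killFinal

/-- S2951. -/
theorem s2951Final {G : Type u} [Group G] [Finite G]
    (hL : Cfsg.IsCharacteristicTwoType G)
    (hN : ∀ N : Subgroup G, Cfsg.IsTwoLocal N → Group.IsSolvable ↥N)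
    (hZ : ∀ S : Sylow 2 G, Subgroup.centralizer (Cfsg.omegaCenterOf (S : Subgroup G) : Set G) ≤
      Subgroup.normalizer ((S : Subgroup G) : Set G))
    (hO : Cfsg.pCore 2 G = ⊥) (S : Sylow 2 G) (M : Subgroup G) (hM : Cfsg.IsTwoLocal M)
    (hMJ : Subgroup.normalizer (Cfsg.thompsonSubgroupOf 2 (S : Subgroup G) : Set G) ≤ M)
    (T : Subgroup G) (hT : T ∈ Cfsg.maxStraddlingTwoSubgroups M)
    (hTS : T ≤ (S : Subgroup G)) (K : Subgroup G) (hK : K ∈ Cfsg.jComponentsOutside M T)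
    (L : Subgroup G) (hLmax : Cfsg.IsMaximalTwoLocal L)
    (hKL : K ⊔ Cfsg.thompsonSubgroupOf 2 T ≤ L)
    (Z Z₀ : Subgroup G) (hZdef : Z = Cfsg.omegaCenterOf (S : Subgroup G))
    (hZ₀ : Z₀ = Cfsg.omegaCenterOf (Cfsg.thompsonSubgroupOf 2 T)) :
    Z₀ ⊓ Cfsg.wOf K ≠ ⊥ ∧
      ((Z = Z₀ ∧ Nat.card ↥Z₀ = 2) ∨ (Z = Z₀ ∧ Nat.card ↥Z₀ = 4 ∧ T = (S : Subgroup G)) ∨
        (Cfsg.omegaCenterOf T = Z₀ ∧ Nat.card ↥Z₀ = 4 ∧
          (L ⊓ Subgroup.centralizer (Z₀ : Set G)).relIndex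
            (Subgroup.normalizer (Z₀ : Set G)) = 2)) :=
  result_from stMain
    (fun T hT hT1 K hK => (Cfsg.Agent.H58.Q46.s2946 hL hN hZ T hT hT1 K hK _ rfl).1)
    hL hN hZ hO S M hM hMJ T hT hTS K hK L hLmax hKL Z Z₀ hZdef hZ₀

end Cfsg.Agent.H64.Jz

#print axioms Cfsg.Agent.H64.Jz.s2951Final
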