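import Mathlib
import Cfsg.Prelude.Def_ParabolicCharacters
import Cfsg.Agent.H7.SL2

set_option autoImplicit false

namespace Cfsg.Agent.H64.BorelSL2

open Matrix
open scoped MatrixGroups
open Cfsg.Agent.H7

variable {F : Type*} [Field F]

theorem mem_bor (g : SL(2, F)) :
    g ∈ (Cfsg.upperTriangularGL 2 F).comap Matrix.SpecialLinearGroup.toGL ↔ g.1 1 0 = 0 := by
  rw [Subgroup.mem_comap]
  change ((Matrix.SpecialLinearGroup.toGL g : GL (Fin 2) F) :
    Matrix (Fin 2) (Fin 2) F).BlockTriangular id ↔ _
  rw [Matrix.SpecialLinearGroup.coe_GL_coe_matrix]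
  constructor
  · intro h
    exact h (i := 1) (j := 0) (by decide)
  · intro h i j hij
    fin_cases i <;> fin_cases j <;> simp_all

/-- The upper triangular matrix `[[a, b], [0, a⁻¹]]`. -/
def mkB (a : Fˣ) (b : F) : SL(2, F) :=
  ⟨!![(a : F), b; 0, ((a⁻¹ : Fˣ) : F)], by simp [Matrix.det_fin_two_of]⟩

theorem mkB_mem (a : Fˣ) (b : F) :
    mkB a b ∈ (Cfsg.upperTriangularGL 2 F).comap Matrix.SpecialLinearGroup.toGL :=
  (mem_bor _).2 (by simp [mkB])

theorem bor_00_ne (g : SL(2, F)) (hg : g.1 1 0 = 0) : g.1 0 0 ≠ 0 := by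
  intro h
  have := sl2_det g
  rw [h, hg] at this
  simp at this

theorem bor_11 (g : SL(2, F)) (hg : g.1 1 0 = 0) : g.1 1 1 = (g.1 0 0)⁻¹ := by
  have := sl2_det g
  rw [hg] at this
  have h0 := bor_00_ne g hg
  field_simp
  linear_combination this

/-- The Borel subgroup is parametrised by `Fˣ × F`. -/
noncomputable def borEquiv :
    ((Cfsg.upperTriangularGL 2 F).comap Matrix.SpecialLinearGroup.toGL) ≃ Fˣ × F where
  toFun g := (Units.mk0 (g.1.1 0 0) (bor_00_ne g.1 ((mem_bor g.1).1 g.2)), g.1.1 0 1)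
  invFun p := ⟨mkB p.1 p.2, mkB_mem _ _⟩
  left_inv g := by
    apply Subtype.ext
    apply Subtype.ext
    have h10 := (mem_bor g.1).1 g.2
    have h11 := bor_11 g.1 h10
    ext i j
    fin_cases i <;> fin_cases j <;> simp [mkB, h10, h11]
  right_inv p := by
    apply Prod.ext
    · apply Units.ext
      simp [mkB]
    · simp [mkB]

theorem commute_mkB (a c : Fˣ) (b d : F) :
    Commute (mkB a b) (mkB c d) ↔ d * ((a : F) - (a : F)⁻¹) = b * ((c : F) - (c : F)⁻¹) := by
  have ha : (a : F) ≠ 0 := a.ne_zero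
  have hc : (c : F) ≠ 0 := c.ne_zero
  constructor
  · intro h
    have h1 := congrArg (fun m : SL(2, F) => m.1 0 1) h.eq
    simp only [sl2_mul_apply] at h1
    simp [mkB] at h1
    linear_combination h1
  · intro h
    apply Subtype.ext
    ext i j
    rw [sl2_mul_apply, sl2_mul_apply]
    fin_cases i <;> fin_cases j <;> simp [mkB]
    · ring
    · linear_combination h
    · ring


theorem commute_bor_iff
    (g h : ((Cfsg.upperTriangularGL 2 F).comap Matrix.SpecialLinearGroup.toGL)) :
    Commute g h ↔ (borEquiv h).2 * (((borEquiv g).1 : F) - ((borEquiv g).1 : F)⁻¹) =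
      (borEquiv g).2 * (((borEquiv h).1 : F) - ((borEquiv h).1 : F)⁻¹) := by
  have hg : g.1 = mkB (borEquiv g).1 (borEquiv g).2 :=
    congrArg Subtype.val (borEquiv.left_inv g).symm
  have hh : h.1 = mkB (borEquiv h).1 (borEquiv h).2 :=
    congrArg Subtype.val (borEquiv.left_inv h).symm
  rw [← commute_mkB, ← hg, ← hh]
  constructor
  · intro hc
    have h1 : ((g * h : _) : SL(2, F)) = ((h * g : _) : SL(2, F)) := congrArg Subtype.val hc.eq
    exact h1
  · intro hc
    have h1 : g * h = h * g := Subtype.ext hc.eq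
    exact h1

section count

variable [Fintype F] [DecidableEq F]

theorem card_line (α γ : F) :
    (Finset.univ.filter (fun p : F × F => p.2 * α = p.1 * γ)).card =
      if α = 0 ∧ γ = 0 then Fintype.card F * Fintype.card F else Fintype.card F := by
  by_cases hα : α = 0
  · by_cases hγ : γ = 0
    · subst hα; subst hγ
      simp [Finset.card_univ]
    · subst hα
      rw [if_neg (by tauto)]
      have : (Finset.univ.filter (fun p : F × F => p.2 * 0 = p.1 * γ)) =
          (Finset.univ : Finset F).image (fun d => ((0 : F), d)) := by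
        ext ⟨b, d⟩
        simp only [Finset.mem_filter, Finset.mem_univ, true_and, mul_zero, Finset.mem_image,
          Prod.mk.injEq]
        constructor
        · intro h
          have : b = 0 := by
            rcases mul_eq_zero.1 h.symm with h | h
            · exact h
            · exact absurd h hγ
          exact ⟨d, this.symm, rfl⟩
        · rintro ⟨d', h1, h2⟩
          rw [← h1]; simp
      rw [this, Finset.card_image_of_injective _ (fun x y h => by simpa using h), Finset.card_univ]
  · rw [if_neg (by tauto)]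
    have : (Finset.univ.filter (fun p : F × F => p.2 * α = p.1 * γ)) =
        (Finset.univ : Finset F).image (fun b => (b, b * γ / α)) := by
      ext ⟨b, d⟩
      simp only [Finset.mem_filter, Finset.mem_univ, true_and, Finset.mem_image, Prod.mk.injEq]
      constructor
      · intro h
        refine ⟨b, rfl, ?_⟩
        rw [← h]; field_simp
      · rintro ⟨b', h1, h2⟩
        rw [← h2, h1]; field_simp
    rw [this, Finset.card_image_of_injective _ (fun x y h => by simpa using congrArg Prod.fst h),
      Finset.card_univ]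

theorem card_units_self_inv (h2 : (2 : F) ≠ 0) :
    (Finset.univ.filter (fun a : Fˣ => (a : F) - (a : F)⁻¹ = 0)).card = 2 := by
  have : (Finset.univ.filter (fun a : Fˣ => (a : F) - (a : F)⁻¹ = 0)) = {1, -1} := by
    ext a
    simp only [Finset.mem_filter, Finset.mem_univ, true_and, Finset.mem_insert,
      Finset.mem_singleton]
    have ha : (a : F) ≠ 0 := a.ne_zero
    constructor
    · intro h
      have h1 : ((a : F) - 1) * ((a : F) + 1) = 0 := by
        have : (a : F) * (a : F) = 1 := by
          have h' : (a : F) = (a : F)⁻¹ := sub_eq_zero.1 h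
          calc (a : F) * (a : F) = (a : F) * (a : F)⁻¹ := by rw [← h']
            _ = 1 := mul_inv_cancel₀ ha
        linear_combination this
      rcases mul_eq_zero.1 h1 with h | h
      · left; apply Units.ext; simpa using sub_eq_zero.1 h
      · right; apply Units.ext; simpa using eq_neg_of_add_eq_zero_left h
    · rintro (rfl | rfl) <;> simp
  rw [this, Finset.card_pair]
  intro h
  have := congrArg (fun u : Fˣ => (u : F)) h
  simp at this
  apply h2
  linear_combination this

/-- Reordering equivalence for the count of commuting pairs. -/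
def commEquiv :
    {p : (Fˣ × F) × (Fˣ × F) //
      p.2.2 * ((p.1.1 : F) - (p.1.1 : F)⁻¹) = p.1.2 * ((p.2.1 : F) - (p.2.1 : F)⁻¹)} ≃
    (Σ ac : Fˣ × Fˣ, {bd : F × F //
      bd.2 * ((ac.1 : F) - (ac.1 : F)⁻¹) = bd.1 * ((ac.2 : F) - (ac.2 : F)⁻¹)}) where
  toFun p := ⟨(p.1.1.1, p.1.2.1), ⟨(p.1.1.2, p.1.2.2), p.2⟩⟩
  invFun s := ⟨((s.1.1, s.2.1.1), (s.1.2, s.2.1.2)), s.2.2⟩
  left_inv p := by rfl
  right_inv s := by rfl

theorem card_commuting (h2 : (2 : F) ≠ 0) :
    Fintype.card {p : (Fˣ × F) × (Fˣ × F) //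
      p.2.2 * ((p.1.1 : F) - (p.1.1 : F)⁻¹) = p.1.2 * ((p.2.1 : F) - (p.2.1 : F)⁻¹)} =
    Fintype.card Fˣ * Fintype.card Fˣ * Fintype.card F +
      4 * (Fintype.card F * Fintype.card Fˣ) := by
  have hq : Fintype.card F = Fintype.card Fˣ + 1 := by
    rw [Fintype.card_units]
    have := Fintype.card_pos (α := F)
    omega
  rw [Fintype.card_congr commEquiv, Fintype.card_sigma]
  have hterm : ∀ ac : Fˣ × Fˣ,
      Fintype.card {bd : F × F //
        bd.2 * ((ac.1 : F) - (ac.1 : F)⁻¹) = bd.1 * ((ac.2 : F) - (ac.2 : F)⁻¹)} =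
      Fintype.card F + (if ((ac.1 : F) - (ac.1 : F)⁻¹ = 0 ∧ (ac.2 : F) - (ac.2 : F)⁻¹ = 0)
        then Fintype.card F * Fintype.card Fˣ else 0) := by
    intro ac
    rw [Fintype.card_subtype, card_line]
    split_ifs with h
    · rw [hq]; ring
    · rfl
  rw [Finset.sum_congr rfl (fun ac _ => hterm ac), Finset.sum_add_distrib, Finset.sum_const,
    Finset.card_univ, Fintype.card_prod, ← Finset.sum_filter, Finset.sum_const]
  have hfil : (Finset.univ.filter (fun ac : Fˣ × Fˣ =>
      (ac.1 : F) - (ac.1 : F)⁻¹ = 0 ∧ (ac.2 : F) - (ac.2 : F)⁻¹ = 0)) =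
      (Finset.univ.filter (fun a : Fˣ => (a : F) - (a : F)⁻¹ = 0)) ×ˢ
      (Finset.univ.filter (fun a : Fˣ => (a : F) - (a : F)⁻¹ = 0)) := by
    ext ⟨a, c⟩
    simp
  rw [hfil, Finset.card_product, card_units_self_inv h2]
  simp only [smul_eq_mul]

theorem card_conjClasses_bor (h2 : (2 : F) ≠ 0) :
    Nat.card (ConjClasses ((Cfsg.upperTriangularGL 2 F).comap Matrix.SpecialLinearGroup.toGL)) =
      Fintype.card F + 3 := by
  have hq : Fintype.card F = Fintype.card Fˣ + 1 := by
    rw [Fintype.card_units]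
    have := Fintype.card_pos (α := F)
    omega
  have hN : 0 < Fintype.card Fˣ := Fintype.card_pos
  have hcomm : Nat.card {p : ((Cfsg.upperTriangularGL 2 F).comap Matrix.SpecialLinearGroup.toGL) ×
        ((Cfsg.upperTriangularGL 2 F).comap Matrix.SpecialLinearGroup.toGL) // Commute p.1 p.2} =
      Fintype.card Fˣ * Fintype.card Fˣ * Fintype.card F +
        4 * (Fintype.card F * Fintype.card Fˣ) := by
    rw [← card_commuting h2, ← Nat.card_eq_fintype_card]
    exact Nat.card_congr (Equiv.subtypeEquiv (borEquiv.prodCongr borEquiv)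
      (fun p => by simpa using commute_bor_iff p.1 p.2))
  have hcard : Nat.card ((Cfsg.upperTriangularGL 2 F).comap Matrix.SpecialLinearGroup.toGL) =
      Fintype.card Fˣ * Fintype.card F := by
    rw [Nat.card_congr borEquiv, Nat.card_eq_fintype_card, Fintype.card_prod]
  have key := card_comm_eq_card_conjClasses_mul_card
    ((Cfsg.upperTriangularGL 2 F).comap Matrix.SpecialLinearGroup.toGL)
  rw [hcomm, hcard] at key
  have hpos : 0 < Fintype.card Fˣ * Fintype.card F :=
    Nat.mul_pos hN Fintype.card_pos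
  have : (Fintype.card Fˣ + 4) * (Fintype.card Fˣ * Fintype.card F) =
      Nat.card (ConjClasses ((Cfsg.upperTriangularGL 2 F).comap
        Matrix.SpecialLinearGroup.toGL)) * (Fintype.card Fˣ * Fintype.card F) := by
    rw [← key]; ring
  have := Nat.eq_of_mul_eq_mul_right hpos this
  omega

end count

end Cfsg.Agent.H64.BorelSL2
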