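import Mathlib
import Cfsg.Agent.H42.UnDefs

/-!
# S5954 piece UN-HYP: a nonzero nondegenerate subspace contains a nondegenerate line
-/

set_option autoImplicit false

namespace Cfsg.Agent.H64.Un

open Cfsg.Agent.H45 Cfsg.Agent.H42.Spd Cfsg.Agent.H42.Un

universe u v

/-- UN-HYP. -/
theorem uHyp : StUHyp.{u, v} := by
  intro F _ _ σ V _ _ _ B T hI K hK hK0
  -- some vector of `K` is anisotropic
  have hex : ∃ u ∈ K, B u u ≠ 0 := by
    by_contra hcon
    push Not at hcon
    obtain ⟨a, ha⟩ := hI.nontriv
    have key : ∀ u ∈ K, ∀ v ∈ K, B u v = 0 := by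
      intro u hu v hv
      have h1 : ∀ u' ∈ K, B u' v + σ (B u' v) = 0 := by
        intro u' hu'
        have h := hcon (u' + v) (K.add_mem hu' hv)
        rw [map_add, map_add, LinearMap.add_apply, LinearMap.add_apply, hcon u' hu',
          hcon v hv, hI.herm u' v] at h
        rw [zero_add, add_zero] at h
        rw [← h]; ring
      have h2 := h1 u hu
      have h3 := h1 (a • u) (K.smul_mem a hu)
      rw [map_smul, LinearMap.smul_apply, smul_eq_mul, map_mul] at h3
      have h4 : σ (B u v) = - B u v := by linear_combination h2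
      rw [h4] at h3
      have h5 : (a - σ a) * B u v = 0 := by linear_combination h3
      rcases mul_eq_zero.mp h5 with h | h
      · exact absurd (sub_eq_zero.mp h).symm ha
      · exact h
    apply hK0
    rw [eq_bot_iff]
    intro x hx
    rw [← hK]
    exact ⟨hx, fun u hu => key u hu x hx⟩
  obtain ⟨u, hu, huu⟩ := hex
  have hu0 : u ≠ 0 := by
    rintro rfl
    simp at huu
  refine ⟨Submodule.span F {u}, ?_, ?_, finrank_span_singleton hu0⟩
  · rw [Submodule.span_le]
    simpa using hu
  · rw [eq_bot_iff]
    rintro x ⟨hx1, hx2⟩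
    obtain ⟨c, rfl⟩ := Submodule.mem_span_singleton.mp hx1
    have h := hx2 u (Submodule.mem_span_singleton_self u)
    rw [LinearMap.map_smulₛₗ, smul_eq_mul] at h
    rcases mul_eq_zero.mp h with h | h
    · have hc : c = 0 := by
        have := (RingHom.injective σ)
        exact this (by rw [h, map_zero])
      simp [hc]
    · exact absurd h huu

example : StUHyp.{u, v} := uHyp

end Cfsg.Agent.H64.Un
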