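import Mathlib

/-!
# S4221 (M. Hall): 4-transitive groups with odd 4-point stabilizer -- team project definitions

Piece statements for the team project led by helper64.  Every `...Stmt` below is a `Prop`;
a piece is a proof `theorem foo : Cfsg.Agent.H64.Hall4.XStmt := ...` in the prover's namespace.
-/

set_option autoImplicit false

namespace Cfsg.Agent.H64.Hall4

open Equiv

universe u v

section defs
variable {α : Type u} [Fintype α] [DecidableEq α]

/-- number of fixed points of a permutation -/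
def fixN (t : Perm α) : ℕ := (Finset.univ.filter (fun a => t a = a)).card

/-- `t` is an involution of `G` -/
def Inv (G : Subgroup (Perm α)) (t : Perm α) : Prop := t ∈ G ∧ t * t = 1 ∧ t ≠ 1

/-- concrete 4-transitivity -/
def T4 (G : Subgroup (Perm α)) : Prop :=
  ∀ a b c d a' b' c' d' : α, [a, b, c, d].Nodup → [a', b', c', d'].Nodup →
    ∃ g ∈ G, g a = a' ∧ g b = b' ∧ g c = c' ∧ g d = d'

/-- every element of `G` fixing four distinct points has odd order -/
def O4 (G : Subgroup (Perm α)) : Prop :=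
  ∀ g ∈ G, ∀ a b c d : α, [a, b, c, d].Nodup → g a = a → g b = b → g c = c → g d = d →
    Odd (orderOf g)

/-- conjugation trick: two involutions whose product fixes four points are conjugate by a power
of the product -/
def Trick (G : Subgroup (Perm α)) : Prop :=
  ∀ t ∈ G, ∀ t' ∈ G, t * t = 1 → t' * t' = 1 → ∀ a b c d : α, [a, b, c, d].Nodup →
    t (t' a) = a → t (t' b) = b → t (t' c) = c → t (t' d) = d →
    ∃ e ∈ Subgroup.zpowers (t * t'), e * t * e⁻¹ = t' ∧ ∀ x : α, t (t' x) = x → e x = x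

/-- the "2-part": if `g ^ 2` fixes four points then an odd power of `g` is an involution (or 1)
which agrees with `g` wherever `g ^ 2` fixes -/
def TwoPart (G : Subgroup (Perm α)) : Prop :=
  ∀ g ∈ G, ∀ a b c d : α, [a, b, c, d].Nodup →
    g (g a) = a → g (g b) = b → g (g c) = c → g (g d) = d →
    ∃ t ∈ Subgroup.zpowers g, t * t = 1 ∧ ∀ x : α, g (g x) = x → t x = g x

/-- lifting into the centralizer: if `g` commutes with the involution `y` on four points, then some
`h` centralizing `y` agrees with `g` on them; `h` lies in every subgroup containing `y` and `g` -/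
def CentLift (G : Subgroup (Perm α)) : Prop :=
  ∀ y ∈ G, ∀ g ∈ G, y * y = 1 → ∀ a b c d : α, [a, b, c, d].Nodup →
    y (g a) = g (y a) → y (g b) = g (y b) → y (g c) = g (y c) → y (g d) = g (y d) →
    ∃ h ∈ G, h * y = y * h ∧ h a = g a ∧ h b = g b ∧ h c = g c ∧ h d = g d ∧
      ∀ L : Subgroup (Perm α), y ∈ L → g ∈ L → h ∈ L

/-- involutions fix at most three points -/
def FixLe (G : Subgroup (Perm α)) : Prop := ∀ t, Inv G t → fixN t ≤ 3

/-- all four-point stabilizers have the same order -/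
def CardEq (G : Subgroup (Perm α)) : Prop :=
  ∀ a b c d a' b' c' d' : α, [a, b, c, d].Nodup → [a', b', c', d'].Nodup →
    Nat.card ↥(G ⊓ fixingSubgroup (Perm α) ({a, b, c, d} : Set α)) =
      Nat.card ↥(G ⊓ fixingSubgroup (Perm α) ({a', b', c', d'} : Set α))

/-- four-point stabilizers have odd order -/
def OddCard (G : Subgroup (Perm α)) : Prop :=
  ∀ a b c d : α, [a, b, c, d].Nodup →
    Odd (Nat.card ↥(G ⊓ fixingSubgroup (Perm α) ({a, b, c, d} : Set α)))

/-- the basic toolkit -/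
structure Basic (G : Subgroup (Perm α)) : Prop where
  t4 : T4 G
  o4 : O4 G
  trick : Trick G
  twoPart : TwoPart G
  centLift : CentLift G
  fixLe : FixLe G
  cardEq : CardEq G
  oddCard : OddCard G

/-- all involutions of `G` are conjugate -/
def InvConj (G : Subgroup (Perm α)) : Prop :=
  ∀ t t', Inv G t → Inv G t' → ∃ g ∈ G, g * t * g⁻¹ = t'

/-- all involutions of `G` have the same number of fixed points -/
def FixEq (G : Subgroup (Perm α)) : Prop := ∀ t t', Inv G t → Inv G t' → fixN t = fixN t'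

/-- configuration: commuting involutions `y = (a)(b)(c d)…`, `z = (a b)(c)(d)…` of `G` -/
structure Conf (G : Subgroup (Perm α)) (y z : Perm α) (a b c d : α) : Prop where
  hy : y ∈ G
  hz : z ∈ G
  y2 : y * y = 1
  z2 : z * z = 1
  comm : y * z = z * y
  nodup : [a, b, c, d].Nodup
  ya : y a = a
  yb : y b = b
  yc : y c = d
  yd : y d = c
  za : z a = b
  zb : z b = a
  zc : z c = c
  zd : z d = d

/-- `e` lies in a regular orbit of the four-group `⟨y, z⟩` -/
def Reg (y z : Perm α) (e : α) : Prop := y e ≠ e ∧ z e ≠ e ∧ y (z e) ≠ e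

end defs

/-! ## Basic pieces -/

/-- H4-B1 -/
def BasicAStmt : Prop :=
  ∀ {α : Type u} [Fintype α] [DecidableEq α] (G : Subgroup (Perm α)),
    O4 G → Trick G ∧ TwoPart G ∧ FixLe G

/-- H4-B2 -/
def BasicBStmt : Prop :=
  ∀ {α : Type u} [Fintype α] [DecidableEq α] (G : Subgroup (Perm α)),
    Trick G → CentLift G

/-- H4-B3 -/
def BasicCStmt : Prop :=
  ∀ {α : Type u} [Fintype α] [DecidableEq α] (G : Subgroup (Perm α)),
    T4 G → O4 G → CardEq G ∧ OddCard G

/-! ## Main pieces (degree at least 8) -/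

/-- H4-CONJ -/
def ConjStmt : Prop :=
  ∀ {α : Type u} [Fintype α] [DecidableEq α] (G : Subgroup (Perm α)),
    Basic G → 8 ≤ Fintype.card α →
      InvConj G ∧ FixEq G ∧ ∀ t, Inv G t → 2 ≤ fixN t

/-- H4-MOD4 -/
def Mod4Stmt : Prop :=
  ∀ {α : Type u} [Fintype α] [DecidableEq α] (G : Subgroup (Perm α)),
    Basic G → 8 ≤ Fintype.card α →
      ∀ t, Inv G t → 4 ∣ Fintype.card α - fixN t

/-- H4-C0A -/
def C0ConstStmt : Prop :=
  ∀ {α : Type u} [Fintype α] [DecidableEq α] (G : Subgroup (Perm α)),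
    Basic G → ∀ t t', Inv G t → Inv G t' → ∀ a b a' b' : α,
      t a ≠ a → t b ≠ b → b ≠ a → b ≠ t a → t' a' ≠ a' → t' b' ≠ b' → b' ≠ a' → b' ≠ t' a' →
      Nat.card ↥(G ⊓ Subgroup.centralizer {t} ⊓
          fixingSubgroup (Perm α) ({a, t a, b, t b} : Set α)) =
        Nat.card ↥(G ⊓ Subgroup.centralizer {t'} ⊓
          fixingSubgroup (Perm α) ({a', t' a', b', t' b'} : Set α))

/-- H4-C0B -/
def C0OrbitStmt : Prop :=
  ∀ {α : Type u} [Fintype α] [DecidableEq α] (G : Subgroup (Perm α)),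
    Basic G → ∀ t, Inv G t → ∀ a b : α, t a ≠ a → t b ≠ b → b ≠ a → b ≠ t a →
      Nat.card ↥(G ⊓ Subgroup.centralizer {t} ⊓ fixingSubgroup (Perm α) ({a, t a} : Set α)) =
        (Fintype.card α - fixN t - 2) *
          Nat.card ↥(G ⊓ Subgroup.centralizer {t} ⊓
            fixingSubgroup (Perm α) ({a, t a, b, t b} : Set α))

/-- H4-CHY -/
def CHyStmt : Prop :=
  ∀ {α : Type u} [Fintype α] [DecidableEq α] (G : Subgroup (Perm α)),
    Basic G → ∀ t, Inv G t → ∀ p q r : α, t p = p → t q = q → p ≠ q → t r ≠ r →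
      fixN t * (fixN t - 1) *
          Nat.card ↥(G ⊓ Subgroup.centralizer {t} ⊓
            fixingSubgroup (Perm α) ({p, q, r, t r} : Set α)) =
        Nat.card ↥(G ⊓ Subgroup.centralizer {t} ⊓ fixingSubgroup (Perm α) ({r, t r} : Set α))

/-- H4-FOUR -/
def FourStmt : Prop :=
  ∀ {α : Type u} [Fintype α] [DecidableEq α] (G : Subgroup (Perm α)),
    Basic G → ∀ a b c d : α, [a, b, c, d].Nodup → ∃ y z, Conf G y z a b c d

/-- H4-CU -/
def CUStmt : Prop :=
  ∀ {α : Type u} [Fintype α] [DecidableEq α] (G : Subgroup (Perm α)),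
    Basic G → ∀ (y z : Perm α) (a b c d : α), Conf G y z a b c d →
      Nat.card ↥(G ⊓ Subgroup.centralizer {y} ⊓ Subgroup.centralizer {z}) =
        4 * Nat.card ↥(G ⊓ Subgroup.centralizer {y} ⊓ Subgroup.centralizer {z} ⊓
          fixingSubgroup (Perm α) ({a, b, c, d} : Set α))

/-- H4-REGCNT -/
def RegCountStmt : Prop :=
  ∀ {α : Type u} [Fintype α] [DecidableEq α] (G : Subgroup (Perm α)),
    Basic G → FixEq G → ∀ (y z : Perm α) (a b c d : α), Conf G y z a b c d →
      Set.ncard {e : α | Reg y z e} = Fintype.card α - fixN y - 4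

/-- H4-REGTR -/
def RegTransStmt : Prop :=
  ∀ {α : Type u} [Fintype α] [DecidableEq α] (G : Subgroup (Perm α)),
    Basic G → ∀ y ∈ G, ∀ z ∈ G, y * y = 1 → z * z = 1 → y * z = z * y →
      ∀ e e' : α, Reg y z e → Reg y z e' →
        ∃ h ∈ G, h * y = y * h ∧ h * z = z * h ∧ h e = e'

/-- H4-REGORB (generic orbit-stabilizer) -/
def RegOrbStmt : Prop :=
  ∀ {α : Type u} [Fintype α] [DecidableEq α] (G : Subgroup (Perm α)) (y z : Perm α),
    y * z = z * y →
    (∀ e e' : α, Reg y z e → Reg y z e' → ∃ h ∈ G, h * y = y * h ∧ h * z = z * h ∧ h e = e') →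
    ∀ e : α, Reg y z e →
      Nat.card ↥(G ⊓ Subgroup.centralizer {y} ⊓ Subgroup.centralizer {z}) =
        Set.ncard {e : α | Reg y z e} *
          Nat.card ↥(G ⊓ Subgroup.centralizer {y} ⊓ Subgroup.centralizer {z} ⊓
            fixingSubgroup (Perm α) ({e, y e, z e, y (z e)} : Set α))

/-- H4-C0ONE -/
def C0OneStmt : Prop :=
  ∀ {α : Type u} [Fintype α] [DecidableEq α] (G : Subgroup (Perm α)),
    Basic G → ∀ t, Inv G t → fixN t + 8 = Fintype.card α →
      ∀ a b : α, t a ≠ a → t b ≠ b → b ≠ a → b ≠ t a →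
        Nat.card ↥(G ⊓ Subgroup.centralizer {t} ⊓
          fixingSubgroup (Perm α) ({a, t a, b, t b} : Set α)) = 1

/-! ## Brauer–Wielandt for a four-group acting on a group of odd order -/

/-- H4-BWA -/
def BWAStmt : Prop :=
  ∀ {Γ : Type v} [Group Γ] (H : Subgroup Γ) [Finite H] (a : Γ),
    Odd (Nat.card H) → a * a = 1 → (∀ h ∈ H, a * h * a⁻¹ ∈ H) →
      Nat.card H = Nat.card ↥(H ⊓ Subgroup.centralizer {a}) *
        Set.ncard {h : Γ | h ∈ H ∧ a * h * a⁻¹ = h⁻¹}

/-- H4-BWB -/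
def BWBStmt : Prop :=
  ∀ {Γ : Type v} [Group Γ] (H : Subgroup Γ) [Finite H] (a b : Γ),
    Odd (Nat.card H) → a * a = 1 → b * b = 1 → a * b = b * a →
    (∀ h ∈ H, a * h * a⁻¹ ∈ H) → (∀ h ∈ H, b * h * b⁻¹ ∈ H) →
      Set.ncard {h : Γ | h ∈ H ∧ a * h * a⁻¹ = h⁻¹} =
        Set.ncard {h : Γ | h ∈ H ∧ a * h * a⁻¹ = h⁻¹ ∧ b * h * b⁻¹ = h⁻¹} *
          Set.ncard {h : Γ | h ∈ H ∧ a * h * a⁻¹ = h⁻¹ ∧ b * h * b⁻¹ = h}

/-- the Brauer–Wielandt formula -/
def BWStmt : Prop :=
  ∀ {Γ : Type v} [Group Γ] (H : Subgroup Γ) [Finite H] (a b : Γ),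
    Odd (Nat.card H) → a * a = 1 → b * b = 1 → a * b = b * a →
    (∀ h ∈ H, a * h * a⁻¹ ∈ H) → (∀ h ∈ H, b * h * b⁻¹ ∈ H) →
      Nat.card H *
          Nat.card ↥(H ⊓ Subgroup.centralizer {a} ⊓ Subgroup.centralizer {b}) ^ 2 =
        Nat.card ↥(H ⊓ Subgroup.centralizer {a}) * Nat.card ↥(H ⊓ Subgroup.centralizer {b}) *
          Nat.card ↥(H ⊓ Subgroup.centralizer {a * b})

/-- H4-BWC -/
def BWCStmt : Prop := BWAStmt.{v} → BWBStmt.{v} → BWStmt.{v}

/-! ## Small degrees and the bridge from the frozen hypotheses -/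

/-- H4-SM45 -/
def Small45Stmt : Prop :=
  ∀ {α : Type u} [Fintype α] [DecidableEq α] (G : Subgroup (Perm α)),
    T4 G → (Fintype.card α = 4 ∨ Fintype.card α = 5) → G = ⊤

/-- H4-SM6 -/
def Small6Stmt : Prop :=
  ∀ {α : Type u} [Fintype α] [DecidableEq α] (G : Subgroup (Perm α)),
    MulAction.IsMultiplyPretransitive G α 4 → ∀ x : Fin 4 ↪ α,
    Odd (Nat.card (MulAction.stabilizer G x)) →
    Nat.card G = Fintype.card α * (Fintype.card α - 1) * (Fintype.card α - 2) *
      (Fintype.card α - 3) * Nat.card (MulAction.stabilizer G x) →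
    T4 G → O4 G → Fintype.card α = 6 → G = alternatingGroup α

/-- H4-SM7 -/
def Small7Stmt : Prop :=
  ∀ {α : Type u} [Fintype α] [DecidableEq α] (G : Subgroup (Perm α)),
    MulAction.IsMultiplyPretransitive G α 4 → ∀ x : Fin 4 ↪ α,
    Odd (Nat.card (MulAction.stabilizer G x)) →
    Nat.card G = Fintype.card α * (Fintype.card α - 1) * (Fintype.card α - 2) *
      (Fintype.card α - 3) * Nat.card (MulAction.stabilizer G x) →
    T4 G → O4 G → Fintype.card α = 7 → G = alternatingGroup α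

/-- H4-BR1 -/
def BridgeStmt : Prop :=
  ∀ {α : Type u} [Fintype α] [DecidableEq α] (G : Subgroup (Perm α)),
    MulAction.IsMultiplyPretransitive G α 4 → ∀ x : Fin 4 ↪ α,
    Odd (Nat.card (MulAction.stabilizer G x)) → T4 G ∧ O4 G

/-- H4-BR2 -/
def BridgeCardStmt : Prop :=
  ∀ {α : Type u} [Fintype α] [DecidableEq α] (G : Subgroup (Perm α)),
    MulAction.IsMultiplyPretransitive G α 4 → ∀ x : Fin 4 ↪ α,
      Nat.card G = Fintype.card α * (Fintype.card α - 1) * (Fintype.card α - 2) *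
        (Fintype.card α - 3) * Nat.card (MulAction.stabilizer G x) ∧
      Nat.card (MulAction.stabilizer G x) =
        Nat.card ↥(G ⊓ fixingSubgroup (Perm α) ({x 0, x 1, x 2, x 3} : Set α))

end Cfsg.Agent.H64.Hall4
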