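import Cfsg.Agent.H64.JzDefs

/-!
# S2951 from the clause statement `StMain` (team project JZ), second form

Same as `result_of` of `H64/JzAsm.lean`, but the S2946 fact `|Z₀ ∩ W_K| = 2` is a hypothesis, so
that this file does not import `Cfsg.Agent.S2946` (whose closure cannot be imported together with
the closure of S2950).
-/

set_option autoImplicit false
open Cfsg

namespace Cfsg.Agent.H64.Jz

universe u

/-- S2951 from `StMain` and the S2946 fact for `G`. -/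
theorem result_from (h : StMain.{u}) {G : Type u} [Group G] [Finite G]
    (h46 : ∀ (T : Subgroup G), IsPGroup 2 ↥T → T ≠ ⊥ → ∀ K : Subgroup G,
      Cfsg.IsJComponent T K →
      Nat.card ↥(Cfsg.omegaCenterOf (Cfsg.thompsonSubgroupOf 2 T) ⊓ Cfsg.wOf K) = 2)
    (hL : Cfsg.IsCharacteristicTwoType G)
    (hN : ∀ N : Subgroup G, Cfsg.IsTwoLocal N → Group.IsSolvable ↥N)
    (hZ : ∀ S : Sylow 2 G, Subgroup.centralizer (Cfsg.omegaCenterOf (S : Subgroup G) : Set G) ≤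
      Subgroup.normalizer ((S : Subgroup G) : Set G))
    (hO : Cfsg.pCore 2 G = ⊥) (S : Sylow 2 G) (M : Subgroup G) (hM : Cfsg.IsTwoLocal M)
    (hMJ : Subgroup.normalizer (Cfsg.thompsonSubgroupOf 2 (S : Subgroup G) : Set G) ≤ M)
    (T : Subgroup G) (hT : T ∈ Cfsg.maxStraddlingTwoSubgroups M)
    (hTS : T ≤ (S : Subgroup G)) (K : Subgroup G) (hK : K ∈ Cfsg.jComponentsOutside M T)
    (L : Subgroup G) (hLmax : Cfsg.IsMaximalTwoLocal L)
    (hKL : K ⊔ Cfsg.thompsonSubgroupOf 2 T ≤ L)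
    (Z Z₀ : Subgroup G) (hZdef : Z = Cfsg.omegaCenterOf (S : Subgroup G))
    (hZ₀ : Z₀ = Cfsg.omegaCenterOf (Cfsg.thompsonSubgroupOf 2 T)) :
    Z₀ ⊓ Cfsg.wOf K ≠ ⊥ ∧
      ((Z = Z₀ ∧ Nat.card ↥Z₀ = 2) ∨ (Z = Z₀ ∧ Nat.card ↥Z₀ = 4 ∧ T = (S : Subgroup G)) ∨
        (Cfsg.omegaCenterOf T = Z₀ ∧ Nat.card ↥Z₀ = 4 ∧
          (L ⊓ Subgroup.centralizer (Z₀ : Set G)).relIndex
            (Subgroup.normalizer (Z₀ : Set G)) = 2)) := by
  subst hZdef hZ₀
  refine ⟨?_, ?_⟩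
  · have hT' := hT.1
    have h46' := h46 T hT'.1 hT'.2.1 K hK.1.1
    intro hbot
    rw [hbot] at h46'
    simp at h46'
  · exact h S M T K L ⟨⟨hL, hN, hZ⟩, hO, hM, hMJ, hT, hTS, hK, hLmax, hKL⟩

end Cfsg.Agent.H64.Jz

#print axioms Cfsg.Agent.H64.Jz.result_from
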