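import Mathlib
import Cfsg.Agent.H42.JtDefs

set_option autoImplicit false

namespace Cfsg.Agent.H64.Jt

open Cfsg.Agent.H42.Jt

theorem sum_range_lt (m e : ℕ) : ∑ i ∈ Finset.range m, (if i < e then 1 else 0) = min e m := by
  induction m with
  | zero => simp
  | succ m ih =>
    rw [Finset.sum_range_succ, ih]
    split_ifs <;> omega

/-- the truncated shift of a chain index. -/
def sh {κ : Type} (n : κ → ℕ) (e : ℕ) (i : Σ k : κ, Fin (n k)) : Σ k : κ, Fin (n k) :=
  ⟨i.1, ⟨(i.2 : ℕ) - e, lt_of_le_of_lt (Nat.sub_le _ _) i.2.2⟩⟩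

theorem sh_inj {κ : Type} (n : κ → ℕ) (e : ℕ) {i i' : Σ k : κ, Fin (n k)}
    (hi : e ≤ (i.2 : ℕ)) (hi' : e ≤ (i'.2 : ℕ)) (h : sh n e i = sh n e i') : i = i' := by
  rcases i with ⟨k, j⟩
  rcases i' with ⟨k', j'⟩
  simp only [sh, Sigma.mk.injEq] at h
  obtain ⟨rfl, h2⟩ := h
  have h3 := congr_arg Fin.val (eq_of_heq h2)
  simp only at h3 hi hi'
  have : (j : ℕ) = j' := by omega
  rw [Fin.ext this]

theorem pow_chain {F : Type*} [Field F] {V : Type*} [AddCommGroup V] [Module F V]
    {κ : Type} (n : κ → ℕ) (b : Module.Basis (Σ k : κ, Fin (n k)) F V)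
    (N : Module.End F V) (h0 : ∀ (k : κ) (j : Fin (n k)), (j : ℕ) = 0 → N (b ⟨k, j⟩) = 0)
    (hs : ∀ (k : κ) (j j' : Fin (n k)), (j : ℕ) = (j' : ℕ) + 1 → N (b ⟨k, j⟩) = b ⟨k, j'⟩)
    (e : ℕ) (i : Σ k : κ, Fin (n k)) :
    (N ^ e) (b i) = if e ≤ (i.2 : ℕ) then b (sh n e i) else 0 := by
  induction e with
  | zero =>
    rcases i with ⟨k, j⟩
    simp [sh]
  | succ e ih =>
    rw [pow_succ', Module.End.mul_apply, ih]
    rcases i with ⟨k, j⟩
    by_cases h1 : e + 1 ≤ (j : ℕ)
    · rw [if_pos (by omega : e ≤ (j : ℕ)), if_pos h1]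
      exact hs k _ _ (by simp only [sh]; omega)
    · rw [if_neg h1]
      by_cases h2 : e ≤ (j : ℕ)
      · rw [if_pos h2]
        exact h0 k _ (by simp only [sh]; omega)
      · rw [if_neg h2, map_zero]

theorem kd_of_chains {F : Type*} [Field F] {V : Type*} [AddCommGroup V] [Module F V] [FiniteDimensional F V] {κ : Type} [Fintype κ] (n : κ → ℕ) (b : Module.Basis (Σ k : κ, Fin (n k)) F V) (N : Module.End F V) (h0 : ∀ (k : κ) (j : Fin (n k)), (j : ℕ) = 0 → N (b ⟨k, j⟩) = 0) (hs : ∀ (k : κ) (j j' : Fin (n k)), (j : ℕ) = (j' : ℕ) + 1 → N (b ⟨k, j⟩) = b ⟨k, j'⟩) (e : ℕ) : kd N e = ∑ k : κ, min e (n k) := by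
  classical
  have hpow := pow_chain n b N h0 hs e
  have hker : LinearMap.ker (N ^ e)
      = Submodule.span F (Set.range (fun i : {i : Σ k : κ, Fin (n k) // (i.2 : ℕ) < e} => b i.1)) := by
    apply le_antisymm
    · intro v hv
      rw [LinearMap.mem_ker] at hv
      have hrepr := b.sum_repr v
      have hc : ∀ i₀ : Σ k : κ, Fin (n k), e ≤ (i₀.2 : ℕ) → b.repr v i₀ = 0 := by
        intro i₀ hi₀
        have h1 : (N ^ e) v = ∑ i, b.repr v i • (if e ≤ (i.2 : ℕ) then b (sh n e i) else 0) := by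
          conv_lhs => rw [← hrepr]
          rw [map_sum]
          refine Finset.sum_congr rfl (fun i _ => ?_)
          rw [map_smul, hpow]
        rw [hv] at h1
        have h2 := congr_arg (fun w => b.repr w (sh n e i₀)) h1
        simp only [map_zero, Finsupp.zero_apply, map_sum, Finsupp.coe_finsetSum, Finset.sum_apply,
          map_smul, Finsupp.smul_apply, smul_eq_mul] at h2
        rw [Finset.sum_eq_single i₀] at h2
        · rw [if_pos hi₀, Module.Basis.repr_self_apply, if_pos rfl, mul_one] at h2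
          exact h2.symm
        · intro i _ hne
          by_cases hi : e ≤ (i.2 : ℕ)
          · rw [if_pos hi, Module.Basis.repr_self_apply, if_neg, mul_zero]
            intro h
            exact hne (sh_inj n e hi hi₀ h)
          · rw [if_neg hi, map_zero, Finsupp.zero_apply, mul_zero]
        · intro h
          exact absurd (Finset.mem_univ _) h
      rw [← hrepr]
      refine Submodule.sum_mem _ (fun i _ => ?_)
      by_cases hi : (i.2 : ℕ) < e
      · exact Submodule.smul_mem _ _ (Submodule.subset_span ⟨⟨i, hi⟩, rfl⟩)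
      · rw [hc i (by omega), zero_smul]
        exact Submodule.zero_mem _
    · rw [Submodule.span_le]
      rintro _ ⟨⟨i, hi⟩, rfl⟩
      rw [SetLike.mem_coe, LinearMap.mem_ker, hpow, if_neg (not_le.mpr hi)]
  unfold kd
  have hfam : (fun i : {i : Σ k : κ, Fin (n k) // (i.2 : ℕ) < e} => b i.1) = b ∘ Subtype.val := rfl
  rw [hker, hfam,
    finrank_span_eq_card (b.linearIndependent.comp Subtype.val Subtype.val_injective),
    Fintype.card_subtype, Finset.card_filter, Fintype.sum_sigma]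
  refine Finset.sum_congr rfl (fun k _ => ?_)
  rw [← sum_range_lt (n k) e]
  exact Fin.sum_univ_eq_sum_range (fun i => if i < e then 1 else 0) (n k)

end Cfsg.Agent.H64.Jt
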