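import Mathlib
import Cfsg.Agent.H42.JtDefs
import Cfsg.Agent.H64.JtShift

set_option autoImplicit false

namespace Cfsg.Agent.H64.Jt

open Cfsg.Agent.H42.Jt Matrix

/-- skewness of `J ⊕ -Jᵀ` for the hyperbolic form. -/
theorem polar_plus {F : Type*} [Field F] (e : ℕ) (J : Matrix (Fin e) (Fin e) F)
    (w : Fin e ⊕ Fin e → F) :
    QuadraticMap.polar (Cfsg.quadFormPlus e F) w
      ((Matrix.fromBlocks J 0 0 (-Jᵀ)).mulVec w) = 0 := by
  have h1 : ∀ i, ((Matrix.fromBlocks J 0 0 (-Jᵀ)).mulVec w) (Sum.inl i)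
      = (J.mulVec (w ∘ Sum.inl)) i := by
    intro i
    rw [Matrix.fromBlocks_mulVec]
    simp
  have h2 : ∀ i, ((Matrix.fromBlocks J 0 0 (-Jᵀ)).mulVec w) (Sum.inr i)
      = -(Jᵀ.mulVec (w ∘ Sum.inr)) i := by
    intro i
    rw [Matrix.fromBlocks_mulVec]
    simp [Matrix.neg_mulVec]
  have h3 : (w ∘ Sum.inl) ⬝ᵥ (Jᵀ.mulVec (w ∘ Sum.inr))
      = (J.mulVec (w ∘ Sum.inl)) ⬝ᵥ (w ∘ Sum.inr) := by
    rw [Matrix.dotProduct_mulVec, Matrix.vecMul_transpose]
  unfold QuadraticMap.polar Cfsg.quadFormPlus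
  simp only [Pi.add_apply, h1, h2]
  simp only [dotProduct, Function.comp] at h3
  rw [← Finset.sum_sub_distrib, ← Finset.sum_sub_distrib]
  have h4 : ∀ i, (w (Sum.inl i) + (J.mulVec (w ∘ Sum.inl)) i)
        * (w (Sum.inr i) + -(Jᵀ.mulVec (w ∘ Sum.inr)) i) - w (Sum.inl i) * w (Sum.inr i)
        - (J.mulVec (w ∘ Sum.inl)) i * -(Jᵀ.mulVec (w ∘ Sum.inr)) i
      = (J.mulVec (w ∘ Sum.inl)) i * w (Sum.inr i)
        - w (Sum.inl i) * (Jᵀ.mulVec (w ∘ Sum.inr)) i := by
    intro i; ring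
  simp only [h4]
  rw [Finset.sum_sub_distrib]
  rw [← h3, sub_self]

/-- the nilpotent Jordan block `e_j ↦ e_{j-1}`. -/
def Jb (F : Type*) [Field F] (e : ℕ) : Matrix (Fin e) (Fin e) F :=
  fun i j => if (j : ℕ) = (i : ℕ) + 1 then 1 else 0

/-- index equivalence for the two chains. -/
def ev (e : ℕ) : (Σ _ : Bool, Fin e) ≃ Fin e ⊕ Fin e where
  toFun i := if i.1 then Sum.inr (Fin.rev i.2) else Sum.inl i.2
  invFun s := Sum.elim (fun j => ⟨false, j⟩) (fun j => ⟨true, Fin.rev j⟩) s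
  left_inv := by rintro ⟨k, j⟩; cases k <;> simp
  right_inv := by rintro (j | j) <;> simp

theorem HD_pair {F : Type*} [Field F] (e : ℕ) : HD (Cfsg.quadFormPlus e F) {e, e} := by
  classical
  refine ⟨Matrix.fromBlocks (Jb F e) 0 0 (-(Jb F e)ᵀ), polar_plus e (Jb F e), ?_⟩
  intro e'
  let wt : (Σ _ : Bool, Fin e) → Fˣ := fun i => if i.1 then (-1) ^ (i.2 : ℕ) else 1
  let b : Module.Basis (Σ _ : Bool, Fin e) F (Fin e ⊕ Fin e → F) :=
    ((Pi.basisFun F (Fin e ⊕ Fin e)).reindex (ev e).symm).unitsSMul wt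
  have hb : ∀ i, b i = (wt i : F) • Pi.single (ev e i) (1 : F) := by
    intro i
    simp only [b, Module.Basis.unitsSMul_apply, Module.Basis.reindex_apply, Equiv.symm_symm,
      Pi.basisFun_apply]
    rfl
  have hN : ∀ s : Fin e ⊕ Fin e,
      Matrix.toLin' (Matrix.fromBlocks (Jb F e) 0 0 (-(Jb F e)ᵀ)) (Pi.single s 1)
        = fun i => (Matrix.fromBlocks (Jb F e) 0 0 (-(Jb F e)ᵀ)) i s := by
    intro s
    rw [Matrix.toLin'_apply, Matrix.mulVec_single_one]
    rfl
  rw [kd_of_chains (fun _ : Bool => e) b _ ?_ ?_ e']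
  · simp [two_mul]
  · intro k j hj
    rw [hb, map_smul, hN]
    cases k
    · funext i
      rcases i with i | i
      · simp [wt, ev, Jb, hj]
      · simp [wt, ev]
    · funext i
      rcases i with i | i
      · simp [wt, ev]
      · have : ¬ ((i : ℕ) = e - ((j : ℕ) + 1) + 1) := by
          have := i.2
          omega
        simp [wt, ev, Jb, this]
  · intro k j j' hj
    rw [hb, hb, map_smul, hN]
    cases k
    · funext i
      rcases i with i | i
      · have : ((j : ℕ) = (i : ℕ) + 1) ↔ i = j' := by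
          rw [Fin.ext_iff]; omega
        simp [wt, ev, Jb, this, Pi.single_apply]
      · simp [wt, ev]
    · funext i
      rcases i with i | i
      · simp [wt, ev]
      · have : ((i : ℕ) = e - ((j : ℕ) + 1) + 1) ↔ i = Fin.rev j' := by
          rw [Fin.ext_iff, Fin.val_rev]
          have := j.2
          omega
        simp only [wt, ev, hj]
        simp [Jb, this, Pi.single_apply, pow_succ]
        split_ifs <;> simp

end Cfsg.Agent.H64.Jt
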