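import Mathlib
import Cfsg.Agent.H42.JtDefs
import Cfsg.Agent.H64.JtShift
import Cfsg.Agent.H64.JtEven

set_option autoImplicit false

namespace Cfsg.Agent.H64.Jt

open Cfsg.Agent.H42.Jt Matrix

theorem polar_plus_add {F : Type*} [Field F] (t : ℕ) (w u v : Fin t ⊕ Fin t → F) :
    QuadraticMap.polar (Cfsg.quadFormPlus t F) w (u + v)
      = QuadraticMap.polar (Cfsg.quadFormPlus t F) w u
        + QuadraticMap.polar (Cfsg.quadFormPlus t F) w v := by
  unfold QuadraticMap.polar Cfsg.quadFormPlus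
  simp only [Pi.add_apply]
  simp only [← Finset.sum_sub_distrib, ← Finset.sum_add_distrib]
  refine Finset.sum_congr rfl (fun i _ => ?_)
  ring

/-- the odd-dimensional form with parameter γ. -/
def Qo {F : Type*} [Field F] (γ : F) (t : ℕ) (v : Unit ⊕ (Fin t ⊕ Fin t) → F) : F :=
  γ * v (Sum.inl ()) ^ 2 + ∑ i : Fin t, v (Sum.inr (Sum.inl i)) * v (Sum.inr (Sum.inr i))

theorem polar_Qo {F : Type*} [Field F] (γ : F) (t : ℕ) (w z : Unit ⊕ (Fin t ⊕ Fin t) → F) :
    QuadraticMap.polar (Qo γ t) w z = 2 * γ * w (Sum.inl ()) * z (Sum.inl ())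
      + QuadraticMap.polar (Cfsg.quadFormPlus t F) (w ∘ Sum.inr) (z ∘ Sum.inr) := by
  unfold QuadraticMap.polar Cfsg.quadFormPlus Qo
  simp only [Pi.add_apply, Function.comp]
  ring

def Bo (F : Type*) [Field F] (t : ℕ) : Matrix Unit (Fin t ⊕ Fin t) F :=
  fun _ s => Sum.elim (fun _ => 0) (fun i : Fin t => if (i : ℕ) + 1 = t then -1 else 0) s

def Co {F : Type*} [Field F] (γ : F) (t : ℕ) : Matrix (Fin t ⊕ Fin t) Unit F :=
  fun r _ => Sum.elim (fun i : Fin t => if (i : ℕ) + 1 = t then 2 * γ else 0) (fun _ => 0) r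

def No {F : Type*} [Field F] (γ : F) (t : ℕ) :
    Matrix (Unit ⊕ (Fin t ⊕ Fin t)) (Unit ⊕ (Fin t ⊕ Fin t)) F :=
  Matrix.fromBlocks 0 (Bo F t) (Co γ t) (Matrix.fromBlocks (Jb F t) 0 0 (-(Jb F t)ᵀ))

theorem polar_No {F : Type*} [Field F] (γ : F) (t : ℕ) (w : Unit ⊕ (Fin t ⊕ Fin t) → F) :
    QuadraticMap.polar (Qo γ t) w ((No γ t).mulVec w) = 0 := by
  have hm : ((No γ t).mulVec w) (Sum.inl ())
      = ∑ i : Fin t, (if (i : ℕ) + 1 = t then -1 else 0) * w (Sum.inr (Sum.inr i)) := by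
    unfold No
    rw [Matrix.fromBlocks_mulVec]
    simp [Matrix.mulVec, dotProduct, Bo]
  have hr : ((No γ t).mulVec w) ∘ Sum.inr
      = (fun r => Co γ t r () * w (Sum.inl ()))
        + (Matrix.fromBlocks (Jb F t) 0 0 (-(Jb F t)ᵀ)).mulVec (w ∘ Sum.inr) := by
    unfold No
    rw [Matrix.fromBlocks_mulVec]
    funext r
    simp [Matrix.mulVec, dotProduct]
  rw [polar_Qo, hr, polar_plus_add, polar_plus, add_zero, hm]
  unfold QuadraticMap.polar Cfsg.quadFormPlus
  simp only [Pi.add_apply, Function.comp, Co, Sum.elim_inl, Sum.elim_inr]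
  rw [Finset.mul_sum, ← Finset.sum_sub_distrib, ← Finset.sum_sub_distrib, ← Finset.sum_add_distrib]
  refine Finset.sum_eq_zero (fun i _ => ?_)
  split_ifs <;> ring

theorem No_colE_zero {F : Type*} [Field F] (γ : F) (t : ℕ) (j : Fin t) (h : (j : ℕ) = 0) :
    (fun r => No γ t r (Sum.inr (Sum.inl j))) = 0 := by
  funext r
  rcases r with (_ | i | i) <;> simp [No, Bo, Jb, h]

theorem No_colE_succ {F : Type*} [Field F] (γ : F) (t : ℕ) (j j' : Fin t)
    (h : (j : ℕ) = (j' : ℕ) + 1) :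
    (fun r => No γ t r (Sum.inr (Sum.inl j))) = Pi.single (Sum.inr (Sum.inl j')) 1 := by
  funext r
  rcases r with (_ | i | i)
  · simp [No, Bo]
  · have : ((j : ℕ) = (i : ℕ) + 1) ↔ i = j' := by rw [Fin.ext_iff]; omega
    simp [No, Jb, this, Pi.single_apply]
  · simp [No]

theorem No_colM_zero {F : Type*} [Field F] (γ : F) (t : ℕ) (h : t = 0) :
    (fun r => No γ t r (Sum.inl ())) = 0 := by
  funext r
  rcases r with (_ | i | i)
  · simp [No]
  · exact absurd i.2 (by omega)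
  · simp [No, Co]

theorem No_colM_succ {F : Type*} [Field F] (γ : F) (t : ℕ) (j' : Fin t)
    (h : (j' : ℕ) + 1 = t) :
    (fun r => No γ t r (Sum.inl ())) = (2 * γ) • Pi.single (Sum.inr (Sum.inl j')) (1 : F) := by
  funext r
  rcases r with (_ | i | i)
  · simp [No]
  · have : ((i : ℕ) + 1 = t) ↔ i = j' := by rw [Fin.ext_iff]; omega
    simp [No, Co, this, Pi.single_apply]
  · simp [No, Co]

theorem No_colF_succ {F : Type*} [Field F] (γ : F) (t : ℕ) (j j' : Fin t)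
    (h : (j' : ℕ) = (j : ℕ) + 1) :
    (fun r => No γ t r (Sum.inr (Sum.inr j))) = -Pi.single (Sum.inr (Sum.inr j')) (1 : F) := by
  funext r
  rcases r with (_ | i | i)
  · have : ¬ ((j : ℕ) + 1 = t) := by have := j'.2; omega
    simp [No, Bo, this]
  · simp [No]
  · have : ((i : ℕ) = (j : ℕ) + 1) ↔ i = j' := by rw [Fin.ext_iff]; omega
    simp [No, Jb, this, Pi.single_apply]

theorem No_colF_last {F : Type*} [Field F] (γ : F) (t : ℕ) (j : Fin t)
    (h : (j : ℕ) + 1 = t) :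
    (fun r => No γ t r (Sum.inr (Sum.inr j))) = -Pi.single (Sum.inl ()) (1 : F) := by
  funext r
  rcases r with (_ | i | i)
  · simp [No, Bo, h]
  · simp [No]
  · have : ¬ ((i : ℕ) = (j : ℕ) + 1) := by have := i.2; omega
    simp [No, Jb, this]

/-- position `p` in the chain ↦ coordinate. -/
def idx (t : ℕ) (p : Fin (2 * t + 1)) : Unit ⊕ (Fin t ⊕ Fin t) :=
  if h : (p : ℕ) < t then Sum.inr (Sum.inl ⟨p, h⟩)
  else if h' : (p : ℕ) = t then Sum.inl ()
  else Sum.inr (Sum.inr ⟨2 * t - (p : ℕ), by have := p.2; omega⟩)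

/-- coordinate ↦ position in the chain. -/
def idxInv (t : ℕ) : Unit ⊕ (Fin t ⊕ Fin t) → Fin (2 * t + 1)
  | Sum.inl _ => ⟨t, by omega⟩
  | Sum.inr (Sum.inl i) => ⟨i, by have := i.2; omega⟩
  | Sum.inr (Sum.inr i) => ⟨2 * t - (i : ℕ), by omega⟩

theorem idx_lt (t : ℕ) (p : Fin (2 * t + 1)) (h : (p : ℕ) < t) :
    idx t p = Sum.inr (Sum.inl ⟨p, h⟩) := by
  unfold idx
  rw [dif_pos h]

theorem idx_eq (t : ℕ) (p : Fin (2 * t + 1)) (h : (p : ℕ) = t) :
    idx t p = Sum.inl () := by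
  unfold idx
  rw [dif_neg (by omega), dif_pos h]

theorem idx_gt (t : ℕ) (p : Fin (2 * t + 1)) (h : t < (p : ℕ)) :
    idx t p = Sum.inr (Sum.inr ⟨2 * t - (p : ℕ), by have := p.2; omega⟩) := by
  unfold idx
  rw [dif_neg (by omega), dif_neg (by omega)]

/-- index equivalence for the single chain. -/
def evo (t : ℕ) : (Σ _ : Unit, Fin (2 * t + 1)) ≃ Unit ⊕ (Fin t ⊕ Fin t) where
  toFun i := idx t i.2
  invFun s := ⟨(), idxInv t s⟩
  left_inv := by
    rintro ⟨⟨⟩, p⟩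
    rcases lt_trichotomy (p : ℕ) t with h | h | h
    · simp only [idx_lt t p h, idxInv]
    · simp only [idx_eq t p h, idxInv]
      congr 1
      exact Fin.ext h.symm
    · simp only [idx_gt t p h, idxInv]
      congr 1
      apply Fin.ext
      have := p.2
      simp only
      omega
  right_inv := by
    rintro (_ | i | i)
    · exact idx_eq t _ rfl
    · exact idx_lt t _ i.2
    · have hi := i.2
      show idx t (idxInv t (Sum.inr (Sum.inr i))) = _
      rw [idx_gt t _ (by simp only [idxInv]; omega)]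
      congr 2
      apply Fin.ext
      simp only [idxInv]
      omega

theorem HD_Qo {F : Type*} [Field F] (h2 : (2 : F) ≠ 0) (γ : F) (hγ : γ ≠ 0) (t : ℕ) :
    HD (Qo γ t) {2 * t + 1} := by
  refine ⟨No γ t, polar_No γ t, ?_⟩
  intro e'
  let u : Fˣ := Units.mk0 (2 * γ) (mul_ne_zero h2 hγ)
  let wt : (Σ _ : Unit, Fin (2 * t + 1)) → Fˣ :=
    fun i => if (i.2 : ℕ) < t then (-1) ^ t * u else (-1) ^ (i.2 : ℕ)
  let b : Module.Basis (Σ _ : Unit, Fin (2 * t + 1)) F (Unit ⊕ (Fin t ⊕ Fin t) → F) :=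
    ((Pi.basisFun F (Unit ⊕ (Fin t ⊕ Fin t))).reindex (evo t).symm).unitsSMul wt
  have hb : ∀ i, b i = (wt i : F) • Pi.single (evo t i) (1 : F) := by
    intro i
    simp only [b, Module.Basis.unitsSMul_apply, Module.Basis.reindex_apply, Equiv.symm_symm,
      Pi.basisFun_apply]
    rfl
  have hN : ∀ s : Unit ⊕ (Fin t ⊕ Fin t),
      Matrix.toLin' (No γ t) (Pi.single s 1) = fun r => No γ t r s := by
    intro s
    rw [Matrix.toLin'_apply, Matrix.mulVec_single_one]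
    rfl
  have hev : ∀ p : Fin (2 * t + 1), evo t ⟨(), p⟩ = idx t p := fun p => rfl
  rw [kd_of_chains (fun _ : Unit => 2 * t + 1) b _ ?_ ?_ e']
  · simp
  · rintro ⟨⟩ p hp
    rw [hb, map_smul, hN, hev]
    by_cases ht : t = 0
    · rw [idx_eq t p (by omega), No_colM_zero γ t ht, smul_zero]
    · rw [idx_lt t p (by omega), No_colE_zero γ t _ hp, smul_zero]
  · rintro ⟨⟩ p p' hp
    rw [hb, hb, map_smul, hN, hev, hev]
    rcases lt_trichotomy (p : ℕ) t with h | h | h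
    · have w1 : wt ⟨(), p⟩ = (-1) ^ t * u := if_pos h
      have w2 : wt ⟨(), p'⟩ = (-1) ^ t * u := if_pos (by simp only; omega)
      rw [idx_lt t p h, idx_lt t p' (by omega), w1, w2, No_colE_succ γ t ⟨p, h⟩ ⟨p', by omega⟩ hp]
    · have w1 : wt ⟨(), p⟩ = (-1) ^ (p : ℕ) := if_neg (by simp only; omega)
      have w2 : wt ⟨(), p'⟩ = (-1) ^ t * u := if_pos (by simp only; omega)
      rw [idx_eq t p h, idx_lt t p' (by omega), w1, w2,
        No_colM_succ γ t ⟨p', by omega⟩ (by simp only; omega)]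
      simp [smul_smul, h, u]
    · have w1 : wt ⟨(), p⟩ = (-1) ^ (p : ℕ) := if_neg (by simp only; omega)
      have w2 : wt ⟨(), p'⟩ = (-1) ^ (p' : ℕ) := if_neg (by simp only; omega)
      have hp2 := p.2
      by_cases h' : (p : ℕ) = t + 1
      · rw [idx_gt t p h, idx_eq t p' (by omega), w1, w2,
          No_colF_last γ t _ (by simp only; omega)]
        simp [hp, pow_succ]
      · rw [idx_gt t p h, idx_gt t p' (by omega), w1, w2,
          No_colF_succ γ t _ ⟨2 * t - (p' : ℕ), by omega⟩ (by simp only; omega)]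
        simp [hp, pow_succ]

theorem HD_odd_single {F : Type*} [Field F] (h2 : (2 : F) ≠ 0) (γ : F) (hγ : γ ≠ 0) (t : ℕ) : HD (fun v : Unit ⊕ (Fin t ⊕ Fin t) → F => γ * v (Sum.inl ()) ^ 2 + ∑ i : Fin t, v (Sum.inr (Sum.inl i)) * v (Sum.inr (Sum.inr i))) {2 * t + 1} :=
  HD_Qo h2 γ hγ t

theorem HD_odd_std {F : Type*} [Field F] (h2 : (2 : F) ≠ 0) (t : ℕ) : HD (Cfsg.quadFormOdd t F) {2 * t + 1} := by
  have h := HD_Qo h2 (1 : F) one_ne_zero t
  have he : Qo (1 : F) t = Cfsg.quadFormOdd t F := by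
    funext v
    simp [Qo, Cfsg.quadFormOdd]
  rw [he] at h
  exact h

end Cfsg.Agent.H64.Jt
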