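import Mathlib
import Cfsg.Prelude.Def_Classical
import Cfsg.Agent.H42.JtDefs
import Cfsg.Agent.H16.JtSum
import Cfsg.Agent.H64.JtOdd1

set_option autoImplicit false

namespace Cfsg.Agent.H64.Jt

open Cfsg.Agent.H42.Jt

/-- The index equivalence used for `HD_minus_add`. -/
def minusIdx (s₁ s₂ : ℕ) :
    (Fin (s₁ + s₂) ⊕ Fin (s₁ + s₂)) ⊕ Fin 2 ≃ (Fin s₁ ⊕ Fin s₁) ⊕ ((Fin s₂ ⊕ Fin s₂) ⊕ Fin 2) where
  toFun := Sum.elim
    (Sum.elim
      (fun i => Fin.addCases (fun a => Sum.inl (Sum.inl a))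
        (fun b => Sum.inr (Sum.inl (Sum.inl b))) i)
      (fun i => Fin.addCases (fun a => Sum.inl (Sum.inr a))
        (fun b => Sum.inr (Sum.inl (Sum.inr b))) i))
    (fun k => Sum.inr (Sum.inr k))
  invFun := Sum.elim
    (Sum.elim (fun a => Sum.inl (Sum.inl (Fin.castAdd s₂ a)))
      (fun a => Sum.inl (Sum.inr (Fin.castAdd s₂ a))))
    (Sum.elim
      (Sum.elim (fun b => Sum.inl (Sum.inl (Fin.natAdd s₁ b)))
        (fun b => Sum.inl (Sum.inr (Fin.natAdd s₁ b))))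
      (fun k => Sum.inr k))
  left_inv := by
    rintro ((i | i) | k)
    · refine Fin.addCases (fun a => ?_) (fun b => ?_) i <;> simp
    · refine Fin.addCases (fun a => ?_) (fun b => ?_) i <;> simp
    · rfl
  right_inv := by
    rintro ((a | a) | (b | b) | k) <;> simp

theorem quadFormMinus_add {F : Type*} [Field F] (a b : F) (s₁ s₂ : ℕ)
    (v : (Fin s₁ ⊕ Fin s₁) ⊕ ((Fin s₂ ⊕ Fin s₂) ⊕ Fin 2) → F) :
    Cfsg.quadFormMinus (s₁ + s₂) F a b (fun i => v (minusIdx s₁ s₂ i))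
      = Cfsg.quadFormPlus s₁ F (fun i => v (Sum.inl i))
        + Cfsg.quadFormMinus s₂ F a b (fun i => v (Sum.inr i)) := by
  unfold Cfsg.quadFormPlus Cfsg.quadFormMinus
  rw [Fin.sum_univ_add]
  simp [minusIdx]
  ring

theorem HD_minus_add {F : Type*} [Field F] (a b : F) (s₁ s₂ : ℕ) (μ₁ μ₂ : Multiset ℕ)
    (h₁ : HD (Cfsg.quadFormPlus s₁ F) μ₁) (h₂ : HD (Cfsg.quadFormMinus s₂ F a b) μ₂) :
    HD (Cfsg.quadFormMinus (s₁ + s₂) F a b) (μ₁ + μ₂) := by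
  have h := Cfsg.Agent.H16.Jt.HD_sum _ _ μ₁ μ₂ h₁ h₂
  refine Cfsg.Agent.H16.Jt.HD_transport _ _ (LinearEquiv.funCongrLeft F F (minusIdx s₁ s₂)) ?_ _ h
  intro v
  exact quadFormMinus_add a b s₁ s₂ v

/-- The index equivalence used for `HD_minus_pair`. -/
def pairIdx (t₁ t₂ : ℕ) :
    (Fin (t₁ + t₂) ⊕ Fin (t₁ + t₂)) ⊕ Fin 2
      ≃ (Unit ⊕ (Fin t₁ ⊕ Fin t₁)) ⊕ (Unit ⊕ (Fin t₂ ⊕ Fin t₂)) where
  toFun := Sum.elim
    (Sum.elim
      (fun i => Fin.addCases (fun a => Sum.inl (Sum.inr (Sum.inl a)))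
        (fun b => Sum.inr (Sum.inr (Sum.inl b))) i)
      (fun i => Fin.addCases (fun a => Sum.inl (Sum.inr (Sum.inr a)))
        (fun b => Sum.inr (Sum.inr (Sum.inr b))) i))
    (fun k => if k = 0 then Sum.inl (Sum.inl ()) else Sum.inr (Sum.inl ()))
  invFun := Sum.elim
    (Sum.elim (fun _ => Sum.inr 0)
      (Sum.elim (fun a => Sum.inl (Sum.inl (Fin.castAdd t₂ a)))
        (fun a => Sum.inl (Sum.inr (Fin.castAdd t₂ a)))))
    (Sum.elim (fun _ => Sum.inr 1)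
      (Sum.elim (fun b => Sum.inl (Sum.inl (Fin.natAdd t₁ b)))
        (fun b => Sum.inl (Sum.inr (Fin.natAdd t₁ b)))))
  left_inv := by
    rintro ((i | i) | k)
    · refine Fin.addCases (fun a => ?_) (fun b => ?_) i <;> simp
    · refine Fin.addCases (fun a => ?_) (fun b => ?_) i <;> simp
    · fin_cases k <;> simp
  right_inv := by
    rintro ((u | a | a) | (u | b | b)) <;> simp

theorem quadFormMinus_pair {F : Type*} [Field F] (γ : F) (t₁ t₂ : ℕ)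
    (v : (Unit ⊕ (Fin t₁ ⊕ Fin t₁)) ⊕ (Unit ⊕ (Fin t₂ ⊕ Fin t₂)) → F) :
    Cfsg.quadFormMinus (t₁ + t₂) F 0 γ (fun i => v (pairIdx t₁ t₂ i))
      = (1 * v (Sum.inl (Sum.inl ())) ^ 2
          + ∑ i : Fin t₁, v (Sum.inl (Sum.inr (Sum.inl i))) * v (Sum.inl (Sum.inr (Sum.inr i))))
        + (γ * v (Sum.inr (Sum.inl ())) ^ 2
          + ∑ i : Fin t₂, v (Sum.inr (Sum.inr (Sum.inl i))) * v (Sum.inr (Sum.inr (Sum.inr i)))) := by
  unfold Cfsg.quadFormMinus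
  rw [Fin.sum_univ_add]
  simp [pairIdx]
  ring

/-- the shear `z₁ ↦ z₁ - c z₂` on the anisotropic plane. -/
def shear {F : Type*} [Field F] (k : ℕ) (c : F) :
    ((Fin k ⊕ Fin k) ⊕ Fin 2 → F) ≃ₗ[F] ((Fin k ⊕ Fin k) ⊕ Fin 2 → F) where
  toFun w := fun i => w i - if i = Sum.inr 0 then c * w (Sum.inr 1) else 0
  invFun w := fun i => w i + if i = Sum.inr 0 then c * w (Sum.inr 1) else 0
  map_add' := by
    intro w w'
    funext i
    simp only [Pi.add_apply]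
    split_ifs <;> ring
  map_smul' := by
    intro r w
    funext i
    simp only [Pi.smul_apply, smul_eq_mul, RingHom.id_apply]
    split_ifs <;> ring
  left_inv := by
    intro w
    funext i
    by_cases hi : i = Sum.inr 0
    · subst hi
      simp
    · simp [hi]
  right_inv := by
    intro w
    funext i
    by_cases hi : i = Sum.inr 0
    · subst hi
      simp
    · simp [hi]

theorem quadFormMinus_shear {F : Type*} [Field F] (h2 : (2 : F) ≠ 0) (a b : F) (k : ℕ)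
    (w : (Fin k ⊕ Fin k) ⊕ Fin 2 → F) :
    Cfsg.quadFormMinus k F a b (shear k (a / 2) w)
      = Cfsg.quadFormMinus k F 0 (b - a ^ 2 / 4) w := by
  have h4 : (4 : F) ≠ 0 := by
    have : (4 : F) = 2 * 2 := by norm_num
    rw [this]
    exact mul_ne_zero h2 h2
  unfold Cfsg.quadFormMinus
  simp [shear]
  field_simp
  ring

theorem HD_minus_pair {F : Type*} [Field F] (h2 : (2 : F) ≠ 0) (a b : F)
    (hab : a ^ 2 - 4 * b ≠ 0) (t₁ t₂ : ℕ) :
    HD (Cfsg.quadFormMinus (t₁ + t₂) F a b) {2 * t₁ + 1, 2 * t₂ + 1} := by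
  have h4 : (4 : F) ≠ 0 := by
    have : (4 : F) = 2 * 2 := by norm_num
    rw [this]
    exact mul_ne_zero h2 h2
  have hγ : b - a ^ 2 / 4 ≠ 0 := by
    intro h
    apply hab
    field_simp at h
    linear_combination -h
  have h1 := HD_odd_single h2 (1 : F) one_ne_zero t₁
  have h2' := HD_odd_single h2 (b - a ^ 2 / 4) hγ t₂
  have h := Cfsg.Agent.H16.Jt.HD_sum _ _ {2 * t₁ + 1} {2 * t₂ + 1} h1 h2'
  have hμ : ({2 * t₁ + 1} : Multiset ℕ) + {2 * t₂ + 1} = {2 * t₁ + 1, 2 * t₂ + 1} := rfl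
  rw [hμ] at h
  have hmid : HD (Cfsg.quadFormMinus (t₁ + t₂) F 0 (b - a ^ 2 / 4)) {2 * t₁ + 1, 2 * t₂ + 1} := by
    refine Cfsg.Agent.H16.Jt.HD_transport _ _ (LinearEquiv.funCongrLeft F F (pairIdx t₁ t₂)) ?_ _ h
    intro v
    exact quadFormMinus_pair (b - a ^ 2 / 4) t₁ t₂ v
  refine Cfsg.Agent.H16.Jt.HD_transport _ _ (shear (t₁ + t₂) (a / 2)) ?_ _ hmid
  intro w
  exact quadFormMinus_shear h2 a b (t₁ + t₂) w

example {F : Type*} [Field F] (h2 : (2 : F) ≠ 0) (a b : F)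
    (hab : a ^ 2 - 4 * b ≠ 0) (t₁ t₂ : ℕ) :
    HD (Cfsg.quadFormMinus (t₁ + t₂) F a b) {2 * t₁ + 1, 2 * t₂ + 1} :=
  HD_minus_pair h2 a b hab t₁ t₂

example {F : Type*} [Field F] (a b : F) (s₁ s₂ : ℕ) (μ₁ μ₂ : Multiset ℕ)
    (h₁ : HD (Cfsg.quadFormPlus s₁ F) μ₁) (h₂ : HD (Cfsg.quadFormMinus s₂ F a b) μ₂) :
    HD (Cfsg.quadFormMinus (s₁ + s₂) F a b) (μ₁ + μ₂) :=
  HD_minus_add a b s₁ s₂ μ₁ μ₂ h₁ h₂

end Cfsg.Agent.H64.Jt
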