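import Mathlib
import Cfsg.Agent.H58.BG10Defs2
import Cfsg.Agent.H31.BG9b
import Cfsg.Agent.H66.PLength
import Cfsg.Agent.S0118
import Cfsg.Agent.S1450
import Cfsg.Agent.S1461

set_option autoImplicit false

/-!
# Bender–Glauberman 10.1 (piece A of helper58's team project BG10), by helper64
-/

namespace Cfsg.Agent.H64.BG10

open Cfsg Subgroup Cfsg.Agent.H58.BG10
open scoped Pointwise

universe u

/-- a group of odd order has no section isomorphic to `SL₂(p)`, `p` odd. -/
theorem hfree_of_odd {G : Type*} [Group G] [Finite G] (hodd : Odd (Nat.card G)) {p : ℕ}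
    [Fact p.Prime] (hp : p ≠ 2) :
    ¬ ∃ (H K : Subgroup G) (hK : (K.subgroupOf H).Normal),
      Nonempty ((H ⧸ K.subgroupOf H) ≃* Matrix.SpecialLinearGroup (Fin 2) (ZMod p)) := by
  rintro ⟨H, K, hK, ⟨e⟩⟩
  have hcard : Nat.card (H ⧸ K.subgroupOf H) ∣ Nat.card G :=
    (Subgroup.card_quotient_dvd_card _).trans (Subgroup.card_subgroup_dvd_card H)
  have hoddQ : Odd (Nat.card (H ⧸ K.subgroupOf H)) := hodd.of_dvd_nat hcard
  have h2ne : (2 : ZMod p) ≠ 0 :=
    Ring.two_ne_zero (by rw [ZMod.ringChar_zmod_n]; exact hp)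
  let z : Matrix.SpecialLinearGroup (Fin 2) (ZMod p) :=
    ⟨!![-1, 0; 0, -1], by simp [Matrix.det_fin_two]⟩
  have hz2 : z * z = 1 := by
    apply Subtype.ext
    show (!![-1, 0; 0, -1] : Matrix (Fin 2) (Fin 2) (ZMod p)) * !![-1, 0; 0, -1] = 1
    ext i j
    fin_cases i <;> fin_cases j <;> simp [Matrix.mul_apply, Fin.sum_univ_two]
  have hz1 : z ≠ 1 := by
    intro h
    have h00 : (-1 : ZMod p) = 1 := by
      have h' := congrArg (fun A : Matrix.SpecialLinearGroup (Fin 2) (ZMod p) => A.1 0 0) h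
      simpa [z] using h'
    apply h2ne
    linear_combination -h00
  have hy2 : (e.symm z) ^ 2 = 1 := by rw [← map_pow, pow_two, hz2, map_one]
  have hy1 : e.symm z ≠ 1 := fun h => hz1 (by simpa using congrArg e h)
  have hord : orderOf (e.symm z) = 2 := orderOf_eq_prime hy2 hy1
  have hdvd : 2 ∣ Nat.card (H ⧸ K.subgroupOf H) := hord ▸ orderOf_dvd_natCard _
  exact (Nat.not_even_iff_odd.mpr hoddQ) (even_iff_two_dvd.mpr hdvd)

/-- a `p`-subgroup is conjugate into a given Sylow `p`-subgroup. -/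
theorem exists_conj_mem_sylow {H : Type*} [Group H] [Finite H] {p : ℕ} [Fact p.Prime]
    (P : Sylow p H) {Z : Subgroup H} (hZ : IsPGroup p Z) :
    ∃ m : H, ∀ z ∈ Z, m * z * m⁻¹ ∈ (P : Subgroup H) := by
  obtain ⟨Q, hQ⟩ := hZ.exists_le_sylow
  obtain ⟨m, hm⟩ := MulAction.exists_smul_eq H Q P
  refine ⟨m, fun z hz => ?_⟩
  have h1 : MulAut.conj m • z ∈ MulAut.conj m • (Q : Subgroup H) :=
    Subgroup.smul_mem_pointwise_smul z (MulAut.conj m) Q (hQ hz)
  rw [← Sylow.coe_subgroup_smul, hm] at h1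
  exact h1

/-- `O_{p',p}(H)` of index prime to `p` gives `p`-length one. -/
theorem pLengthLE_one_of_index_coprime {H : Type*} [Group H] [Finite H] (p : ℕ) [Fact p.Prime]
    (h : ((pPrimePCore p H).index).Coprime p) : PLengthLE p 1 H := by
  rw [Cfsg.Agent.H66.pLengthLE_iff_plenRel]
  have hB : (pPrimePCore p H).Normal := by
    unfold pPrimePCore
    infer_instance
  refine ⟨pPrimeCore p H, pPrimePCore p H, inferInstance, inferInstance, bot_le, ?_, ?_, ?_,
    hB, inferInstance, le_top, ?_⟩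
  · rw [Subgroup.relIndex_bot_left]
    exact H60.card_pPrimeCore_coprime p
  · exact H14.le_comap_mk' _ _
  · unfold pPrimePCore
    rw [Cfsg.Agent.H66.relIndex_comap_mk']
    exact IsPGroup.iff_card.mp (H60.isPGroup_pCore p)
  · rw [Subgroup.relIndex_top_right]
    exact h

variable {G : Type u} [Group G]

theorem bg101 [Finite G] (hG : IsMinSimpleOddOrder G) (h96 : St1403 G) : St1404 G := by
  intro M hM p _ hpσ X hXp hX0 hXM
  obtain ⟨hp, hpM, P0, hN⟩ := hpσ
  obtain ⟨PS, hPS⟩ := Cfsg.Agent.H31.BG8.sylow_of_normalizer_le P0 hN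
  rw [← hPS] at hN
  have hSM : (PS : Subgroup G) ≤ M := by
    rw [hPS]
    exact Subgroup.map_subtype_le _
  have hSp : IsPGroup p (PS : Subgroup G) := PS.isPGroup'
  have hpG : p ∣ Nat.card G := hpM.trans (Subgroup.card_subgroup_dvd_card M)
  have hp2 : p ≠ 2 := Cfsg.Agent.H31.BG9.ne_two_of_dvd hG hpG
  have hodd : Odd (Nat.card G) := hG.1
  have hS0 : (PS : Subgroup G) ≠ ⊥ := PS.ne_bot_of_dvd_card hpG
  -- conjugation into `S` inside `M`
  have hconjM : ∀ Z : Subgroup G, IsPGroup p Z → Z ≤ M →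
      ∃ m ∈ M, ∀ z ∈ Z, m * z * m⁻¹ ∈ (PS : Subgroup G) := by
    intro Z hZp hZM
    have hZ' : IsPGroup p (Z.subgroupOf M) := hZp.comap_subtype
    obtain ⟨m, hm⟩ := exists_conj_mem_sylow P0 hZ'
    refine ⟨m, m.2, fun z hz => ?_⟩
    rw [hPS]
    exact ⟨m * ⟨z, hZM hz⟩ * m⁻¹, hm ⟨z, hZM hz⟩ (Subgroup.mem_subgroupOf.mpr hz), rfl⟩
  -- the normalizer of `Z(J(S))`
  have hW0 : Cfsg.Agent.H58.cJ p (PS : Subgroup G) ≠ ⊥ :=
    Cfsg.Agent.H58.cJ_ne_bot (Or.inr rfl) hSp hS0
  have hStop : (PS : Subgroup G) ≠ ⊤ := Cfsg.Agent.H31.BG8.not_isPGroup_top hG hSp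
  have hWtop : Cfsg.Agent.H58.cJ p (PS : Subgroup G) ≠ ⊤ :=
    fun h => hStop (top_le_iff.mp (h ▸ Cfsg.Agent.H58.cJ_le p _))
  have hNtop : normalizer ((Cfsg.Agent.H58.cJ p (PS : Subgroup G) : Subgroup G) : Set G) ≠ ⊤ :=
    Cfsg.Agent.Lib.Helper30.minSimple_normalizer_ne_top hG hW0 hWtop
  have hSN : (PS : Subgroup G) ≤
      normalizer ((Cfsg.Agent.H58.cJ p (PS : Subgroup G) : Subgroup G) : Set G) :=
    le_normalizer.trans (Cfsg.Agent.H58.normalizer_le_normalizer_cJ p _)
  -- the key step: elements of `N(ZJ(S))`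
  have hkey : ∀ Y : Subgroup G, Y ≤ (PS : Subgroup G) →
      ∀ ν ∈ normalizer ((Cfsg.Agent.H58.cJ p (PS : Subgroup G) : Subgroup G) : Set G),
      (∀ y ∈ Y, ν * y * ν⁻¹ ∈ (PS : Subgroup G)) →
      ∃ m ∈ M, ∃ c ∈ centralizer (Y : Set G), ν = m * c := by
    intro Y hYS ν hν hνY
    by_cases hr : PRankLE p 2 ↥(PS : Subgroup G)
    · -- rank at most two: `N` has `p`-length one
      have hsolv : Group.IsSolvable
          ↥(normalizer ((Cfsg.Agent.H58.cJ p (PS : Subgroup G) : Subgroup G) : Set G)) :=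
        hG.2.2.2 _ hNtop
      have hoddN : Odd (Nat.card
          ↥(normalizer ((Cfsg.Agent.H58.cJ p (PS : Subgroup G) : Subgroup G) : Set G))) :=
        hodd.of_dvd_nat (Subgroup.card_subgroup_dvd_card _)
      have hpS : p ∣ Nat.card ↥(PS : Subgroup G) := by
        obtain ⟨k, hk⟩ := IsPGroup.iff_card.mp hSp
        have hk0 : k ≠ 0 := by
          rintro rfl
          rw [pow_zero] at hk
          exact hS0 (Subgroup.card_eq_one.mp hk)
        rw [hk]
        exact dvd_pow_self p hk0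
      have hpN : p ∣ Nat.card
          ↥(normalizer ((Cfsg.Agent.H58.cJ p (PS : Subgroup G) : Subgroup G) : Set G)) :=
        hpS.trans (Subgroup.card_dvd_of_le hSN)
      have hrN : PRankLE p 2
          ↥(normalizer ((Cfsg.Agent.H58.cJ p (PS : Subgroup G) : Subgroup G) : Set G)) := by
        intro A hAc hAe
        by_contra hlt
        push Not at hlt
        have hA' : IsElementaryAbelian p (A.map (Subgroup.subtype _)) :=
          Cfsg.Agent.H31.BG9.isElementaryAbelian_map _ ⟨hAc, hAe⟩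
        obtain ⟨g, hg⟩ := exists_conj_mem_sylow PS
          (Cfsg.Agent.H31.T2.isPGroup_of_exponent hA'.2)
        have hB : IsElementaryAbelian p
            ((A.map (Subgroup.subtype _)).map (MulAut.conj g).toMonoidHom) :=
          Cfsg.Agent.H31.BG9.isElementaryAbelian_map _ hA'
        have hBS : (A.map (Subgroup.subtype _)).map (MulAut.conj g).toMonoidHom
            ≤ (PS : Subgroup G) := by
          rintro _ ⟨z, hz, rfl⟩
          exact hg z hz
        have hBcard : Nat.card ((A.map (Subgroup.subtype _)).map (MulAut.conj g).toMonoidHom)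
            = Nat.card A := by
          rw [Subgroup.card_map_of_injective (MulAut.conj g).injective,
            Subgroup.card_map_of_injective (Subgroup.subtype_injective _)]
        exact Cfsg.Agent.H31.BG8.not_pRankLE_of_le hBS hB (by rw [hBcard]; exact hlt) hr
      have h1450 := Cfsg.Agent.S1450.result
        (G := ↥(normalizer ((Cfsg.Agent.H58.cJ p (PS : Subgroup G) : Subgroup G) : Set G)))
        hoddN p hpN hrN
      have hpl : PLengthLE p 1
          ↥(normalizer ((Cfsg.Agent.H58.cJ p (PS : Subgroup G) : Subgroup G) : Set G)) :=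
        pLengthLE_one_of_index_coprime p h1450.2.2.2.2.2
      have h1461 := (Cfsg.Agent.S1461.result
        (G := ↥(normalizer ((Cfsg.Agent.H58.cJ p (PS : Subgroup G) : Subgroup G) : Set G)))
        p hpl (PS.subtype hSN)).2.1
      obtain ⟨g, hg, c, hc, hgc⟩ := h1461
        {y : ↥(normalizer ((Cfsg.Agent.H58.cJ p (PS : Subgroup G) : Subgroup G) : Set G)) |
          (y : G) ∈ Y} ⟨ν, hν⟩
        (by
          intro y hy
          exact Subgroup.mem_subgroupOf.mpr (hYS hy))
        (by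
          rintro _ ⟨y, hy, rfl⟩
          exact Subgroup.mem_subgroupOf.mpr (hνY y hy))
      refine ⟨(g : G), hN ?_, (c : G), ?_, ?_⟩
      · rw [Subgroup.mem_normalizer_iff]
        intro s
        have hgn := Subgroup.mem_normalizer_iff.mp hg
        constructor
        · intro hs
          have h1 := (hgn ⟨s, hSN hs⟩).mp (Subgroup.mem_subgroupOf.mpr hs)
          exact Subgroup.mem_subgroupOf.mp h1
        · intro hs
          have hsN : s ∈ normalizer
              ((Cfsg.Agent.H58.cJ p (PS : Subgroup G) : Subgroup G) : Set G) := by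
            have h1 := Subgroup.mul_mem _ (Subgroup.mul_mem _ (Subgroup.inv_mem _ g.2)
              (hSN hs)) g.2
            have e : (g : G)⁻¹ * ((g : G) * s * (g : G)⁻¹) * (g : G) = s := by group
            rwa [e] at h1
          have h1 := (hgn ⟨s, hsN⟩).mpr (Subgroup.mem_subgroupOf.mpr hs)
          exact Subgroup.mem_subgroupOf.mp h1
      · rw [Subgroup.mem_centralizer_iff]
        intro y hy
        have h1 := Subgroup.mem_centralizer_iff.mp hc ⟨y, hSN (hYS hy)⟩ hy
        exact congrArg Subtype.val h1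
      · exact congrArg Subtype.val hgc.symm
    · -- rank at least three: `N ≤ M` by the Uniqueness Theorem
      have h1 : ¬ RankLE 1 ↥(PS : Subgroup G) := fun h => hr (fun A hAc hAe =>
        (h p hp A hAc hAe).trans (Nat.pow_le_pow_right hp.pos (by norm_num)))
      have h2 : ¬ RankLE 2 ↥(PS : Subgroup G) := fun h => hr (h p hp)
      obtain ⟨M', -, hM'uniq⟩ := h96 (PS : Subgroup G) hStop h1 (Or.inl h2)
      obtain hNt | ⟨L, hL, hNL⟩ := eq_top_or_exists_le_coatom
        (normalizer ((Cfsg.Agent.H58.cJ p (PS : Subgroup G) : Subgroup G) : Set G))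
      · exact absurd hNt hNtop
      · have e1 : L = M' := hM'uniq L ⟨hL, hSN.trans hNL⟩
        have e2 : M = M' := hM'uniq M ⟨hM, hSM⟩
        refine ⟨ν, ?_, 1, Subgroup.one_mem _, (mul_one ν).symm⟩
        rw [e2, ← e1]
        exact hNL hν
  -- fusion in `S` is controlled by `M`
  have hclaim : ∀ Y : Subgroup G, Y ≤ (PS : Subgroup G) → ∀ h : G,
      (∀ y ∈ Y, h * y * h⁻¹ ∈ (PS : Subgroup G)) →
      ∃ m ∈ M, ∃ c ∈ centralizer (Y : Set G), h = m * c := by
    intro Y hYS h hhY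
    obtain ⟨n, hn, hna⟩ := Cfsg.Agent.S0118.result hp2 (hfree_of_odd hodd hp2) PS (Y : Set G)
      (fun y hy => hYS hy) h⁻¹ (by
        rintro _ ⟨a, ha, rfl⟩
        show h⁻¹⁻¹ * a * h⁻¹ ∈ (PS : Subgroup G)
        rw [inv_inv]
        exact hhY a ha)
    rw [Cfsg.Agent.H58.centerThompsonOf_eq_cJ] at hn
    have hν : n⁻¹ ∈ normalizer ((Cfsg.Agent.H58.cJ p (PS : Subgroup G) : Subgroup G) : Set G) :=
      Subgroup.inv_mem _ hn
    have hνY : ∀ y ∈ Y, n⁻¹ * y * (n⁻¹)⁻¹ ∈ (PS : Subgroup G) := by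
      intro y hy
      have e := hna y hy
      rw [inv_inv] at e
      rw [inv_inv, e]
      exact hhY y hy
    obtain ⟨m, hm, c, hc, hmc⟩ := hkey Y hYS n⁻¹ hν hνY
    refine ⟨m, hm, c * (n * h), Subgroup.mul_mem _ hc ?_, ?_⟩
    · rw [Subgroup.mem_centralizer_iff]
      intro y hy
      have e := hna y hy
      rw [inv_inv] at e
      calc y * (n * h) = n * (n⁻¹ * y * n) * h := by group
        _ = n * (h * y * h⁻¹) * h := by rw [e]
        _ = n * h * y := by group
    · calc h = n⁻¹ * (n * h) := by group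
        _ = m * c * (n * h) := by rw [hmc]
        _ = m * (c * (n * h)) := by group
  -- the first assertion
  have hfirst : ∀ g : G, X.map (MulAut.conj g).toMonoidHom ≤ M →
      ∃ m ∈ M, ∃ c ∈ centralizer (X : Set G), g = m * c := by
    intro g hgX
    obtain ⟨m0, hm0, hm0X⟩ := hconjM X hXp hXM
    have hXg : IsPGroup p (X.map (MulAut.conj g).toMonoidHom) := hXp.map _
    obtain ⟨m1, hm1, hm1X⟩ := hconjM _ hXg hgX
    have hYS : X.map (MulAut.conj m0).toMonoidHom ≤ (PS : Subgroup G) := by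
      rintro _ ⟨x, hx, rfl⟩
      exact hm0X x hx
    obtain ⟨m, hm, c, hc, hmc⟩ := hclaim (X.map (MulAut.conj m0).toMonoidHom) hYS
      (m1 * g * m0⁻¹) (by
        rintro _ ⟨x, hx, rfl⟩
        have h1 := hm1X (g * x * g⁻¹) ⟨x, hx, rfl⟩
        have e : m1 * g * m0⁻¹ * ((MulAut.conj m0).toMonoidHom x) * (m1 * g * m0⁻¹)⁻¹
            = m1 * (g * x * g⁻¹) * m1⁻¹ := by
          simp only [MulEquiv.coe_toMonoidHom, MulAut.conj_apply]
          group
        rw [e]
        exact h1)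
    refine ⟨m1⁻¹ * m * m0, M.mul_mem (M.mul_mem (M.inv_mem hm1) hm) hm0, m0⁻¹ * c * m0, ?_, ?_⟩
    · rw [Subgroup.mem_centralizer_iff]
      intro x hx
      have e := Subgroup.mem_centralizer_iff.mp hc (m0 * x * m0⁻¹) ⟨x, hx, rfl⟩
      calc x * (m0⁻¹ * c * m0) = m0⁻¹ * (m0 * x * m0⁻¹ * c) * m0 := by group
        _ = m0⁻¹ * (c * (m0 * x * m0⁻¹)) * m0 := by rw [e]
        _ = m0⁻¹ * c * m0 * x := by group
    · calc g = m1⁻¹ * (m1 * g * m0⁻¹) * m0 := by group
        _ = m1⁻¹ * (m * c) * m0 := by rw [hmc]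
        _ = m1⁻¹ * m * m0 * (m0⁻¹ * c * m0) := by group
  refine ⟨hfirst, le_antisymm ?_ (sup_le inf_le_right (Subgroup.centralizer_le_normalizer _))⟩
  intro g hg
  have hgX : X.map (MulAut.conj g).toMonoidHom ≤ M := by
    rintro _ ⟨x, hx, rfl⟩
    exact hXM ((Subgroup.mem_normalizer_iff.mp hg x).mp hx)
  obtain ⟨m, hm, c, hc, rfl⟩ := hfirst g hgX
  have hcN : c ∈ normalizer (X : Set G) := Subgroup.centralizer_le_normalizer _ hc
  have hmN : m ∈ normalizer (X : Set G) := by
    have h1 := Subgroup.mul_mem _ hg (Subgroup.inv_mem _ hcN)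
    have e : m * c * c⁻¹ = m := by group
    rwa [e] at h1
  exact Subgroup.mul_mem_sup ⟨hm, hmN⟩ hc

example [Finite G] (hG : IsMinSimpleOddOrder G) (h96 : St1403 G) : St1404 G := bg101 hG h96

end Cfsg.Agent.H64.BG10
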