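import Mathlib
import Cfsg.Agent.H66.GrossDefs

/-!
# S3795-LB (helper64 for helper66): `lgroup_holds`
-/

set_option autoImplicit false
set_option linter.style.haveILetI false

namespace Cfsg.Agent.H64.Gross

open Cfsg Cfsg.Agent.H66.Gross
open scoped commutatorElement

universe u

/-- An abelian group of order `q ^ 2` and exponent `q` is generated by two elements (in the
form needed below). -/
theorem two_gen_of_card_sq {Q : Type*} [CommGroup Q] [Finite Q] (q : ℕ) [hq : Fact q.Prime]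
    (hcard : Nat.card Q = q ^ 2) (hexp : ∀ g : Q, g ^ q = 1) :
    ∃ g₁ g₂ : Q, ∀ g : Q, ∃ i j : ℕ, g * g₁ ^ i * g₂ ^ j = 1 := by
  have hq1 : 1 < q := hq.out.one_lt
  have hnt : Nontrivial Q := by
    rw [← Finite.one_lt_card_iff_nontrivial, hcard]
    exact Nat.one_lt_pow (by norm_num) hq1
  obtain ⟨g₁, hg₁⟩ := exists_ne (1 : Q)
  have ho1 : orderOf g₁ = q := orderOf_eq_prime (hexp g₁) hg₁
  have hc1 : Nat.card (Subgroup.zpowers g₁) = q := by rw [Nat.card_zpowers, ho1]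
  have hne : Subgroup.zpowers g₁ ≠ ⊤ := by
    intro h
    rw [← Subgroup.card_eq_iff_eq_top, hc1, hcard] at h
    nlinarith
  obtain ⟨g₂, -, hg₂⟩ := SetLike.exists_of_lt (lt_top_iff_ne_top.mpr hne)
  have hlt : Subgroup.zpowers g₁ < Subgroup.zpowers g₁ ⊔ Subgroup.zpowers g₂ := by
    refine lt_of_le_of_ne le_sup_left ?_
    intro h
    apply hg₂
    rw [h]
    exact (le_sup_right : Subgroup.zpowers g₂ ≤ _) (Subgroup.mem_zpowers g₂)
  have htop : Subgroup.zpowers g₁ ⊔ Subgroup.zpowers g₂ = ⊤ := by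
    have hdvd : Nat.card ↥(Subgroup.zpowers g₁ ⊔ Subgroup.zpowers g₂) ∣ q ^ 2 := by
      rw [← hcard]; exact Subgroup.card_subgroup_dvd_card _
    obtain ⟨m, hm, hmc⟩ := (Nat.dvd_prime_pow hq.out).1 hdvd
    have hdvd1 : q ∣ Nat.card ↥(Subgroup.zpowers g₁ ⊔ Subgroup.zpowers g₂) := by
      rw [← hc1]; exact Subgroup.card_dvd_of_le le_sup_left
    interval_cases m
    · rw [hmc] at hdvd1
      simp at hdvd1
      omega
    · exfalso
      apply hlt.ne
      apply Subgroup.eq_of_le_of_card_ge le_sup_left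
      rw [hc1, hmc]; simp
    · rw [← Subgroup.card_eq_iff_eq_top, hmc, hcard]
  refine ⟨g₁, g₂, fun g => ?_⟩
  have hg : g ∈ Subgroup.zpowers g₁ ⊔ Subgroup.zpowers g₂ := by rw [htop]; trivial
  obtain ⟨y, hy, z, hz, rfl⟩ := Subgroup.mem_sup.mp hg
  rw [← mem_powers_iff_mem_zpowers] at hy hz
  obtain ⟨a, rfl⟩ := hy
  obtain ⟨b, rfl⟩ := hz
  have key : ∀ (x : Q) (c : ℕ), x ^ c * x ^ ((q - 1) * c) = 1 := by
    intro x c
    rw [← pow_add]
    have : c + (q - 1) * c = q * c := by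
      obtain ⟨q', rfl⟩ : ∃ q', q = q' + 1 := ⟨q - 1, by omega⟩
      simp only [Nat.add_sub_cancel]
      ring
    rw [this, pow_mul, hexp, one_pow]
  refine ⟨(q - 1) * a, (q - 1) * b, ?_⟩
  calc g₁ ^ a * g₂ ^ b * g₁ ^ ((q - 1) * a) * g₂ ^ ((q - 1) * b)
      = (g₁ ^ a * g₁ ^ ((q - 1) * a)) * (g₂ ^ b * g₂ ^ ((q - 1) * b)) := by
        rw [mul_assoc, mul_mul_mul_comm]
    _ = 1 := by rw [key, key, one_mul]

/-- **S3795-LB**. -/
theorem lgroup_holds (hLA : LAStatement.{u}) (hNT : NTStatement) (hInv : InvSubStatement.{u}) :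
    LGroupStatement.{u} := by
  intro H _ _ σ n hn q hqF K _ _ V _ _ _ ρ X hfpf h2 hqK hσ C Z hcrit w hw hZw
  obtain ⟨Cm, hCm, hZCm, hCmC, hCmσ⟩ := hInv H σ n hn hfpf.1 q C Z hcrit
  obtain ⟨Zg, hZgCm, hcomm, hpow, hrho, hcase⟩ :=
    hLA H σ n hn q K V ρ X hfpf h2 hqK hσ C Z Cm hcrit hCm w hw hZw
  have hmem : ∀ x, x ∈ invSet σ n C Z ↔ x ∈ Cm := fun x => by rw [← hCm]; rfl
  suffices hs : ∃ x₁ ∈ Cm, ∃ x₂ ∈ Cm, ∀ x ∈ Cm, ∃ i j : ℕ, x * x₁ ^ i * x₂ ^ j ∈ Zg by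
    obtain ⟨x₁, hx₁, x₂, hx₂, hs⟩ := hs
    refine ⟨x₁, (hmem x₁).2 hx₁, x₂, (hmem x₂).2 hx₂, fun x hx => ?_⟩
    obtain ⟨i, j, hij⟩ := hs x ((hmem x).1 hx)
    exact ⟨i, j, fun y hy => hrho _ hij y ((hmem y).1 hy)⟩
  have htriv : Zg = Cm →
      ∃ x₁ ∈ Cm, ∃ x₂ ∈ Cm, ∀ x ∈ Cm, ∃ i j : ℕ, x * x₁ ^ i * x₂ ^ j ∈ Zg := by
    intro h
    refine ⟨1, Cm.one_mem, 1, Cm.one_mem, fun x hx => ⟨0, 0, ?_⟩⟩
    simpa [h] using hx
  rcases hcase with h | ⟨k, hk, hcard⟩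
  · exact htriv h
  by_cases hEq : Zg = Cm
  · exact htriv hEq
  -- the index is `q ^ 2`
  have hCmp : IsPGroup q Cm := hcrit.1.to_le hCmC
  obtain ⟨a, ha⟩ := hCmp.exists_card_eq
  obtain ⟨b, hb⟩ := (hCmp.to_le hZgCm).exists_card_eq
  have hdvd : 2 ^ k - 1 ∣ q ^ a := by
    rw [← ha, hcard, sq, mul_assoc]
    exact Dvd.intro _ rfl
  obtain ⟨d, hd, hdq⟩ := (Nat.dvd_prime_pow hqF.out).1 hdvd
  have hd0 : 0 < d := by
    rcases Nat.eq_zero_or_pos d with h0 | h0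
    · exfalso
      apply hEq
      apply Subgroup.eq_of_le_of_card_ge hZgCm
      rw [hcard, hdq, h0]
      simp
    · exact h0
  have hd1 : d = 1 := by
    apply hNT q d k hqF.out hd0
    have := Nat.one_le_two_pow (n := k)
    omega
  have hcard2 : Nat.card Cm = q ^ 2 * Nat.card Zg := by
    rw [hcard, hdq, hd1, pow_one]
  -- the quotient
  haveI hN : (Zg.subgroupOf Cm).Normal := by
    constructor
    intro z hz x
    rw [Subgroup.mem_subgroupOf] at hz ⊢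
    have : ((x * z * x⁻¹ : ↥Cm) : H) = ⁅(x : H), (z : H)⁆ * z := by
      simp [commutatorElement_def]
    rw [this]
    exact Zg.mul_mem (hcomm _ x.2 _ z.2) hz
  letI : CommGroup (↥Cm ⧸ Zg.subgroupOf Cm) :=
    { (inferInstance : Group (↥Cm ⧸ Zg.subgroupOf Cm)) with
      mul_comm := by
        intro x y
        induction x using QuotientGroup.induction_on with
        | _ x =>
          induction y using QuotientGroup.induction_on with
          | _ y =>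
            rw [← QuotientGroup.mk_mul, ← QuotientGroup.mk_mul, QuotientGroup.eq,
              Subgroup.mem_subgroupOf]
            have : (((x * y)⁻¹ * (y * x) : ↥Cm) : H) = ⁅(y : H)⁻¹, (x : H)⁻¹⁆ := by
              simp [commutatorElement_def, mul_assoc]
            rw [this]
            exact hcomm _ (Cm.inv_mem y.2) _ (Cm.inv_mem x.2) }
  have hcardQ : Nat.card (↥Cm ⧸ Zg.subgroupOf Cm) = q ^ 2 := by
    have h1 := Subgroup.card_eq_card_quotient_mul_card_subgroup (Zg.subgroupOf Cm)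
    have h2 : Nat.card (Zg.subgroupOf Cm) = Nat.card Zg :=
      Nat.card_congr (Subgroup.subgroupOfEquivOfLe hZgCm).toEquiv
    rw [h2, hcard2] at h1
    have hpos : 0 < Nat.card Zg := Nat.card_pos
    exact (Nat.eq_of_mul_eq_mul_right hpos h1).symm
  have hexpQ : ∀ g : ↥Cm ⧸ Zg.subgroupOf Cm, g ^ q = 1 := by
    intro g
    induction g using QuotientGroup.induction_on with
    | _ x =>
      rw [← QuotientGroup.mk_pow, QuotientGroup.eq_one_iff, Subgroup.mem_subgroupOf]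
      simpa using hpow _ x.2
  obtain ⟨g₁, g₂, hgen⟩ := two_gen_of_card_sq (Q := ↥Cm ⧸ Zg.subgroupOf Cm) q hcardQ hexpQ
  obtain ⟨x₁, rfl⟩ := QuotientGroup.mk_surjective g₁
  obtain ⟨x₂, rfl⟩ := QuotientGroup.mk_surjective g₂
  refine ⟨x₁, x₁.2, x₂, x₂.2, fun x hx => ?_⟩
  obtain ⟨i, j, hij⟩ := hgen (QuotientGroup.mk ⟨x, hx⟩)
  refine ⟨i, j, ?_⟩
  rw [← QuotientGroup.mk_pow, ← QuotientGroup.mk_pow, ← QuotientGroup.mk_mul,
    ← QuotientGroup.mk_mul, QuotientGroup.eq_one_iff, Subgroup.mem_subgroupOf] at hij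
  simpa using hij

example (hLA : LAStatement.{u}) (hNT : NTStatement) (hInv : InvSubStatement.{u}) :
    LGroupStatement.{u} := lgroup_holds hLA hNT hInv

end Cfsg.Agent.H64.Gross
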