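import Mathlib
import Cfsg.Agent.H66.GrossDefs

/-!
# S3795-ULINA (helper64 for helper66): `ulina_holds`
-/

set_option autoImplicit false
set_option linter.style.haveILetI false

namespace Cfsg.Agent.H64.Gross

open Cfsg Cfsg.Agent.H66.Gross
open scoped commutatorElement

universe u

/-- In a group of odd order every element is a power of its square. -/
theorem eq_sq_pow_of_odd {P : Type*} [Group P] [Finite P] (hodd : Odd (Nat.card P)) (u : P) :
    ∃ k : ℕ, u = (u * u) ^ k := by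
  have hm : Odd (orderOf u) := hodd.of_dvd_nat (orderOf_dvd_natCard u)
  obtain ⟨k, hk⟩ := hm
  refine ⟨k + 1, ?_⟩
  rw [← pow_two, ← pow_mul]
  have : 2 * (k + 1) = orderOf u + 1 := by omega
  rw [this, pow_succ, pow_orderOf_eq_one, one_mul]

/-- **S3795-ULINA**. -/
theorem ulina_holds (hR1 : R1Statement.{u}) : ULinAStatement.{u} := by
  intro P _ _ σ n hn s hs hP hodd K _ _ V _ _ _ ρ X hfpf hsK hg
  set τ : MulAut P := σ ^ (2 ^ (n - 1)) with hτ
  have hττ : ∀ x, τ (τ x) = x := by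
    intro x
    have h1 : τ * τ = 1 := by
      rw [hτ, ← pow_add, ← two_mul, ← pow_succ']
      have : n - 1 + 1 = n := by omega
      rw [this]; exact hfpf.1
    rw [← MulAut.mul_apply, h1, MulAut.one_apply]
  have hτσ : ∀ x, τ (σ x) = σ (τ x) := by
    intro x
    have h1 : τ * σ = σ * τ := by
      rw [hτ, ← pow_succ, ← pow_succ']
    rw [← MulAut.mul_apply, h1, MulAut.mul_apply]
  have hinvτ : ∀ S : Subgroup P, (∀ x ∈ S, σ x ∈ S) → ∀ x ∈ S, τ x ∈ S := by
    intro S hS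
    have : ∀ k : ℕ, ∀ x ∈ S, (σ ^ k) x ∈ S := by
      intro k
      induction k with
      | zero => intro x hx; simpa using hx
      | succ k ih => intro x hx; rw [pow_succ', MulAut.mul_apply]; exact hS _ (ih x hx)
    exact this _
  have hρinv : ∀ x : P, ρ x⁻¹ * ρ x = 1 := by
    intro x; rw [← map_mul, inv_mul_cancel, map_one]
  have hρinv' : ∀ x : P, ρ x * ρ x⁻¹ = 1 := by
    intro x; rw [← map_mul, mul_inv_cancel, map_one]
  -- the minimal subgroup
  obtain ⟨S, hSmin⟩ := exists_minimal_of_wellFoundedLT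
    (fun S : Subgroup P => (∀ x ∈ S, σ x ∈ S) ∧ ∃ g ∈ S, ρ (τ g) ≠ ρ g)
    ⟨⊤, fun _ _ => Subgroup.mem_top _, by
      obtain ⟨g, hg⟩ := hg; exact ⟨g, Subgroup.mem_top _, hg⟩⟩
  obtain ⟨hSσ, g₀, hg₀S, hg₀⟩ := hSmin.prop
  have hSτ := hinvτ S hSσ
  -- (1) `S` is generated by inverted elements
  set gens : Set P := {y | ∃ g ∈ S, y = g⁻¹ * τ g} with hgens
  have hgensS : ∀ y ∈ gens, y ∈ S := by
    rintro y ⟨g, hgS, rfl⟩
    exact S.mul_mem (S.inv_mem hgS) (hSτ g hgS)
  have hgensτ : ∀ y ∈ gens, τ y = y⁻¹ := by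
    rintro y ⟨g, hgS, rfl⟩
    rw [map_mul, map_inv, hττ, mul_inv_rev, inv_inv]
  have hS1S : Subgroup.closure gens ≤ S := (Subgroup.closure_le S).2 hgensS
  have hS1σ : ∀ x ∈ Subgroup.closure gens, σ x ∈ Subgroup.closure gens := by
    intro x hx
    induction hx using Subgroup.closure_induction with
    | mem y hy =>
      obtain ⟨g, hgS, rfl⟩ := hy
      apply Subgroup.subset_closure
      exact ⟨σ g, hSσ g hgS, by rw [map_mul, map_inv, hτσ]⟩
    | one => rw [map_one]; exact Subgroup.one_mem _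
    | mul x y _ _ hx hy => rw [map_mul]; exact Subgroup.mul_mem _ hx hy
    | inv x _ hx => rw [map_inv]; exact Subgroup.inv_mem _ hx
  have hSS1 : S ≤ Subgroup.closure gens := by
    apply hSmin.le_of_le _ hS1S
    refine ⟨hS1σ, ?_⟩
    by_contra hcon
    push Not at hcon
    apply hg₀
    -- ρ (g⁻¹ τ g) = 1 for all g ∈ S
    have hu : ρ (g₀⁻¹ * τ g₀) = 1 := by
      set u := g₀⁻¹ * τ g₀ with hu
      have huS1 : u ∈ Subgroup.closure gens := Subgroup.subset_closure ⟨g₀, hg₀S, rfl⟩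
      have h1 : ρ (τ u) = ρ u := hcon u huS1
      rw [hgensτ u ⟨g₀, hg₀S, rfl⟩] at h1
      have h2 : ρ (u * u) = 1 := by
        rw [map_mul]
        nth_rewrite 1 [← h1]
        exact hρinv u
      obtain ⟨k, hk⟩ := eq_sq_pow_of_odd hodd u
      rw [hk, map_pow, h2, one_pow]
    rw [map_mul] at hu
    calc ρ (τ g₀) = ρ g₀ * (ρ g₀⁻¹ * ρ (τ g₀)) := by
          rw [← mul_assoc, hρinv', one_mul]
      _ = ρ g₀ := by rw [hu, mul_one]
  -- (2) the commutator subgroup
  haveI : Group.IsNilpotent P := hP.isNilpotent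
  have hSne : S ≠ ⊥ := by
    rintro rfl
    rw [Subgroup.mem_bot] at hg₀S
    apply hg₀
    rw [hg₀S, map_one]
  have hDlt : ⁅S, S⁆ < S := Group.IsSolvable.commutator_lt_of_ne_bot hSne
  have hDσ : ∀ x ∈ ⁅S, S⁆, σ x ∈ ⁅S, S⁆ := by
    intro x hx
    have hmap : Subgroup.map σ.toMonoidHom S ≤ S := by
      rintro _ ⟨y, hy, rfl⟩
      exact hSσ y hy
    have h1 : σ x ∈ Subgroup.map σ.toMonoidHom ⁅S, S⁆ := ⟨x, hx, rfl⟩
    rw [Subgroup.map_commutator] at h1
    exact Subgroup.commutator_mono hmap hmap h1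
  have hDτ : ∀ d ∈ ⁅S, S⁆, ρ (τ d) = ρ d := by
    intro d hd
    by_contra hcon
    exact absurd (hSmin.le_of_le ⟨hDσ, d, hd, hcon⟩ hDlt.le) (not_le_of_gt hDlt)
  have hDS : ⁅S, S⁆ ≤ S := hDlt.le
  -- (3) `ρ(D)` commutes with `ρ(S)`
  have hcomm : ∀ d ∈ ⁅S, S⁆, ∀ g ∈ S, ρ d * ρ g = ρ g * ρ d := by
    intro d hd g hgS
    have hg1 := hSS1 hgS
    induction hg1 using Subgroup.closure_induction with
    | mem u hu =>
      have huS := hgensS u hu
      have hconj : u * d * u⁻¹ ∈ ⁅S, S⁆ := by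
        have : u * d * u⁻¹ = ⁅u, d⁆ * d := by
          simp [commutatorElement_def]
        rw [this]
        exact Subgroup.mul_mem _ (Subgroup.commutator_mem_commutator huS (hDS hd)) hd
      have e : τ (u * d * u⁻¹) = u⁻¹ * τ d * u := by
        rw [map_mul, map_mul, map_inv, hgensτ u hu, inv_inv]
      have h1 := hDτ _ hconj
      rw [e] at h1
      simp only [map_mul] at h1
      rw [hDτ d hd] at h1
      -- h1 : ρ u⁻¹ * ρ d * ρ u = ρ u * ρ d * ρ u⁻¹
      have h2 : ρ d * ρ (u * u) = ρ (u * u) * ρ d := by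
        rw [map_mul]
        calc ρ d * (ρ u * ρ u) = ρ u * (ρ u⁻¹ * ρ d * ρ u) * ρ u := by
              simp only [mul_assoc]
              rw [← mul_assoc (ρ u) (ρ u⁻¹), hρinv', one_mul]
          _ = ρ u * (ρ u * ρ d * ρ u⁻¹) * ρ u := by rw [h1]
          _ = ρ u * ρ u * ρ d := by
              simp only [mul_assoc]
              rw [hρinv, mul_one]
      obtain ⟨k, hk⟩ := eq_sq_pow_of_odd hodd u
      rw [hk, map_pow]
      exact (Commute.pow_right (show Commute (ρ d) (ρ (u * u)) from h2) k)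
    | one => rw [map_one, mul_one, one_mul]
    | mul x y hx hy ihx ihy =>
      have hxS := hS1S hx
      have hyS := hS1S hy
      rw [map_mul, ← mul_assoc, ihx hxS, mul_assoc, ihy hyS, mul_assoc]
    | inv x hx ihx =>
      have hxS := hS1S hx
      have h1 := ihx hxS
      calc ρ d * ρ x⁻¹ = ρ x⁻¹ * (ρ x * ρ d) * ρ x⁻¹ := by
            rw [← mul_assoc, hρinv, one_mul]
        _ = ρ x⁻¹ * (ρ d * ρ x) * ρ x⁻¹ := by rw [h1]
        _ = ρ x⁻¹ * ρ d := by
            rw [mul_assoc, mul_assoc, hρinv', mul_one]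
  -- (4) `a * τ a ∈ D`
  have hinvD : ∀ a ∈ S, a * τ a ∈ ⁅S, S⁆ := by
    intro a haS
    have ha1 := hSS1 haS
    induction ha1 using Subgroup.closure_induction with
    | mem u hu => rw [hgensτ u hu, mul_inv_cancel]; exact Subgroup.one_mem _
    | one => rw [map_one, mul_one]; exact Subgroup.one_mem _
    | mul x y hx hy ihx ihy =>
      have hxS := hS1S hx
      have hyS := hS1S hy
      have : x * y * τ (x * y) = (x * τ x) * ⁅(τ x)⁻¹, y⁆ * (y * τ y) := by
        rw [map_mul]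
        simp [commutatorElement_def, mul_assoc]
      rw [this]
      exact Subgroup.mul_mem _ (Subgroup.mul_mem _ (ihx hxS)
        (Subgroup.commutator_mem_commutator (S.inv_mem (hSτ x hxS)) hyS)) (ihy hyS)
    | inv x hx ihx =>
      have hxS := hS1S hx
      have : x⁻¹ * τ x⁻¹ = (⁅τ x, x⁆ * (x * τ x))⁻¹ := by
        rw [map_inv]
        simp [commutatorElement_def, mul_assoc]
      rw [this]
      exact Subgroup.inv_mem _ (Subgroup.mul_mem _
        (Subgroup.commutator_mem_commutator (hSτ x hxS) hxS) (ihx hxS))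
  -- (5) `ρ` is nontrivial on `D`
  have hex : ∃ d ∈ ⁅S, S⁆, ρ d ≠ 1 := by
    by_contra hcon
    push Not at hcon
    apply hg₀
    have hSab : ∀ a ∈ S, ∀ b ∈ S, ρ a * ρ b = ρ b * ρ a := by
      intro a ha b hb
      have : a * b = ⁅a, b⁆ * (b * a) := by simp [commutatorElement_def, mul_assoc]
      rw [← map_mul, this, map_mul, hcon _ (Subgroup.commutator_mem_commutator ha hb), one_mul,
        map_mul]
    have hcardS : ((Nat.card S : ℕ) : K) ≠ 0 := by
      obtain ⟨m, hm⟩ := (hP.to_subgroup S).exists_card_eq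
      rw [hm, Nat.cast_pow]
      exact pow_ne_zero _ hsK
    exact hR1 P σ n hn K V ρ X hfpf S hSσ hSab hcardS g₀ hg₀S
  exact ⟨S, ⁅S, S⁆, rfl, hSσ, hDσ, hinvD, hcomm, hDτ, hex⟩

example (hR1 : R1Statement.{u}) : ULinAStatement.{u} := ulina_holds hR1

end Cfsg.Agent.H64.Gross
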