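import Mathlib
import Cfsg.Agent.H64.Hall4Defs

/-! # S4221: assembly of the team pieces (helper64) -/

set_option autoImplicit false
set_option linter.unusedSectionVars false

namespace Cfsg.Agent.H64.Hall4

open Equiv

universe u

section aux
variable {α : Type u} [Fintype α] [DecidableEq α]

theorem norm_of_preserve (G : Subgroup (Perm α)) (S : Set α) (y : Perm α) (hy : y ∈ G)
    (hS : ∀ p ∈ S, y⁻¹ p ∈ S) :
    ∀ h ∈ G ⊓ fixingSubgroup (Perm α) S, y * h * y⁻¹ ∈ G ⊓ fixingSubgroup (Perm α) S := by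
  intro h hh
  rw [Subgroup.mem_inf] at hh ⊢
  obtain ⟨hG, hf⟩ := hh
  refine ⟨G.mul_mem (G.mul_mem hy hG) (G.inv_mem hy), ?_⟩
  rw [mem_fixingSubgroup_iff] at hf ⊢
  intro p hp
  have := hf _ (hS p hp)
  simp only [Perm.smul_def, Perm.mul_apply] at this ⊢
  rw [this]
  simp

theorem inv_eq_self_of_sq {y : Perm α} (hy : y * y = 1) : y⁻¹ = y :=
  inv_eq_of_mul_eq_one_left hy

theorem sq_apply {y : Perm α} (hy : y * y = 1) (p : α) : y (y p) = p := by
  have := congrArg (fun f : Perm α => f p) hy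
  simpa using this

theorem comm_apply {y z : Perm α} (h : y * z = z * y) (p : α) : y (z p) = z (y p) := by
  have := congrArg (fun f : Perm α => f p) h
  simpa using this

end aux

theorem core
    (hBW : BWStmt.{u}) (hCONJ : ConjStmt.{u}) (hC0A : C0ConstStmt.{u})
    (hC0B : C0OrbitStmt.{u}) (hCHY : CHyStmt.{u}) (hFOUR : FourStmt.{u}) (hCU : CUStmt.{u})
    (hREGCNT : RegCountStmt.{u}) (hREGTR : RegTransStmt.{u}) (hREGORB : RegOrbStmt.{u})
    (hC0ONE : C0OneStmt.{u})
    {α : Type u} [Fintype α] [DecidableEq α] (G : Subgroup (Perm α)) (hB : Basic G)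
    (hn : 8 ≤ Fintype.card α) (a b c d : α) (hnd : [a, b, c, d].Nodup) :
    Fintype.card α = 11 ∧
      Nat.card ↥(G ⊓ fixingSubgroup (Perm α) ({a, b, c, d} : Set α)) = 1 := by
  obtain ⟨hIC, hFE, hF2⟩ := hCONJ G hB hn
  obtain ⟨y, z, hc⟩ := hFOUR G hB a b c d hnd
  have hnd' := hnd
  simp only [List.nodup_cons, List.mem_cons, not_or, List.not_mem_nil,
    not_false_eq_true, List.nodup_nil, and_true] at hnd'
  obtain ⟨⟨hab, hac, had⟩, ⟨hbc, hbd⟩, hcd⟩ := hnd'
  have y2 := sq_apply hc.y2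
  have z2 := sq_apply hc.z2
  have yz := comm_apply hc.comm
  -- involutions
  have hyI : Inv G y := ⟨hc.hy, hc.y2, fun h => hcd (by rw [← hc.yc, h]; rfl)⟩
  have hzI : Inv G z := ⟨hc.hz, hc.z2, fun h => hab (by rw [← hc.za, h]; rfl)⟩
  have hxa : (y * z) a = b := by simp [hc.za, hc.yb]
  have hxc : (y * z) c = d := by simp [hc.zc, hc.yc]
  have hxI : Inv G (y * z) := by
    refine ⟨G.mul_mem hc.hy hc.hz, ?_, fun h => hab (by rw [← hxa, h]; rfl)⟩
    calc y * z * (y * z) = y * (z * y) * z := by group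
      _ = y * (y * z) * z := by rw [hc.comm]
      _ = (y * y) * (z * z) := by group
      _ = 1 := by rw [hc.y2, hc.z2, one_mul]
  have hφ2 : 2 ≤ fixN y := hF2 y hyI
  have hφ3 : fixN y ≤ 3 := hB.fixLe y hyI
  have hφz : fixN z = fixN y := hFE z y hzI hyI
  have hφx : fixN (y * z) = fixN y := hFE _ y hxI hyI
  -- a regular point
  have hcnt := hREGCNT G hB hFE y z a b c d hc
  have hpos : 0 < Set.ncard {e : α | Reg y z e} := by rw [hcnt]; omega
  obtain ⟨e, he⟩ := (Set.ncard_pos (Set.toFinite _)).mp hpos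
  obtain ⟨he1, he2, he3⟩ : y e ≠ e ∧ z e ≠ e ∧ y (z e) ≠ e := he
  have hea : e ≠ a := fun h => he1 (by rw [h, hc.ya])
  have heb : e ≠ b := fun h => he1 (by rw [h, hc.yb])
  have hec : e ≠ c := fun h => he2 (by rw [h, hc.zc])
  have hed : e ≠ d := fun h => he2 (by rw [h, hc.zd])
  -- the constant c0
  set c0 := Nat.card ↥(G ⊓ Subgroup.centralizer {y * z} ⊓
    fixingSubgroup (Perm α) ({a, (y * z) a, c, (y * z) c} : Set α)) with hc0
  have hc0pos : 0 < c0 := Nat.card_pos
  have hxane : (y * z) a ≠ a := by rw [hxa]; exact fun h => hab h.symm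
  have hxcne : (y * z) c ≠ c := by rw [hxc]; exact fun h => hcd h.symm
  have hcxa : c ≠ (y * z) a := by rw [hxa]; exact fun h => hbc h.symm
  have hca : c ≠ a := fun h => hac h.symm
  -- |C_H(y)|
  have hycne : y c ≠ c := by rw [hc.yc]; exact fun h => hcd h.symm
  have hA1 := hCHY G hB y hyI a b c hc.ya hc.yb hab hycne
  have hA2 := hC0B G hB y hyI c e hycne he1 hec (by rw [hc.yc]; exact hed)
  have hA3 := hC0A G hB y (y * z) hyI hxI c e a c hycne he1 hec (by rw [hc.yc]; exact hed)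
    hxane hxcne hca hcxa
  rw [hA3, ← hc0] at hA2
  rw [hA2, hc.yc] at hA1
  -- |C_H(z)|
  have hzane : z a ≠ a := by rw [hc.za]; exact fun h => hab h.symm
  have hB1 := hCHY G hB z hzI c d a hc.zc hc.zd hcd hzane
  have hB2 := hC0B G hB z hzI a e hzane he2 hea (by rw [hc.za]; exact heb)
  have hB3 := hC0A G hB z (y * z) hzI hxI a e a c hzane he2 hea (by rw [hc.za]; exact heb)
    hxane hxcne hca hcxa
  rw [hB3, ← hc0] at hB2
  rw [hB2, hc.za, hφz] at hB1
  -- |C(U)|
  have hU1 := hCU G hB y z a b c d hc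
  have hU2 := hREGORB G y z hc.comm
    (fun e e' he he' => hREGTR G hB y hc.hy z hc.hz hc.y2 hc.z2 hc.comm e e' he he') e
    ⟨he1, he2, he3⟩
  rw [hcnt] at hU2
  -- the regular orbit
  have hzy : z (y e) = y (z e) := (yz e).symm
  have hn1 : y e ≠ z e := fun h => he3 (by rw [← h, y2])
  have hn2 : y e ≠ y (z e) := fun h => he2 (y.injective h).symm
  have hn3 : z e ≠ y (z e) := fun h => he1 (by
    have h' := congrArg z h
    rw [z2, ← yz, z2] at h'
    exact h'.symm)
  have hndR : [e, y e, z e, y (z e)].Nodup := by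
    simp only [List.nodup_cons, List.mem_cons, not_or, List.not_mem_nil,
      not_false_eq_true, List.nodup_nil, and_true]
    exact ⟨⟨fun h => he1 h.symm, fun h => he2 h.symm, fun h => he3 h.symm⟩, ⟨hn1, hn2⟩, hn3⟩
  -- Brauer–Wielandt on the special 4-set
  have hyinv := inv_eq_self_of_sq hc.y2
  have hzinv := inv_eq_self_of_sq hc.z2
  have hBW1 := hBW (G ⊓ fixingSubgroup (Perm α) ({a, b, c, d} : Set α)) y z
    (hB.oddCard a b c d hnd) hc.y2 hc.z2 hc.comm
    (norm_of_preserve G _ y hc.hy (by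
      intro p hp
      rw [hyinv]
      simp only [Set.mem_insert_iff, Set.mem_singleton_iff] at hp ⊢
      rcases hp with rfl | rfl | rfl | rfl
      · simp [hc.ya]
      · simp [hc.yb]
      · simp [hc.yc]
      · simp [hc.yd]))
    (norm_of_preserve G _ z hc.hz (by
      intro p hp
      rw [hzinv]
      simp only [Set.mem_insert_iff, Set.mem_singleton_iff] at hp ⊢
      rcases hp with rfl | rfl | rfl | rfl
      · simp [hc.za]
      · simp [hc.zb]
      · simp [hc.zc]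
      · simp [hc.zd]))
  -- Brauer–Wielandt on the regular orbit
  have hBW2 := hBW (G ⊓ fixingSubgroup (Perm α) ({e, y e, z e, y (z e)} : Set α)) y z
    (hB.oddCard _ _ _ _ hndR) hc.y2 hc.z2 hc.comm
    (norm_of_preserve G _ y hc.hy (by
      intro p hp
      rw [hyinv]
      simp only [Set.mem_insert_iff, Set.mem_singleton_iff] at hp ⊢
      rcases hp with rfl | rfl | rfl | rfl
      · simp
      · simp [y2]
      · simp
      · simp [y2]))
    (norm_of_preserve G _ z hc.hz (by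
      intro p hp
      rw [hzinv]
      simp only [Set.mem_insert_iff, Set.mem_singleton_iff] at hp ⊢
      rcases hp with rfl | rfl | rfl | rfl
      · simp
      · simp [hzy]
      · simp [z2]
      · rw [← hzy, z2]; simp))
  -- rewriting the subgroups
  have e1 : ∀ S : Set α, G ⊓ fixingSubgroup (Perm α) S ⊓ Subgroup.centralizer {y} ⊓
      Subgroup.centralizer {z} =
      G ⊓ Subgroup.centralizer {y} ⊓ Subgroup.centralizer {z} ⊓ fixingSubgroup (Perm α) S := by
    intro S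
    simp only [inf_assoc, inf_comm, inf_left_comm]
  have e2 : ∀ (S : Set α) (t : Perm α), G ⊓ fixingSubgroup (Perm α) S ⊓ Subgroup.centralizer {t} =
      G ⊓ Subgroup.centralizer {t} ⊓ fixingSubgroup (Perm α) S := by
    intro S t
    exact inf_right_comm _ _ _
  have s3 : ({a, b, c, d} : Set α) = {c, d, a, b} := by
    ext p; simp only [Set.mem_insert_iff, Set.mem_singleton_iff]
    constructor <;> (rintro (h | h | h | h) <;> simp [h])
  have s4 : ({a, b, c, d} : Set α) = {a, (y * z) a, c, (y * z) c} := by rw [hxa, hxc]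
  have s5 : ({e, y e, z e, y (z e)} : Set α) = {e, z e, y e, z (y e)} := by
    rw [hzy]
    ext p; simp only [Set.mem_insert_iff, Set.mem_singleton_iff]
    constructor <;> (rintro (h | h | h | h) <;> simp [h])
  have hxe : (y * z) e = y (z e) := rfl
  have hxye : (y * z) (y e) = z e := by
    show y (z (y e)) = z e
    rw [hzy, y2]
  have s6 : ({e, y e, z e, y (z e)} : Set α) = {e, (y * z) e, y e, (y * z) (y e)} := by
    rw [hxe, hxye]
    ext p; simp only [Set.mem_insert_iff, Set.mem_singleton_iff]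
    constructor <;> (rintro (h | h | h | h) <;> simp [h])
  -- centralizers on the regular orbit
  have f2 := hC0A G hB y (y * z) hyI hxI e (z e) a c he1 (fun h => hn3 h.symm) he2
    (fun h => hn1 h.symm) hxane hxcne hca hcxa
  have f3 := hC0A G hB z (y * z) hzI hxI e (y e) a c he2
    (by rw [hzy]; exact fun h => hn2 h.symm) he1 hn1 hxane hxcne hca hcxa
  have f4 := hC0A G hB (y * z) (y * z) hxI hxI e (y e) a c (by rw [hxe]; exact he3)
    (by rw [hxye]; exact fun h => hn1 h.symm) he1 (by rw [hxe]; exact hn2) hxane hxcne hca hcxa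
  rw [← hc0] at f2 f3 f4
  rw [← s5] at f3
  rw [← s6] at f4
  have f1 := hB.cardEq e (y e) (z e) (y (z e)) a b c d hndR hnd
  rw [e1, e2, e2, e2, f1, f2, f3, f4] at hBW2
  rw [e1, e2, e2, e2] at hBW1
  have g3 : Nat.card ↥(G ⊓ Subgroup.centralizer {z} ⊓
      fixingSubgroup (Perm α) ({a, b, c, d} : Set α)) =
      Nat.card ↥(G ⊓ Subgroup.centralizer {z} ⊓
        fixingSubgroup (Perm α) ({c, d, a, b} : Set α)) := by rw [← s3]
  have g4 : Nat.card ↥(G ⊓ Subgroup.centralizer {y * z} ⊓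
      fixingSubgroup (Perm α) ({a, b, c, d} : Set α)) = c0 := by rw [hc0, ← s4]
  rw [g3, g4] at hBW1
  -- numerics
  generalize Nat.card ↥(G ⊓ fixingSubgroup (Perm α) ({a, b, c, d} : Set α)) = h1 at *
  generalize Nat.card ↥(G ⊓ Subgroup.centralizer {y} ⊓ Subgroup.centralizer {z} ⊓
    fixingSubgroup (Perm α) ({a, b, c, d} : Set α)) = uu at *
  generalize Nat.card ↥(G ⊓ Subgroup.centralizer {y} ⊓ Subgroup.centralizer {z} ⊓
    fixingSubgroup (Perm α) ({e, y e, z e, y (z e)} : Set α)) = dd at *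
  generalize Nat.card ↥(G ⊓ Subgroup.centralizer {y} ⊓
    fixingSubgroup (Perm α) ({a, b, c, d} : Set α)) = AA at *
  generalize Nat.card ↥(G ⊓ Subgroup.centralizer {z} ⊓
    fixingSubgroup (Perm α) ({c, d, a, b} : Set α)) = BB at *
  generalize Nat.card ↥(G ⊓ Subgroup.centralizer {y} ⊓ Subgroup.centralizer {z}) = CU at *
  clear hIC hFE hF2 hc e1 e2 s3 s4 s5 s6 hREGCNT hREGTR hREGORB hCU hFOUR hCHY hC0B hCONJ hBW f1 g3
  obtain ⟨m, hm⟩ : ∃ m, Fintype.card α - fixN y - 4 = m := ⟨_, rfl⟩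
  have hm2 : Fintype.card α - fixN y - 2 = m + 2 := by omega
  rw [hm2] at hA1 hB1
  rw [hm] at hU2
  have hud : 4 * uu = m * dd := by rw [← hU1, hU2]
  have key : (fixN y * (fixN y - 1) * m) ^ 2 * (c0 * c0 * c0) =
      (4 * (m + 2)) ^ 2 * (c0 * c0 * c0) := by
    calc (fixN y * (fixN y - 1) * m) ^ 2 * (c0 * c0 * c0)
        = (fixN y * (fixN y - 1)) ^ 2 * (h1 * (m * dd) ^ 2) := by rw [← hBW2]; ring
      _ = (fixN y * (fixN y - 1)) ^ 2 * (h1 * (4 * uu) ^ 2) := by rw [hud]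
      _ = 16 * (fixN y * (fixN y - 1)) ^ 2 * (h1 * uu ^ 2) := by ring
      _ = 16 * (fixN y * (fixN y - 1) * AA) * (fixN y * (fixN y - 1) * BB) * c0 := by
          rw [hBW1]; ring
      _ = (4 * (m + 2)) ^ 2 * (c0 * c0 * c0) := by rw [hA1, hB1]; ring
  have key2 : (fixN y * (fixN y - 1) * m) ^ 2 = (4 * (m + 2)) ^ 2 :=
    Nat.eq_of_mul_eq_mul_right (Nat.mul_pos (Nat.mul_pos hc0pos hc0pos) hc0pos) key
  have key3 : fixN y * (fixN y - 1) * m = 4 * (m + 2) :=
    Nat.pow_left_injective (by norm_num : 2 ≠ 0) key2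
  have hφ : fixN y = 3 ∧ m = 4 := by
    rcases (by omega : fixN y = 2 ∨ fixN y = 3) with h | h
    · rw [h] at key3; omega
    · rw [h] at key3; omega
  have hn11 : Fintype.card α = 11 := by omega
  refine ⟨hn11, ?_⟩
  have hone := hC0ONE G hB (y * z) hxI (by rw [hφx]; omega) a c hxane hxcne hca hcxa
  rw [← hc0] at hone
  rw [hone] at hBW2
  exact Nat.eq_one_of_mul_eq_one_right hBW2

theorem main_of_pieces
    (hB1 : BasicAStmt.{u}) (hB2 : BasicBStmt.{u}) (hB3 : BasicCStmt.{u})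
    (hBR1 : BridgeStmt.{u}) (hBR2 : BridgeCardStmt.{u})
    (hSM45 : Small45Stmt.{u}) (hSM6 : Small6Stmt.{u}) (hSM7 : Small7Stmt.{u})
    (hBW : BWStmt.{u}) (hCONJ : ConjStmt.{u}) (hC0A : C0ConstStmt.{u})
    (hC0B : C0OrbitStmt.{u}) (hCHY : CHyStmt.{u}) (hFOUR : FourStmt.{u}) (hCU : CUStmt.{u})
    (hREGCNT : RegCountStmt.{u}) (hREGTR : RegTransStmt.{u}) (hREGORB : RegOrbStmt.{u})
    (hC0ONE : C0OneStmt.{u})
    {α : Type u} [Fintype α] [DecidableEq α] (G : Subgroup (Equiv.Perm α))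
    (hG : MulAction.IsMultiplyPretransitive G α 4) (x : Fin 4 ↪ α)
    (hodd : Odd (Nat.card (MulAction.stabilizer G x))) :
    ((Fintype.card α = 4 ∨ Fintype.card α = 5) ∧ G = ⊤) ∨
      ((Fintype.card α = 6 ∨ Fintype.card α = 7) ∧ G = alternatingGroup α) ∨
      (Fintype.card α = 11 ∧ Nat.card G = 7920) := by
  obtain ⟨hT, hO⟩ := hBR1 G hG x hodd
  obtain ⟨hcard, hstab⟩ := hBR2 G hG x
  have hn4 : 4 ≤ Fintype.card α := by
    simpa using Fintype.card_le_of_embedding x
  by_cases hn : 8 ≤ Fintype.card α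
  · right; right
    obtain ⟨hTr, hTP, hFL⟩ := hB1 G hO
    obtain ⟨hCE, hOC⟩ := hB3 G hT hO
    have hB : Basic G := ⟨hT, hO, hTr, hTP, hB2 G hTr, hFL, hCE, hOC⟩
    have hnd : [x 0, x 1, x 2, x 3].Nodup := by
      simp [x.injective.eq_iff]
    obtain ⟨h11, hH⟩ := core hBW hCONJ hC0A hC0B hCHY hFOUR hCU hREGCNT hREGTR hREGORB hC0ONE
      G hB hn (x 0) (x 1) (x 2) (x 3) hnd
    refine ⟨h11, ?_⟩
    rw [hcard, hstab, hH, h11]
  · have : Fintype.card α = 4 ∨ Fintype.card α = 5 ∨ Fintype.card α = 6 ∨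
        Fintype.card α = 7 := by omega
    rcases this with h | h | h | h
    · exact Or.inl ⟨Or.inl h, hSM45 G hT (Or.inl h)⟩
    · exact Or.inl ⟨Or.inr h, hSM45 G hT (Or.inr h)⟩
    · exact Or.inr (Or.inl ⟨Or.inl h, hSM6 G hG x hodd hcard hT hO h⟩)
    · exact Or.inr (Or.inl ⟨Or.inr h, hSM7 G hG x hodd hcard hT hO h⟩)

end Cfsg.Agent.H64.Hall4
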