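import Mathlib
import Cfsg.Agent.H64.Hall4Defs

/-! # S4221 piece H4-SM6 (helper64) -/

set_option autoImplicit false
set_option linter.unusedSectionVars false

namespace Cfsg.Agent.H64.Hall4

open Equiv

universe u

section
variable {α : Type u} [Fintype α] [DecidableEq α]

/-- an element of the stabilizer of the embedding fixes its points -/
theorem stab_fix (G : Subgroup (Perm α)) (x : Fin 4 ↪ α) (g : G)
    (hg : g ∈ MulAction.stabilizer G x) (i : Fin 4) : (g : Perm α) (x i) = x i := by
  rw [MulAction.mem_stabilizer_iff] at hg
  have := DFunLike.congr_fun hg i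
  exact this

theorem emb_nodup (x : Fin 4 ↪ α) : [x 0, x 1, x 2, x 3].Nodup := by
  simp [x.injective.eq_iff]

/-- the support of an element fixing the points of `x` -/
theorem support_card_le (x : Fin 4 ↪ α) (g : Perm α) (hfix : ∀ i, g (x i) = x i) :
    g.support.card ≤ Fintype.card α - 4 := by
  have : g.support ⊆ (Finset.univ.map x)ᶜ := by
    intro p hp
    rw [Perm.mem_support] at hp
    simp only [Finset.mem_compl, Finset.mem_map, Finset.mem_univ, true_and, not_exists]
    intro i hi
    exact hp (by rw [← hi]; exact hfix i)
  calc _ ≤ ((Finset.univ.map x)ᶜ).card := Finset.card_le_card this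
    _ = Fintype.card α - 4 := by
      rw [Finset.card_compl, Finset.card_map, Finset.card_univ]; simp

end

theorem small6 : Small6Stmt.{u} := by
  intro α _ _ G hG x hodd hcard hT hO h6
  have hstab : MulAction.stabilizer G x = ⊥ := by
    rw [Subgroup.eq_bot_iff_forall]
    intro g hg
    have hfix := stab_fix G x g hg
    have hoddg : Odd (orderOf (g : Perm α)) :=
      hO g g.2 (x 0) (x 1) (x 2) (x 3) (emb_nodup x) (hfix 0) (hfix 1) (hfix 2) (hfix 3)
    have hs := support_card_le x (g : Perm α) hfix
    rw [h6] at hs
    have h1 : (g : Perm α) = 1 := by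
      by_contra hne
      have h0 : (g : Perm α).support.card ≠ 0 := by
        rw [Ne, Perm.card_support_eq_zero]; exact hne
      have h1' := Perm.card_support_ne_one (g : Perm α)
      have h2 : (g : Perm α).support.card = 2 := by omega
      rw [Perm.card_support_eq_two] at h2
      rw [h2.orderOf] at hoddg
      exact absurd hoddg (by decide)
    exact Subtype.ext h1
  rw [hstab, Subgroup.card_bot, h6] at hcard
  have hidx : G.index = 2 := by
    have h := Subgroup.card_mul_index G
    rw [hcard, Nat.card_eq_fintype_card, Fintype.card_perm, h6] at h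
    have : (6 : ℕ).factorial = 720 := by decide
    rw [this] at h
    omega
  exact Equiv.Perm.eq_alternatingGroup_of_index_eq_two hidx

end Cfsg.Agent.H64.Hall4
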