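import Mathlib
import Cfsg.Agent.H64.Hall4Defs
import Cfsg.Agent.H64.Hall4SM6

/-! # S4221 piece H4-BR2 (helper64) -/

set_option autoImplicit false
set_option linter.unusedSectionVars false

namespace Cfsg.Agent.H64.Hall4

open Equiv

universe u

theorem bridgeCard : BridgeCardStmt.{u} := by
  intro α _ _ G hG x
  constructor
  · have h2 := @MulAction.index_stabilizer_of_transitive G (Fin 4 ↪ α) _ _ x hG
    have h1 := Subgroup.card_mul_index (MulAction.stabilizer G x)
    have h3 : (MulAction.stabilizer G x).index = Fintype.card α * (Fintype.card α - 1) *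
        (Fintype.card α - 2) * (Fintype.card α - 3) := by
      rw [h2, Nat.card_eq_fintype_card,
        Fintype.card_embedding_eq, Fintype.card_fin]
      simp only [Nat.descFactorial_succ, Nat.descFactorial_zero, Nat.sub_zero]
      ring
    rw [← h1, h3, mul_comm]
  · refine Nat.card_congr ⟨fun g => ⟨g.1.1, ?_⟩, fun h => ⟨⟨h.1, ?_⟩, ?_⟩, ?_, ?_⟩
    · rw [Subgroup.mem_inf, mem_fixingSubgroup_iff]
      refine ⟨g.1.2, ?_⟩
      intro p hp
      simp only [Set.mem_insert_iff, Set.mem_singleton_iff] at hp
      rcases hp with rfl | rfl | rfl | rfl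
      · exact stab_fix G x g.1 g.2 0
      · exact stab_fix G x g.1 g.2 1
      · exact stab_fix G x g.1 g.2 2
      · exact stab_fix G x g.1 g.2 3
    · exact (Subgroup.mem_inf.mp h.2).1
    · rw [MulAction.mem_stabilizer_iff]
      have hf := (Subgroup.mem_inf.mp h.2).2
      rw [mem_fixingSubgroup_iff] at hf
      ext i
      show h.1 (x i) = x i
      fin_cases i
      · exact hf _ (by simp)
      · exact hf _ (by simp)
      · exact hf _ (by simp)
      · exact hf _ (by simp)
    · intro g; rfl
    · intro h; rfl

end Cfsg.Agent.H64.Hall4
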