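import Mathlib
import Cfsg.Agent.H64.Hall4Defs

/-! # S4221 piece H4-CU (helper64) -/

set_option autoImplicit false
set_option linter.unusedSectionVars false

namespace Cfsg.Agent.H64.Hall4

open Equiv

universe u

theorem card_eq_four_mul {Γ : Type*} [Group Γ] (C K : Subgroup Γ) (hK : K ≤ C) (w : Fin 4 → Γ)
    (hw : ∀ i, w i ∈ C) (hcover : ∀ g ∈ C, ∃ i, (w i)⁻¹ * g ∈ K)
    (hdisj : ∀ i j, (w i)⁻¹ * w j ∈ K → i = j) : Nat.card C = 4 * Nat.card K := by
  have h1 := Subgroup.card_eq_card_quotient_mul_card_subgroup (K.subgroupOf C)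
  have h2 : Nat.card (K.subgroupOf C) = Nat.card K :=
    Nat.card_congr (Subgroup.subgroupOfEquivOfLe hK).toEquiv
  have h3 : Nat.card (↥C ⧸ K.subgroupOf C) = 4 := by
    have hb : Function.Bijective
        (fun i : Fin 4 => (QuotientGroup.mk ⟨w i, hw i⟩ : ↥C ⧸ K.subgroupOf C)) := by
      constructor
      · intro i j h
        rw [QuotientGroup.eq] at h
        exact hdisj i j (by simpa [Subgroup.mem_subgroupOf] using h)
      · intro q
        induction q using QuotientGroup.induction_on with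
        | H g =>
          obtain ⟨i, hi⟩ := hcover g g.2
          exact ⟨i, by rw [QuotientGroup.eq]; simpa [Subgroup.mem_subgroupOf] using hi⟩
    rw [← Nat.card_congr (Equiv.ofBijective _ hb)]
    simp
  rw [h1, h2, h3]

section
variable {α : Type u} [Fintype α] [DecidableEq α]

theorem four_le_fixN (t : Perm α) (p q r s : α) (hnd : [p, q, r, s].Nodup)
    (hp : t p = p) (hq : t q = q) (hr : t r = r) (hs : t s = s) : 4 ≤ fixN t := by
  have h4 : ([p, q, r, s].toFinset).card = 4 := List.toFinset_card_of_nodup hnd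
  rw [← h4]
  apply Finset.card_le_card
  intro x hx
  simp only [List.toFinset_cons, List.toFinset_nil, insert_empty_eq, Finset.mem_insert,
    Finset.mem_singleton] at hx
  simp only [Finset.mem_filter, Finset.mem_univ, true_and]
  rcases hx with rfl | rfl | rfl | rfl <;> assumption

theorem image_mem_pair (y z : Perm α) (hy3 : fixN y ≤ 3) (hz2 : z * z = 1)
    (hcomm : y * z = z * y) (a b : α) (hab : a ≠ b) (ya : y a = a) (yb : y b = b)
    (za : z a = b) (zb : z b = a) (g : Perm α) (hgy : g * y = y * g) (hgz : g * z = z * g)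
    (p : α) (hp : p = a ∨ p = b) : g p = a ∨ g p = b := by
  by_contra hcon
  push Not at hcon
  obtain ⟨h1, h2⟩ := hcon
  have hyp : y p = p := by rcases hp with rfl | rfl <;> assumption
  have hyw : y (g p) = g p := by
    have := congrArg (fun f : Perm α => f p) hgy
    simp only [Perm.mul_apply] at this
    rw [← this, hyp]
  have hzz : ∀ q, z (z q) = q := fun q => by
    have := congrArg (fun f : Perm α => f q) hz2
    simpa using this
  have hyz : ∀ q, y (z q) = z (y q) := fun q => by
    have := congrArg (fun f : Perm α => f q) hcomm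
    simpa using this
  have hgzp : z (g p) = g (z p) := by
    have := congrArg (fun f : Perm α => f p) hgz
    simp only [Perm.mul_apply] at this
    exact this.symm
  -- z (g p) is fixed by y and differs from a, b
  have hzw : z (g p) = g p := by
    by_contra hne
    have hnd : [a, b, g p, z (g p)].Nodup := by
      simp only [List.nodup_cons, List.mem_cons, not_or, List.not_mem_nil,
        not_false_eq_true, List.nodup_nil, and_true]
      refine ⟨⟨hab, fun h => h1 h.symm, ?_⟩, ⟨fun h => h2 h.symm, ?_⟩, fun h => hne h.symm⟩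
      · intro h
        have := congrArg z h
        rw [za, hzz] at this
        exact h2 this.symm
      · intro h
        have := congrArg z h
        rw [zb, hzz] at this
        exact h1 this.symm
    have := four_le_fixN y a b (g p) (z (g p)) hnd ya yb hyw (by rw [hyz, hyw])
    omega
  rw [hgzp] at hzw
  have hzp : z p = p := g.injective hzw
  rcases hp with rfl | rfl
  · rw [za] at hzp; exact hab hzp.symm
  · rw [zb] at hzp; exact hab hzp

end

theorem cu : CUStmt.{u} := by
  intro α _ _ G hB y z a b c d hc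
  have hnd' := hc.nodup
  simp only [List.nodup_cons, List.mem_cons, not_or, List.not_mem_nil,
    not_false_eq_true, List.nodup_nil, and_true] at hnd'
  obtain ⟨⟨hab, hac, had⟩, ⟨hbc, hbd⟩, hcd⟩ := hnd'
  have hyI : Inv G y := ⟨hc.hy, hc.y2, fun h => hcd (by rw [← hc.yc, h]; rfl)⟩
  have hzI : Inv G z := ⟨hc.hz, hc.z2, fun h => hab (by rw [← hc.za, h]; rfl)⟩
  have hy3 := hB.fixLe y hyI
  have hz3 := hB.fixLe z hzI
  have memC : ∀ g, g ∈ G ⊓ Subgroup.centralizer {y} ⊓ Subgroup.centralizer {z} ↔
      g ∈ G ∧ g * y = y * g ∧ g * z = z * g := by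
    intro g
    simp only [Subgroup.mem_inf, Subgroup.mem_centralizer_singleton_iff, and_assoc]
  have memK : ∀ g, g ∈ G ⊓ Subgroup.centralizer {y} ⊓ Subgroup.centralizer {z} ⊓
      fixingSubgroup (Perm α) ({a, b, c, d} : Set α) ↔
      g ∈ G ⊓ Subgroup.centralizer {y} ⊓ Subgroup.centralizer {z} ∧
        g a = a ∧ g b = b ∧ g c = c ∧ g d = d := by
    intro g
    rw [Subgroup.mem_inf, mem_fixingSubgroup_iff]
    simp only [Set.mem_insert_iff, Set.mem_singleton_iff, forall_eq_or_imp, forall_eq,
      Perm.smul_def]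
  -- elements of C preserve {a,b} and {c,d}
  have hpab : ∀ g, g ∈ G ⊓ Subgroup.centralizer {y} ⊓ Subgroup.centralizer {z} →
      ∀ p, p = a ∨ p = b → g p = a ∨ g p = b := by
    intro g hg p hp
    obtain ⟨-, hgy, hgz⟩ := (memC g).1 hg
    exact image_mem_pair y z hy3 hc.z2 hc.comm a b hab hc.ya hc.yb hc.za hc.zb g hgy hgz p hp
  have hpcd : ∀ g, g ∈ G ⊓ Subgroup.centralizer {y} ⊓ Subgroup.centralizer {z} →
      ∀ p, p = c ∨ p = d → g p = c ∨ g p = d := by
    intro g hg p hp
    obtain ⟨-, hgy, hgz⟩ := (memC g).1 hg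
    exact image_mem_pair z y hz3 hc.y2 hc.comm.symm c d hcd hc.zc hc.zd hc.yc hc.yd g hgz hgy p hp
  have hKmem : ∀ g, g ∈ G ⊓ Subgroup.centralizer {y} ⊓ Subgroup.centralizer {z} →
      g a = a → g c = c → g ∈ G ⊓ Subgroup.centralizer {y} ⊓ Subgroup.centralizer {z} ⊓
      fixingSubgroup (Perm α) ({a, b, c, d} : Set α) := by
    intro g hg ha hcc
    rw [memK]
    refine ⟨hg, ha, ?_, hcc, ?_⟩
    · rcases hpab g hg b (Or.inr rfl) with h | h
      · exact absurd (g.injective (h.trans ha.symm)) (fun h => hab h.symm)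
      · exact h
    · rcases hpcd g hg d (Or.inr rfl) with h | h
      · exact absurd (g.injective (h.trans hcc.symm)) (fun h => hcd h.symm)
      · exact h
  have y2 : ∀ p, y (y p) = p := fun p => by
    have := congrArg (fun f : Perm α => f p) hc.y2
    simpa using this
  have z2 : ∀ p, z (z p) = p := fun p => by
    have := congrArg (fun f : Perm α => f p) hc.z2
    simpa using this
  have hyinv : y⁻¹ = y := inv_eq_of_mul_eq_one_left hc.y2
  have hzinv : z⁻¹ = z := inv_eq_of_mul_eq_one_left hc.z2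
  have hyC : y ∈ G ⊓ Subgroup.centralizer {y} ⊓ Subgroup.centralizer {z} :=
    (memC y).2 ⟨hc.hy, rfl, hc.comm⟩
  have hzC : z ∈ G ⊓ Subgroup.centralizer {y} ⊓ Subgroup.centralizer {z} :=
    (memC z).2 ⟨hc.hz, hc.comm.symm, rfl⟩
  apply card_eq_four_mul _ _ inf_le_left ![1, y, z, y * z]
  · intro i
    fin_cases i
    · exact Subgroup.one_mem _
    · exact hyC
    · exact hzC
    · exact Subgroup.mul_mem _ hyC hzC
  · intro g hg
    rcases hpab g hg a (Or.inl rfl) with h1 | h1 <;> rcases hpcd g hg c (Or.inl rfl) with h2 | h2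
    · exact ⟨0, by simpa using hKmem g hg h1 h2⟩
    · refine ⟨1, ?_⟩
      show y⁻¹ * g ∈ _
      apply hKmem _ (Subgroup.mul_mem _ (Subgroup.inv_mem _ hyC) hg)
      · rw [hyinv, Perm.mul_apply, h1, hc.ya]
      · rw [hyinv, Perm.mul_apply, h2, hc.yd]
    · refine ⟨2, ?_⟩
      show z⁻¹ * g ∈ _
      apply hKmem _ (Subgroup.mul_mem _ (Subgroup.inv_mem _ hzC) hg)
      · rw [hzinv, Perm.mul_apply, h1, hc.zb]
      · rw [hzinv, Perm.mul_apply, h2, hc.zc]
    · refine ⟨3, ?_⟩
      show (y * z)⁻¹ * g ∈ _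
      apply hKmem _ (Subgroup.mul_mem _ (Subgroup.inv_mem _ (Subgroup.mul_mem _ hyC hzC)) hg)
      · rw [mul_inv_rev, hyinv, hzinv, Perm.mul_apply, Perm.mul_apply, h1, hc.yb, hc.zb]
      · rw [mul_inv_rev, hyinv, hzinv, Perm.mul_apply, Perm.mul_apply, h2, hc.yd, hc.zc]
  · intro i j hij
    rw [memK] at hij
    obtain ⟨-, ha, -, hcc, -⟩ := hij
    rw [Perm.mul_apply, Perm.inv_eq_iff_eq] at ha hcc
    -- ha : w j a = w i a ; hcc : w j c = w i c
    fin_cases i <;> fin_cases j <;>
      simp [Perm.mul_apply, hc.ya, hc.za, hc.yb, hc.zc, hc.yc, hc.zd, hc.yd, hc.zb] at ha hcc ⊢ <;>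
      first
        | exact absurd ha hab
        | exact absurd ha.symm hab
        | exact absurd hcc hcd
        | exact absurd hcc.symm hcd
        | exact absurd ha (Ne.symm hab)
        | exact absurd hcc (Ne.symm hcd)

end Cfsg.Agent.H64.Hall4
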