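import Mathlib
import Cfsg.Agent.H64.Hall4Defs
import Cfsg.Agent.H64.Hall4CU

/-! # S4221 piece H4-REGCNT (helper64) -/

set_option autoImplicit false
set_option linter.unusedSectionVars false

namespace Cfsg.Agent.H64.Hall4

open Equiv

universe u

section
variable {α : Type u} [Fintype α] [DecidableEq α]

theorem fix_of_fix (y z : Perm α) (hy3 : fixN y ≤ 3) (hz2 : z * z = 1)
    (hcomm : y * z = z * y) (a b : α) (hab : a ≠ b) (ya : y a = a) (yb : y b = b)
    (za : z a = b) (zb : z b = a) (w : α) (hw : y w = w) (h1 : w ≠ a) (h2 : w ≠ b) :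
    z w = w := by
  have hzz : ∀ q, z (z q) = q := fun q => by
    have := congrArg (fun f : Perm α => f q) hz2
    simpa using this
  have hyz : ∀ q, y (z q) = z (y q) := fun q => by
    have := congrArg (fun f : Perm α => f q) hcomm
    simpa using this
  by_contra hne
  have hnd : [a, b, w, z w].Nodup := by
    simp only [List.nodup_cons, List.mem_cons, not_or, List.not_mem_nil,
      not_false_eq_true, List.nodup_nil, and_true]
    refine ⟨⟨hab, fun h => h1 h.symm, ?_⟩, ⟨fun h => h2 h.symm, ?_⟩, fun h => hne h.symm⟩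
    · intro h
      have := congrArg z h
      rw [za, hzz] at this
      exact h2 this.symm
    · intro h
      have := congrArg z h
      rw [zb, hzz] at this
      exact h1 this.symm
  have := four_le_fixN y a b w (z w) hnd ya yb hw (by rw [hyz, hw])
  omega

end

theorem regcnt : RegCountStmt.{u} := by
  intro α _ _ G hB hFE y z a b c d hc
  have hnd' := hc.nodup
  simp only [List.nodup_cons, List.mem_cons, not_or, List.not_mem_nil,
    not_false_eq_true, List.nodup_nil, and_true] at hnd'
  obtain ⟨⟨hab, hac, had⟩, ⟨hbc, hbd⟩, hcd⟩ := hnd'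
  have hyI : Inv G y := ⟨hc.hy, hc.y2, fun h => hcd (by rw [← hc.yc, h]; rfl)⟩
  have hzI : Inv G z := ⟨hc.hz, hc.z2, fun h => hab (by rw [← hc.za, h]; rfl)⟩
  have hxa : (y * z) a = b := by simp [hc.za, hc.yb]
  have hxI : Inv G (y * z) := by
    refine ⟨G.mul_mem hc.hy hc.hz, ?_, fun h => hab (by rw [← hxa, h]; rfl)⟩
    calc y * z * (y * z) = y * (z * y) * z := by group
      _ = y * (y * z) * z := by rw [hc.comm]
      _ = (y * y) * (z * z) := by group
      _ = 1 := by rw [hc.y2, hc.z2, one_mul]
  have hy3 := hB.fixLe y hyI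
  have y2 : ∀ p, y (y p) = p := fun p => by
    have := congrArg (fun f : Perm α => f p) hc.y2
    simpa using this
  have z2 : ∀ p, z (z p) = p := fun p => by
    have := congrArg (fun f : Perm α => f p) hc.z2
    simpa using this
  set A := Finset.univ.filter (fun e => y e = e) with hA
  set B := Finset.univ.filter (fun e => z e = e) with hB'
  set C := Finset.univ.filter (fun e => (y * z) e = e) with hC
  have cA : A.card = fixN y := rfl
  have cB : B.card = fixN y := by rw [← hFE z y hzI hyI]; rfl
  have cC : C.card = fixN y := by rw [← hFE (y * z) y hxI hyI]; rfl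
  have hAB : A ∩ B = A \ {a, b} := by
    ext w
    simp only [A, B, Finset.mem_inter, Finset.mem_filter, Finset.mem_univ, true_and,
      Finset.mem_sdiff, Finset.mem_insert, Finset.mem_singleton, not_or]
    constructor
    · rintro ⟨h1, h2⟩
      refine ⟨h1, fun h => ?_, fun h => ?_⟩
      · rw [h, hc.za] at h2; exact hab h2.symm
      · rw [h, hc.zb] at h2; exact hab h2
    · rintro ⟨h1, h2, h3⟩
      exact ⟨h1, fix_of_fix y z hy3 hc.z2 hc.comm a b hab hc.ya hc.yb hc.za hc.zb w h1 h2 h3⟩
  have hsub : ({a, b} : Finset α) ⊆ A := by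
    intro w hw
    simp only [Finset.mem_insert, Finset.mem_singleton] at hw
    simp only [A, Finset.mem_filter, Finset.mem_univ, true_and]
    rcases hw with rfl | rfl
    · exact hc.ya
    · exact hc.yb
  have c2 : ({a, b} : Finset α).card = 2 := Finset.card_pair hab
  have h2le : 2 ≤ fixN y := by rw [← cA, ← c2]; exact Finset.card_le_card hsub
  have cAB : (A ∩ B).card = fixN y - 2 := by
    rw [hAB, Finset.card_sdiff_of_subset hsub, cA, c2]
  have hCAB : C ∩ (A ∪ B) = A ∩ B := by
    ext w
    simp only [A, B, C, Finset.mem_inter, Finset.mem_union, Finset.mem_filter, Finset.mem_univ,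
      true_and]
    simp only [Perm.mul_apply]
    constructor
    · rintro ⟨h1, h2 | h2⟩
      · refine ⟨h2, ?_⟩
        have := congrArg y h1
        rw [y2, h2] at this
        exact this
      · refine ⟨?_, h2⟩
        rw [h2] at h1
        exact h1
    · rintro ⟨h1, h2⟩
      exact ⟨by rw [h2, h1], Or.inl h1⟩
  have hU : (A ∪ B ∪ C).card = fixN y + 4 := by
    have h1 : (A ∪ B).card = fixN y + 2 := by
      have := Finset.card_union_add_card_inter A B
      rw [cA, cB, cAB] at this
      omega
    have h2 := Finset.card_union_add_card_inter (A ∪ B) C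
    rw [Finset.inter_comm, hCAB, cAB, h1, cC] at h2
    omega
  have hR : {e : α | Reg y z e} = ↑((A ∪ B ∪ C)ᶜ) := by
    ext e
    simp only [Reg, A, B, C, Set.mem_ofPred_eq, Finset.coe_compl, Set.mem_compl_iff,
      Finset.mem_coe, Finset.mem_union, Finset.mem_filter, Finset.mem_univ, true_and, not_or]
    simp only [Perm.mul_apply, and_assoc, ne_eq]
  rw [hR, Set.ncard_coe_finset, Finset.card_compl, hU]
  omega

end Cfsg.Agent.H64.Hall4
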