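import Cfsg.Agent.H64.JyDefs
import Cfsg.Agent.H39.JzLex

/-!
# S2953 (team project JY): the two shapes of the kill

`StVKillShape` (helper52's shape: `T = S` and every 2-local over `S` lies in `L`) implies
`StKill2`.
-/

set_option autoImplicit false
open Cfsg

namespace Cfsg.Agent.H64.Jy

open Cfsg.Agent.H64.Jz

universe u

/-- The kill in the shape "every 2-local over `S` lies in `L`". -/
def StVKillShape : Prop := ∀ {G : Type u} [Group G] [Finite G] (S : Sylow 2 G)
    (M K L : Subgroup G), Base S M (S : Subgroup G) K L →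
  (∀ X : Subgroup G, IsTwoLocal X → (S : Subgroup G) ≤ X → X ≤ L) → False

theorem kill2_of_vkill (h : StVKillShape.{u}) : StKill2.{u} := by
  intro G _ _ S M K L T' K' L' hR
  obtain ⟨hB, hN, hB', hne⟩ := hR
  refine h S M K L hB ?_
  intro X hX hSX
  have hT' : T' ∈ maxStraddlingTwoSubgroups L := hB'.2.2.2.2.1
  have hT'S : T' ≤ (S : Subgroup G) := hB'.2.2.2.2.2.1
  exact Cfsg.Agent.H39.Jz.twoLocal_le_of_normalizer hT' S.isPGroup'
    (Subgroup.le_normalizer.trans hN) hT'S hne hX (inf_le_left.trans hSX)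

end Cfsg.Agent.H64.Jy

#print axioms Cfsg.Agent.H64.Jy.kill2_of_vkill
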