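import Cfsg.Agent.H64.JyDefs
import Cfsg.Agent.H64.JyKillGlue
import Cfsg.Agent.H20.JyMore
import Cfsg.Agent.H16.JyConj
import Cfsg.Agent.H66.JyNotin
import Cfsg.Agent.H66.JyNJ
import Cfsg.Agent.H19.JyGoodA

/-!
# S2953 (team project JY): the wiring

`main53_of`: `StMain53` from the landed outer pieces (PAIR / SETUP2 / NS / START helper20,
CONJ helper16, NOTIN / NJ helper66, GOODA helper19), with GOODB, GOODC and the kill as hypotheses.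
-/

set_option autoImplicit false
open Cfsg

namespace Cfsg.Agent.H64.Jy

open Cfsg.Agent.H64.Jz

universe u

/-- `StMain53` from GOODB, GOODC and the kill. -/
theorem main53_of (hB : StGoodB.{u}) (hC : StGoodC.{u}) (hKill2 : StKill2.{u}) : StMain53.{u} :=
  main53 (good_of Cfsg.Agent.H19.Jy.goodA hB hC) Cfsg.Agent.H20.Jy.stPair Cfsg.Agent.H16.Jy.conj
    Cfsg.Agent.H66.Jy.notIn Cfsg.Agent.H20.Jy.ns Cfsg.Agent.H66.Jy.nj Cfsg.Agent.H20.Jy.stSetup2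
    hKill2

/-- S2953 from GOODB, GOODC and the kill. -/
theorem s2953_of (hB : StGoodB.{u}) (hC : StGoodC.{u}) (hKill2 : StKill2.{u})
    {G : Type u} [Group G] [Finite G]
    (hL : Cfsg.IsCharacteristicTwoType G)
    (hN : ∀ N : Subgroup G, Cfsg.IsTwoLocal N → Group.IsSolvable ↥N)
    (hZ : ∀ S : Sylow 2 G, Subgroup.centralizer (Cfsg.omegaCenterOf (S : Subgroup G) : Set G) ≤
      Subgroup.normalizer ((S : Subgroup G) : Set G))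
    (hO : Cfsg.pCore 2 G = ⊥) (S : Sylow 2 G) (M : Subgroup G) (hM : Cfsg.IsTwoLocal M)
    (hMJ : Subgroup.normalizer (Cfsg.thompsonSubgroupOf 2 (S : Subgroup G) : Set G) ≤ M)
    (T : Subgroup G) (hT : T ∈ Cfsg.maxStraddlingTwoSubgroups M) :
    ∃ K₁ K₂ : Subgroup G, K₁ ≠ K₂ ∧ Cfsg.IsJComponent T K₁ ∧ Cfsg.IsJComponent T K₂ ∧
      Cfsg.pCoreOf 2 ((K₁ ⊔ T) ⊔ (K₂ ⊔ T)) = ⊥ ∧
      ∀ P ∈ [K₁ ⊔ T, K₂ ⊔ T],
        Subgroup.centralizer (Cfsg.pCoreOf 2 P : Set G) ≤ Cfsg.pCoreOf 2 P ∧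
        Cfsg.IsSylowTwoIn T P ∧
        (Cfsg.pCoreOf 2 P).relIndex P = 6 ∧ ¬ ⁅P, P⁆ ≤ Cfsg.pCoreOf 2 P ∧
        ⁅Cfsg.omegaCenterOf T, P⁆ ≠ ⊥ ∧
        ∃ L : Subgroup G, Cfsg.IsMaximalTwoLocal L ∧ P ≤ L ∧ Cfsg.IsSylowTwoIn T L ∧
          ∀ L' : Subgroup G, Cfsg.IsMaximalTwoLocal L' → P ≤ L' → L' = L :=
  result_of53 Cfsg.Agent.H20.Jy.start (main53_of hB hC hKill2) hL hN hZ hO S M hM hMJ T hT

end Cfsg.Agent.H64.Jy

#print axioms Cfsg.Agent.H64.Jy.s2953_of
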