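import Mathlib
import Cfsg.Agent.H91.U62Defs

set_option autoImplicit false

namespace Cfsg.Agent.H64.U62

universe u v w

/-- the commutator `a b a⁻¹ b⁻¹` -/
def cm {D : Type*} [Group D] (a b : D) : D := a * b * a⁻¹ * b⁻¹

theorem sq_mul_of_central {D : Type*} [Group D] (a b : D)
    (hc : ∀ g : D, cm b a * g = g * cm b a) :
    (a * b) * (a * b) = cm b a * (a * a) * (b * b) := by
  have h1 : b * a = cm b a * a * b := by
    unfold cm
    group
  calc (a * b) * (a * b) = a * (b * a) * b := by group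
    _ = a * (cm b a * a * b) * b := by rw [← h1]
    _ = (a * cm b a) * (a * b * b) := by group
    _ = (cm b a * a) * (a * b * b) := by rw [hc a]
    _ = cm b a * (a * a) * (b * b) := by group

theorem cm_mul_right {D : Type*} [Group D] (x a b : D)
    (hc : ∀ g : D, cm x b * g = g * cm x b) :
    cm x (a * b) = cm x a * cm x b := by
  have h1 : cm x (a * b) = cm x a * (a * cm x b) * a⁻¹ := by
    unfold cm
    group
  rw [h1, ← hc a]
  group

theorem sq_eq_of_isConj {D : Type*} {Gb : Type*} [Group D] [Group Gb] (ρ : D →* Gb)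
    (hsurj : Function.Surjective ρ) (hker : ρ.ker ≤ Subgroup.center D)
    (hz2 : ∀ z ∈ ρ.ker, z * z = 1) (y y' : D) (hc : IsConj (ρ y) (ρ y'))
    (hy : y * y ∈ ρ.ker) : y' * y' = y * y := by
  obtain ⟨g, hg⟩ := isConj_iff.mp hc
  obtain ⟨n, rfl⟩ := hsurj g
  have hk : (n * y * n⁻¹)⁻¹ * y' ∈ ρ.ker := by
    rw [MonoidHom.mem_ker, map_mul, map_inv, map_mul, map_mul, map_inv, hg, inv_mul_cancel]
  have hkc := Subgroup.mem_center_iff.mp (hker hk)
  have hyc := Subgroup.mem_center_iff.mp (hker hy)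
  have hww : (n * y * n⁻¹) * (n * y * n⁻¹) = y * y := by
    have h1 : (n * y * n⁻¹) * (n * y * n⁻¹) = n * (y * y) * n⁻¹ := by group
    rw [h1, hyc n]
    group
  calc y' * y' = (n * y * n⁻¹) * ((n * y * n⁻¹)⁻¹ * y') *
        ((n * y * n⁻¹) * ((n * y * n⁻¹)⁻¹ * y')) := by group
    _ = (n * y * n⁻¹) * (((n * y * n⁻¹)⁻¹ * y') * (n * y * n⁻¹)) *
        ((n * y * n⁻¹)⁻¹ * y') := by group
    _ = (n * y * n⁻¹) * ((n * y * n⁻¹) * ((n * y * n⁻¹)⁻¹ * y')) *
        ((n * y * n⁻¹)⁻¹ * y') := by rw [← hkc (n * y * n⁻¹)]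
    _ = ((n * y * n⁻¹) * (n * y * n⁻¹)) *
        (((n * y * n⁻¹)⁻¹ * y') * ((n * y * n⁻¹)⁻¹ * y')) := by group
    _ = y * y := by rw [hz2 _ hk, hww, mul_one]

theorem ea3 : Cfsg.Agent.H91.U62.Ea3Stmt.{u, v, w} := by
  intro D _ Gb _ ρ hsurj hker hz2 ι p hcomm hinv hconj hconj2 htri hsix y hy
  choose P hP using fun i => hsurj (p i)
  have hcen : ∀ z ∈ ρ.ker, ∀ g : D, z * g = g * z := fun z hz g =>
    (Subgroup.mem_center_iff.mp (hker hz) g).symm
  have hPP : ∀ i, P i * P i ∈ ρ.ker := by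
    intro i
    rw [MonoidHom.mem_ker, map_mul, hP, hinv]
  have hcmZ : ∀ i j, cm (P j) (P i) ∈ ρ.ker := by
    intro i j
    rw [MonoidHom.mem_ker]
    unfold cm
    rw [map_mul, map_mul, map_mul, map_inv, map_inv, hP, hP, (hcomm j i).eq]
    group
  have hpair : ∀ i j, (p i * p j) * (p i * p j) = 1 := by
    intro i j
    calc (p i * p j) * (p i * p j) = p i * (p j * p i) * p j := by group
      _ = p i * (p i * p j) * p j := by rw [(hcomm j i).eq]
      _ = (p i * p i) * (p j * p j) := by group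
      _ = 1 := by rw [hinv, hinv, mul_one]
  have hPPZ : ∀ i j, (P i * P j) * (P i * P j) ∈ ρ.ker := by
    intro i j
    rw [MonoidHom.mem_ker]
    simp only [map_mul, hP]
    exact hpair i j
  obtain ⟨a, b, k, hab, hka, hkb, hconj3⟩ := htri
  -- `c₁`
  have hc1 : ∀ i, P i * P i = P a * P a := by
    intro i
    exact sq_eq_of_isConj ρ hsurj hker hz2 (P a) (P i) (by rw [hP, hP]; exact hconj a i) (hPP a)
  have hc1sq : (P a * P a) * (P a * P a) = 1 := hz2 _ (hPP a)
  -- `c₂`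
  have hc2 : ∀ i j, p i ≠ p j → cm (P j) (P i) = (P a * P b) * (P a * P b) := by
    intro i j hij
    have h1 : (P i * P j) * (P i * P j) = (P a * P b) * (P a * P b) :=
      sq_eq_of_isConj ρ hsurj hker hz2 (P a * P b) (P i * P j)
        (by simp only [map_mul, hP]; exact hconj2 a b i j hab hij) (hPPZ a b)
    have h2 := sq_mul_of_central (P i) (P j) (hcen _ (hcmZ i j))
    rw [hc1 i, hc1 j] at h2
    calc cm (P j) (P i) = cm (P j) (P i) * ((P a * P a) * (P a * P a)) := by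
          rw [hc1sq, mul_one]
      _ = cm (P j) (P i) * (P a * P a) * (P a * P a) :=
          (mul_assoc (cm (P j) (P i)) (P a * P a) (P a * P a)).symm
      _ = (P i * P j) * (P i * P j) := h2.symm
      _ = _ := h1
  have hc2sq : ((P a * P b) * (P a * P b)) * ((P a * P b) * (P a * P b)) = 1 :=
    hz2 _ (hPPZ a b)
  -- `c₁ = 1`
  have h3 : (P a * P b * P k) * (P a * P b * P k) = (P a * P b) * (P a * P b) :=
    sq_eq_of_isConj ρ hsurj hker hz2 (P a * P b) (P a * P b * P k)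
      (by simp only [map_mul, hP]; exact hconj3.symm) (hPPZ a b)
  have hcmk : cm (P k) (P a * P b) = 1 := by
    rw [cm_mul_right (P k) (P a) (P b) (hcen _ (hcmZ b k)), hc2 a k (Ne.symm hka),
      hc2 b k (Ne.symm hkb), hc2sq]
  have hc1one : P a * P a = 1 := by
    have h4 := sq_mul_of_central (P a * P b) (P k)
      (by rw [hcmk]; intro g; rw [one_mul, mul_one])
    rw [hcmk, one_mul, hc1 k, h3] at h4
    exact mul_left_cancel (h4.symm.trans (mul_one _).symm)
  -- `c₂ = 1`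
  obtain ⟨i₁, i₂, i₃, i₄, i₅, i₆, hprod, h61, h62, h63, h64, h65⟩ := hsix
  have hXZ : P i₁ * P i₂ * P i₃ * P i₄ * P i₅ ∈ ρ.ker := by
    rw [MonoidHom.mem_ker]
    simp only [map_mul, hP]
    exact hprod
  have hc2one : (P a * P b) * (P a * P b) = 1 := by
    have h5 : cm (P i₆) (P i₁ * P i₂ * P i₃ * P i₄ * P i₅) = 1 := by
      unfold cm
      rw [← hcen _ hXZ (P i₆)]
      group
    rw [cm_mul_right _ _ _ (hcen _ (hcmZ i₅ i₆)), cm_mul_right _ _ _ (hcen _ (hcmZ i₄ i₆)),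
      cm_mul_right _ _ _ (hcen _ (hcmZ i₃ i₆)), cm_mul_right _ _ _ (hcen _ (hcmZ i₂ i₆)),
      hc2 i₁ i₆ (Ne.symm h61), hc2 i₂ i₆ (Ne.symm h62), hc2 i₃ i₆ (Ne.symm h63),
      hc2 i₄ i₆ (Ne.symm h64), hc2 i₅ i₆ (Ne.symm h65)] at h5
    rw [hc2sq, one_mul, hc2sq, one_mul] at h5
    exact h5
  have hPinv : ∀ i, P i * P i = 1 := fun i => (hc1 i).trans hc1one
  have hPcomm : ∀ i j, P i * P j = P j * P i := by
    intro i j
    by_cases hij : p i = p j
    · have hk : (P i)⁻¹ * P j ∈ ρ.ker := by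
        rw [MonoidHom.mem_ker, map_mul, map_inv, hP, hP, hij, inv_mul_cancel]
      have hkc := hcen _ hk (P i)
      calc P i * P j = P i * (P i * ((P i)⁻¹ * P j)) := by group
        _ = P i * (((P i)⁻¹ * P j) * P i) := by rw [hkc]
        _ = P j * P i := by group
    · have h := hc2 i j hij
      rw [hc2one] at h
      unfold cm at h
      calc P i * P j = (P j * P i * (P j)⁻¹ * (P i)⁻¹)⁻¹ * (P j * P i) := by group
        _ = P j * P i := by rw [h, inv_one, one_mul]
  -- the closure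
  have hrange : Set.range p = ρ '' Set.range P := by
    rw [← Set.range_comp]
    congr 1
    funext i
    exact (hP i).symm
  rw [hrange, ← MonoidHom.map_closure] at hy
  obtain ⟨x, hx, hxy⟩ := Subgroup.mem_map.mp hy
  have hxx : x * x = 1 ∧ x ∈ Subgroup.centralizer (Set.range P) := by
    refine Subgroup.closure_induction
      (p := fun x _ => x * x = 1 ∧ x ∈ Subgroup.centralizer (Set.range P)) ?_ ?_ ?_ ?_ hx
    · rintro _ ⟨i, rfl⟩
      refine ⟨hPinv i, ?_⟩
      rw [Subgroup.mem_centralizer_iff]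
      rintro _ ⟨j, rfl⟩
      exact hPcomm j i
    · exact ⟨one_mul 1, Subgroup.one_mem _⟩
    · rintro u v hu hv ⟨hu1, hu2⟩ ⟨hv1, hv2⟩
      refine ⟨?_, Subgroup.mul_mem _ hu2 hv2⟩
      have hvc : v ∈ Subgroup.centralizer (Subgroup.centralizer (Set.range P) : Set D) :=
        Subgroup.closure_le_centralizer_centralizer _ hv
      have huv : u * v = v * u := (Subgroup.mem_centralizer_iff.mp hvc) u hu2
      calc u * v * (u * v) = u * (v * u) * v := by group
        _ = u * (u * v) * v := by rw [huv]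
        _ = (u * u) * (v * v) := by group
        _ = 1 := by rw [hu1, hv1, mul_one]
    · rintro u hu ⟨hu1, hu2⟩
      refine ⟨?_, Subgroup.inv_mem _ hu2⟩
      calc u⁻¹ * u⁻¹ = (u * u)⁻¹ := by group
        _ = 1 := by rw [hu1, inv_one]
  have hk : x⁻¹ * y ∈ ρ.ker := by
    rw [MonoidHom.mem_ker, map_mul, map_inv, hxy, inv_mul_cancel]
  have hkc := hcen _ hk x
  calc y * y = x * (x⁻¹ * y) * (x * (x⁻¹ * y)) := by group
    _ = x * ((x⁻¹ * y) * x) * (x⁻¹ * y) := by group
    _ = x * (x * (x⁻¹ * y)) * (x⁻¹ * y) := by rw [hkc]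
    _ = (x * x) * ((x⁻¹ * y) * (x⁻¹ * y)) := by group
    _ = 1 := by rw [hxx.1, hz2 _ hk, mul_one]

example : Cfsg.Agent.H91.U62.Ea3Stmt.{u, v, w} := ea3

end Cfsg.Agent.H64.U62
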