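import Mathlib
import Cfsg.Agent.H91.U62Defs

set_option autoImplicit false

namespace Cfsg.Agent.H64.U62

open Cfsg.Agent.H91.U62

universe u

theorem sub_mul_sub {K : Type*} [Field K] (h2 : (2 : K) = 0) (M M' : Matrix (Fin 3) (Fin 3) K) :
    M.submatrix r3 r3 * M'.submatrix r3 r3 = 0 := by
  ext i j
  rw [Matrix.mul_apply, Fin.sum_univ_six]
  simp only [Matrix.submatrix_apply, Matrix.zero_apply]
  have e0 : r3 0 = 0 := rfl
  have e1 : r3 1 = 1 := rfl
  have e2 : r3 2 = 2 := rfl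
  have e3 : r3 3 = 0 := rfl
  have e4 : r3 4 = 1 := rfl
  have e5 : r3 5 = 2 := rfl
  rw [e0, e1, e2, e3, e4, e5]
  linear_combination (M (r3 i) 0 * M' 0 (r3 j) + M (r3 i) 1 * M' 1 (r3 j)
    + M (r3 i) 2 * M' 2 (r3 j)) * h2

theorem xmat_mul {K : Type*} [Field K] (h2 : (2 : K) = 0) (M M' : Matrix (Fin 3) (Fin 3) K) :
    xmat M * xmat M' = xmat (M + M') := by
  have h := sub_mul_sub h2 M M'
  have hadd : (M + M').submatrix r3 r3 = M.submatrix r3 r3 + M'.submatrix r3 r3 := rfl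
  unfold xmat
  rw [hadd]
  calc (1 + M.submatrix r3 r3) * (1 + M'.submatrix r3 r3)
      = 1 + M.submatrix r3 r3 + M'.submatrix r3 r3
        + M.submatrix r3 r3 * M'.submatrix r3 r3 := by
        rw [add_mul, mul_add, mul_add, one_mul, mul_one, one_mul]
        abel
    _ = 1 + (M.submatrix r3 r3 + M'.submatrix r3 r3) := by rw [h, add_zero, add_assoc]

theorem xmat_zero {K : Type*} [Field K] : xmat (0 : Matrix (Fin 3) (Fin 3) K) = 1 := by
  unfold xmat
  rw [Matrix.submatrix_zero]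
  exact add_zero _

theorem two_eq_zero_of_card {K : Type*} [Field K] [Fintype K] (hK : Fintype.card K = 4) :
    (2 : K) = 0 := by
  have h4 := FiniteField.cast_card_eq_zero K
  rw [hK] at h4
  have h22 : (2 : K) * 2 = 0 := by
    push_cast at h4
    linear_combination h4
  exact mul_self_eq_zero.mp h22

theorem fus1 : Cfsg.Agent.H91.U62.Fus1Stmt.{u} := by
  intro K _ _ hK
  have h2 : (2 : K) = 0 := two_eq_zero_of_card hK
  refine ⟨?_, ?_⟩
  · rintro s ⟨v, -, hs⟩ t ⟨w, -, ht⟩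
    have key : (s * t).1.1 = (t * s).1.1 := by
      rw [Subgroup.coe_mul, Subgroup.coe_mul, Matrix.SpecialLinearGroup.coe_mul,
        Matrix.SpecialLinearGroup.coe_mul, hs, ht, xmat_mul h2, xmat_mul h2, add_comm]
    exact Subtype.ext (Subtype.ext key)
  · rintro s ⟨v, -, hs⟩
    have key : (s * s).1.1 = (1 : ↥(Cfsg.SU 6 K 2)).1.1 := by
      rw [Subgroup.coe_mul, Matrix.SpecialLinearGroup.coe_mul, hs, xmat_mul h2,
        Subgroup.coe_one, Matrix.SpecialLinearGroup.coe_one]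
      have hvv : vv v + vv v = 0 := by
        rw [← two_smul K (vv v), h2, zero_smul]
      rw [hvv, xmat_zero]
    exact Subtype.ext (Subtype.ext key)

example : Cfsg.Agent.H91.U62.Fus1Stmt.{u} := fus1

end Cfsg.Agent.H64.U62
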