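import Mathlib
import Cfsg.Agent.H42.UnBase
import Cfsg.Agent.H7.SpnInv2Ex
import Cfsg.Agent.H82.SpnCycLemma

/-!
# S5954 piece UN-INV2EX: in characteristic 2 and for `n` even, an involution of `SU_n(q)` all
of whose invariant nondegenerate subspaces have even dimension.
-/

set_option autoImplicit false

namespace Cfsg.Agent.H64.Un

open Cfsg.Agent.H45 Cfsg.Agent.H42.Spd Cfsg.Agent.H42.Un Cfsg.Agent.H7.Spn Module Matrix

universe u

theorem fl_parity (i : ℕ) : fl i % 2 ≠ i % 2 := by
  unfold fl
  split_ifs <;> omega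

/-- UN-INV2EX. -/
theorem uInv2Ex : StUInv2Ex.{u} := by
  intro F _ _ q hF h2 n hn hn0
  classical
  obtain ⟨σ, hσq⟩ := Cfsg.Agent.H7.exists_frobQ hF
  obtain ⟨π, hπ⟩ : ∃ π : Equiv.Perm (Fin n), π = flPerm n hn := ⟨_, rfl⟩
  have hππ : ∀ i, π (π i) = i := fun i => by rw [hπ]; exact flPerm_flPerm n hn i
  have hπne : ∀ i, π i ≠ i := fun i => by rw [hπ]; exact flPerm_ne n hn i
  have hπpar : ∀ i : Fin n, (π i).val % 2 ≠ i.val % 2 := by
    intro i
    rw [hπ]
    exact fl_parity i.val
  obtain ⟨S, hS⟩ : ∃ S : Matrix (Fin n) (Fin n) F, S = π.permMatrix F := ⟨_, rfl⟩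
  have hSv : ∀ v : Fin n → F, S.mulVec v = fun i => v (π i) := by
    intro v
    rw [hS, Matrix.permMatrix_mulVec]
    rfl
  have hneg : (-1 : F) = 1 := by linear_combination (-1 : F) * h2
  have hsub : ∀ a b : F, a - b = a + b := by
    intro a b
    linear_combination (-b) * h2
  have hSS : S * S = 1 := by
    apply Matrix.toLin'.injective
    apply LinearMap.ext
    intro v
    rw [Matrix.toLin'_mul, LinearMap.comp_apply, Matrix.toLin'_apply, Matrix.toLin'_apply, hSv,
      hSv, Matrix.toLin'_one]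
    funext i
    simp [hππ]
  have hdet : S.det = 1 := by
    rw [hS, Matrix.det_permutation]
    rcases Int.units_eq_one_or (Equiv.Perm.sign π) with h | h
    · simp [h]
    · simp [h, hneg]
  have hpres : ∀ u v, Cfsg.hermForm n F q (S *ᵥ u) (S *ᵥ v) = Cfsg.hermForm n F q u v := by
    intro u v
    rw [hSv, hSv]
    unfold Cfsg.hermForm
    exact Equiv.sum_comp π (fun i => u i * v i ^ q)
  obtain ⟨x, hx⟩ : ∃ x : Matrix.SpecialLinearGroup (Fin n) F,
      (x : Matrix (Fin n) (Fin n) F) = S := ⟨⟨S, hdet⟩, rfl⟩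
  refine ⟨x, ?_, ?_, ?_, ?_⟩
  · rw [mem_SU_iff, hx]
    exact hpres
  · apply Subtype.ext
    rw [Matrix.SpecialLinearGroup.coe_mul, hx]
    exact hSS
  · intro h
    have h1 : S = 1 := by rw [← hx, h]; rfl
    have h3 := hSv (Pi.single ⟨0, hn0⟩ 1)
    rw [h1, Matrix.one_mulVec] at h3
    have h4 := congrFun h3 ⟨0, hn0⟩
    rw [Pi.single_eq_same, Pi.single_apply, if_neg (hπne _)] at h4
    exact one_ne_zero h4
  · intro W hW hnd
    rw [hx] at hW
    have hI : UIso (hermB σ n) (Matrix.toLin' S) := uiso_std hF σ hσq n S hpres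
    have hnd' : W ⊓ perp (hermB σ n) W = ⊥ := (nd_std_iff hF σ hσq n W).mpr hnd
    have hWinv : W ∈ Module.End.invtSubmodule (Matrix.toLin' S) := by
      rw [Module.End.mem_invtSubmodule]
      exact Submodule.map_le_iff_le_comap.mp hW
    have hPinv := hI.perp_invt W hWinv
    rw [Module.End.mem_invtSubmodule] at hPinv
    obtain ⟨N, hN⟩ : ∃ N : Module.End F (Fin n → F), N = Matrix.toLin' S - 1 := ⟨_, rfl⟩
    have hNv : ∀ v, N v = fun i => v (π i) + v i := by
      intro v
      rw [hN, LinearMap.sub_apply, Matrix.toLin'_apply, hSv, Module.End.one_apply]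
      funext i
      rw [Pi.sub_apply, hsub]
    have hNW : ∀ w ∈ W, N w ∈ W := by
      intro w hw
      rw [hN, LinearMap.sub_apply, Module.End.one_apply]
      exact W.sub_mem (hW (Submodule.mem_map_of_mem hw)) hw
    have hNP : ∀ w ∈ perp (hermB σ n) W, N w ∈ perp (hermB σ n) W := by
      intro w hw
      rw [hN, LinearMap.sub_apply, Module.End.one_apply]
      exact Submodule.sub_mem _ (hPinv hw) hw
    have hNN : ∀ v, N (N v) = 0 := by
      intro v
      rw [hNv (N v), hNv v]
      funext i
      simp only [hππ, Pi.zero_apply]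
      linear_combination (v (π i) + v i) * h2
    have hker : ∀ v, N v = 0 → ∃ w, v = N w := by
      intro v hv
      rw [hNv] at hv
      have hfix : ∀ i, v (π i) = v i := by
        intro i
        have := congrFun hv i
        simp only [Pi.zero_apply] at this
        linear_combination this - (v i) * h2
      refine ⟨fun i => if i.val % 2 = 0 then v i else 0, ?_⟩
      rw [hNv]
      funext i
      have hp := hπpar i
      by_cases hi : i.val % 2 = 0
      · have hp' : ¬ (π i).val % 2 = 0 := by omega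
        simp only [if_pos hi, if_neg hp', zero_add]
      · have hp' : (π i).val % 2 = 0 := by omega
        simp only [if_neg hi, if_pos hp', add_zero, hfix]
    have heq : W ⊓ LinearMap.ker N = W.map N := by
      apply le_antisymm
      · rintro u ⟨huW, huN⟩
        obtain ⟨w, hw⟩ := hker u (LinearMap.mem_ker.mp huN)
        have hcompl := isCompl_perp (hermB σ n) W hnd'
        have hw' : w ∈ W ⊔ perp (hermB σ n) W := by rw [hcompl.sup_eq_top]; trivial
        obtain ⟨w1, hw1, w2, hw2, rfl⟩ := Submodule.mem_sup.mp hw'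
        have h2' : N w2 ∈ W ⊓ perp (hermB σ n) W := by
          refine ⟨?_, hNP w2 hw2⟩
          have : N w2 = u - N w1 := by rw [hw, map_add]; abel
          rw [this]
          exact W.sub_mem huW (hNW w1 hw1)
        rw [hnd', Submodule.mem_bot] at h2'
        refine ⟨w1, hw1, ?_⟩
        rw [hw, map_add, h2', add_zero]
      · rintro _ ⟨w, hw, rfl⟩
        exact ⟨hNW w hw, LinearMap.mem_ker.mpr (hNN w)⟩
    have hrn := Cfsg.Agent.H82.Spn.finrank_inf_ker_add_map W N
    rw [heq] at hrn
    exact ⟨Module.finrank F ↥(W.map N), hrn.symm⟩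

example : StUInv2Ex.{u} := uInv2Ex

end Cfsg.Agent.H64.Un
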