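import Mathlib
import Cfsg.Agent.H42.UnDefs

/-!
# S5954 piece UN-SUB2: sub-multisets of a multiset of ones and twos
-/

set_option autoImplicit false

namespace Cfsg.Agent.H64.Un

open Cfsg.Agent.H42.Un

theorem sub2_aux (μ : Multiset ℕ) : (∀ a ∈ μ, a = 1 ∨ a = 2) →
    ∀ m : ℕ, m ≤ μ.sum → (Odd μ.sum ∨ Even m) → ∃ ν : Multiset ℕ, ν ≤ μ ∧ ν.sum = m := by
  induction μ using Multiset.induction with
  | empty =>
    intro _ m hm _
    refine ⟨0, le_rfl, ?_⟩
    simp at hm
    simp [hm]
  | cons a μ ih =>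
    intro hμ m hm hpar
    have hμ' : ∀ b ∈ μ, b = 1 ∨ b = 2 := fun b hb => hμ b (Multiset.mem_cons_of_mem hb)
    have ha : a = 1 ∨ a = 2 := hμ a (Multiset.mem_cons_self a μ)
    rw [Multiset.sum_cons] at hm hpar
    rcases ha with rfl | rfl
    · -- a = 1
      by_cases h1 : m = 1 + μ.sum
      · exact ⟨1 ::ₘ μ, le_rfl, by rw [Multiset.sum_cons, h1]⟩
      · have hm' : m ≤ μ.sum := by omega
        by_cases h2 : Odd μ.sum ∨ Even m
        · obtain ⟨ν, hν, hs⟩ := ih hμ' m hm' h2
          exact ⟨ν, hν.trans (Multiset.le_cons_self μ 1), hs⟩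
        · rw [not_or] at h2
          obtain ⟨h2a, h2b⟩ := h2
          have hmodd : Odd m := Nat.not_even_iff_odd.mp h2b
          have hm1 : 1 ≤ m := hmodd.pos
          have hev : Even (m - 1) := by
            obtain ⟨k, hk⟩ := hmodd
            exact ⟨k, by omega⟩
          obtain ⟨ν, hν, hs⟩ := ih hμ' (m - 1) (by omega) (Or.inr hev)
          refine ⟨1 ::ₘ ν, Multiset.cons_le_cons 1 hν, ?_⟩
          rw [Multiset.sum_cons, hs]; omega
    · -- a = 2
      have hpar' : Odd μ.sum ∨ Even m := by
        rcases hpar with h | h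
        · left
          obtain ⟨k, hk⟩ := h
          exact ⟨k - 1, by omega⟩
        · exact Or.inr h
      by_cases h1 : m ≤ μ.sum
      · obtain ⟨ν, hν, hs⟩ := ih hμ' m h1 hpar'
        exact ⟨ν, hν.trans (Multiset.le_cons_self μ 2), hs⟩
      · have hm2 : 2 ≤ m := by
          by_contra hlt
          have hs0 : μ.sum = 0 := by omega
          have hm1 : m = 1 := by omega
          subst hm1
          rcases hpar' with h | h
          · rw [hs0] at h; exact absurd h (by decide)
          · exact absurd h (by decide)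
        have hpar'' : Odd μ.sum ∨ Even (m - 2) := by
          rcases hpar' with h | h
          · exact Or.inl h
          · right
            obtain ⟨k, hk⟩ := h
            exact ⟨k - 1, by omega⟩
        obtain ⟨ν, hν, hs⟩ := ih hμ' (m - 2) (by omega) hpar''
        refine ⟨2 ::ₘ ν, Multiset.cons_le_cons 2 hν, ?_⟩
        rw [Multiset.sum_cons, hs]; omega

/-- UN-SUB2. -/
theorem sub2 : StSub2 := fun μ m h hm hpar => sub2_aux μ h m hm hpar

example : StSub2 := sub2

end Cfsg.Agent.H64.Un
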