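import Mathlib
import Cfsg.Agent.H42.UnDefs

/-!
# S5954 piece UN-UBLOCK: a nonzero invariant nondegenerate subspace of a unipotent isometry of
a hermitian space contains a nondegenerate Jordan block.
-/

set_option autoImplicit false

namespace Cfsg.Agent.H64.Un

open Cfsg.Agent.H45 Cfsg.Agent.H42.Spd Cfsg.Agent.H42.Un Module

universe u v

section

variable {F : Type u} [Field F] {σ : F →+* F} {V : Type v} [AddCommGroup V] [Module F V]

/-- an invariant subspace of `T` is invariant under the powers of `T - 1`. -/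
theorem pow_sub_one_mem' {T : Module.End F V} {W : Submodule F V} (hW : W ∈ T.invtSubmodule)
    (j : ℕ) : ∀ w ∈ W, ((T - 1) ^ j) w ∈ W := by
  rw [Module.End.mem_invtSubmodule] at hW
  induction j with
  | zero => intro w hw; simpa using hw
  | succ j ih =>
    intro w hw
    rw [pow_succ, Module.End.mul_apply]
    apply ih
    rw [LinearMap.sub_apply, Module.End.one_apply]
    exact W.sub_mem (hW hw) hw

theorem iso_I1 {B : V →ₗ[F] V →ₛₗ[σ] F} {T : Module.End F V} (hI : UIso B T) (x z : V) :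
    B ((T - 1) x) (T z) = - B x ((T - 1) z) := by
  rw [LinearMap.sub_apply, LinearMap.sub_apply, Module.End.one_apply, Module.End.one_apply,
    map_sub, LinearMap.sub_apply, hI.isom, map_sub]
  ring

theorem iso_pow {B : V →ₗ[F] V →ₛₗ[σ] F} {T : Module.End F V} (hI : UIso B T) (k : ℕ) :
    ∀ x y : V, B (((T - 1) ^ k) x) ((T ^ k) y) = (-1) ^ k * B x (((T - 1) ^ k) y) := by
  induction k with
  | zero => intro x y; simp
  | succ k ih =>
    intro x y
    have hcomm : ((T - 1) ^ k) (T y) = T (((T - 1) ^ k) y) := by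
      have h : Commute ((T - 1) ^ k) T :=
        (Commute.sub_left (Commute.refl T) (Commute.one_left T)).pow_left k
      have := congrArg (fun f : Module.End F V => f y) h.eq
      simpa [Module.End.mul_apply] using this
    have e1 : ((T - 1) ^ (k + 1)) x = ((T - 1) ^ k) ((T - 1) x) := by
      rw [pow_succ, Module.End.mul_apply]
    have e2 : (T ^ (k + 1)) y = (T ^ k) (T y) := by
      rw [pow_succ, Module.End.mul_apply]
    have e3 : ((T - 1) ^ (k + 1)) y = (T - 1) (((T - 1) ^ k) y) := by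
      rw [pow_succ', Module.End.mul_apply]
    rw [e1, e2, e3, ih, hcomm, iso_I1 hI, pow_succ]
    ring

theorem iso_fix {B : V →ₗ[F] V →ₛₗ[σ] F} {T : Module.End F V} (hI : UIso B T) {e : ℕ}
    (he : 0 < e) {v : V} (hv : ((T - 1) ^ e) v = 0) (k : ℕ) :
    ∀ y : V, B (((T - 1) ^ (e - 1)) v) ((T ^ k) y) = B (((T - 1) ^ (e - 1)) v) y := by
  have step : ∀ y : V, B (((T - 1) ^ (e - 1)) v) (T y) = B (((T - 1) ^ (e - 1)) v) y := by
    intro y
    have h := iso_I1 hI (((T - 1) ^ (e - 1)) v) y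
    have e1 : (T - 1) (((T - 1) ^ (e - 1)) v) = ((T - 1) ^ e) v := by
      rw [← Module.End.mul_apply, ← pow_succ']
      congr 2
      omega
    rw [e1, hv, map_zero, LinearMap.zero_apply, LinearMap.sub_apply, Module.End.one_apply,
      map_sub] at h
    linear_combination h
  induction k with
  | zero => intro y; simp
  | succ k ih =>
    intro y
    rw [pow_succ, Module.End.mul_apply, ih, step]

theorem iso_symm {B : V →ₗ[F] V →ₛₗ[σ] F} {T : Module.End F V} (hI : UIso B T) {e : ℕ}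
    (he : 0 < e) {v : V} (hv : ((T - 1) ^ e) v = 0) (y : V) :
    B (((T - 1) ^ (e - 1)) v) y = (-1) ^ (e - 1) * B v (((T - 1) ^ (e - 1)) y) := by
  rw [← iso_fix hI he hv (e - 1) y, iso_pow hI]

end

/-- UN-UBLOCK. -/
theorem uUBlock (hC : StUUCyc.{u, v}) : StUUBlock.{u, v} := by
  classical
  intro F _ _ σ V _ _ _ B T hIso hnil W hW hWne
  obtain ⟨k, hk⟩ := hnil
  have hex : ∃ e : ℕ, ∀ w ∈ W, ((T - 1) ^ e) w = 0 := ⟨k, fun w _ => by rw [hk]; rfl⟩
  obtain ⟨w₁, hw₁W, hw₁0⟩ := (Submodule.ne_bot_iff W).1 hWne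
  set e := Nat.find hex with he_def
  have he : ∀ w ∈ W, ((T - 1) ^ e) w = 0 := Nat.find_spec hex
  have he0 : 0 < e := by
    rcases Nat.eq_zero_or_pos e with h0 | h0
    · exfalso
      have := he w₁ hw₁W
      rw [h0, pow_zero, Module.End.one_apply] at this
      exact hw₁0 this
    · exact h0
  have hmin : ¬ ∀ w ∈ W, ((T - 1) ^ (e - 1)) w = 0 := Nat.find_min hex (by omega)
  push Not at hmin
  obtain ⟨w₀, hw₀W, hw₀⟩ := hmin
  have hyW : ((T - 1) ^ (e - 1)) w₀ ∈ W := pow_sub_one_mem' hW.1 (e - 1) w₀ hw₀W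
  have hex2 : ∃ u₀ ∈ W, B u₀ (((T - 1) ^ (e - 1)) w₀) ≠ 0 := by
    by_contra hcon
    push Not at hcon
    have hperp : ((T - 1) ^ (e - 1)) w₀ ∈ W ⊓ perp B W :=
      ⟨hyW, (mem_perp B W _).2 hcon⟩
    rw [hW.2] at hperp
    exact hw₀ ((Submodule.mem_bot F).1 hperp)
  obtain ⟨u₀, hu₀W, hu₀⟩ := hex2
  have hherm : ∀ u ∈ W, ∀ v ∈ W, B u (((T - 1) ^ (e - 1)) v) =
      (-1) ^ (e - 1) * σ (B v (((T - 1) ^ (e - 1)) u)) := by
    intro u hu v hv
    rw [hIso.herm (((T - 1) ^ (e - 1)) v) u, iso_symm hIso he0 (he v hv) u, map_mul, map_pow,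
      map_neg, map_one]
  have hex3 : ∃ u ∈ W, B u (((T - 1) ^ (e - 1)) u) ≠ 0 := by
    by_contra hcon
    push Not at hcon
    obtain ⟨a, ha⟩ := hIso.nontriv
    have hanti : ∀ u ∈ W, ∀ v ∈ W,
        B v (((T - 1) ^ (e - 1)) u) = - B u (((T - 1) ^ (e - 1)) v) := by
      intro u hu v hv
      have h := hcon (u + v) (W.add_mem hu hv)
      simp only [map_add, LinearMap.add_apply] at h
      rw [hcon u hu, hcon v hv] at h
      linear_combination h
    have hR : ∀ u ∈ W, ∀ v ∈ W, B u (((T - 1) ^ (e - 1)) v) =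
        - ((-1) ^ (e - 1) * σ (B u (((T - 1) ^ (e - 1)) v))) := by
      intro u hu v hv
      have h1 := hherm u hu v hv
      rw [hanti u hu v hv, map_neg] at h1
      linear_combination h1
    have h1 := hR u₀ hu₀W w₀ hw₀W
    have h2 := hR (a • u₀) (W.smul_mem a hu₀W) w₀ hw₀W
    rw [map_smul, LinearMap.smul_apply, smul_eq_mul, map_mul] at h2
    have h3 : (a - σ a) * B u₀ (((T - 1) ^ (e - 1)) w₀) = 0 := by
      have h4 : a * B u₀ (((T - 1) ^ (e - 1)) w₀) =
          σ a * (- ((-1) ^ (e - 1) * σ (B u₀ (((T - 1) ^ (e - 1)) w₀)))) := by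
        rw [h2]; ring
      rw [← h1] at h4
      linear_combination h4
    rcases mul_eq_zero.mp h3 with h | h
    · exact ha (sub_eq_zero.mp h).symm
    · exact hu₀ h
  obtain ⟨u, huW, hu⟩ := hex3
  obtain ⟨P, hPW, hNdP, hdim⟩ := hC F σ V B T hIso W hW.1 e he0 u huW (he u huW) hu
  exact ⟨P, e, hPW, hNdP, he0, hdim⟩

example (hC : StUUCyc.{u, v}) : StUUBlock.{u, v} := uUBlock hC

end Cfsg.Agent.H64.Un
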