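import Mathlib
import Cfsg.Agent.H42.UnDefs
import Cfsg.Agent.H82.SpnCycLemma

/-!
# S5954 piece UN-UCYC: a cyclic nondegenerate Jordan block (hermitian case)

Port of helper82's `cyc_master` (S5956) to sesquilinear forms, for a single vector.
-/

set_option autoImplicit false

namespace Cfsg.Agent.H64.Un

open Cfsg.Agent.H45 Cfsg.Agent.H42.Spd Cfsg.Agent.H42.Un Cfsg.Agent.H82.Spn Module

universe u v

/-- UN-UCYC. -/
theorem uUCyc : StUUCyc.{u, v} := by
  intro F _ _ σ V _ _ _ B T hI W hW e he u0 hu0 hNu hB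
  let u : Fin 1 → V := fun _ => u0
  have hu : ∀ k, u k ∈ W := fun _ => hu0
  have hN : ∀ k, ((T - 1) ^ e) (u k) = 0 := fun _ => hNu
  have hne : ((T - 1) ^ (e - 1)) u0 ≠ 0 := by
    intro h
    rw [h, map_zero] at hB
    exact hB rfl
  have hind : LinearIndependent F (fun k => ((T - 1) ^ (e - 1)) (u k)) := by
    rw [Fintype.linearIndependent_iff]
    intro c hc k
    have hk : k = 0 := Subsingleton.elim _ _
    subst hk
    rw [Fin.sum_univ_one] at hc
    rcases smul_eq_zero.mp hc with h | h
    · exact h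
    · exact absurd h hne
  have hNT : ∀ x : V, (T - 1) x = T x - x := by
    intro x
    rw [LinearMap.sub_apply, Module.End.one_apply]
  generalize hNdef : T - 1 = N at hN hB hind hNT hne ⊢
  have hWN : ∀ w ∈ W, N w ∈ W := by
    intro w hw
    rw [hNT]
    exact W.sub_mem ((Module.End.mem_invtSubmodule_iff_forall_mem_of_mem T).mp hW w hw) hw
  have hWNl : ∀ l : ℕ, ∀ w ∈ W, (N ^ l) w ∈ W := by
    intro l
    induction l with
    | zero =>
      intro w hw
      simpa using hw
    | succ l ih =>
      intro w hw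
      rw [pow_succ', Module.End.mul_apply]
      exact hWN _ (ih w hw)
  have hPN : ∀ x ∈ cycSpan N u 0, N x ∈ cycSpan N u 0 := by
    intro x hx
    have h1 : (N ^ 1) x ∈ (cycSpan N u 0).map (N ^ 1) := Submodule.mem_map_of_mem hx
    rw [cycSpan_map, pow_one] at h1
    exact cycSpan_anti N u (Nat.zero_le _) h1
  have hPT : ∀ x ∈ cycSpan N u 0, T x ∈ cycSpan N u 0 := by
    intro x hx
    have h1 : T x = N x + x := by
      rw [hNT]
      abel
    rw [h1]
    exact Submodule.add_mem _ (hPN x hx) hx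
  have hTinj : Function.Injective T := by
    rw [← LinearMap.ker_eq_bot, LinearMap.ker_eq_bot']
    intro x hx
    apply hI.nondeg
    intro y
    rw [← hI.isom, hx, map_zero, LinearMap.zero_apply]
  have hsurj : ∀ p ∈ cycSpan N u 0, ∃ p' ∈ cycSpan N u 0, T p' = p := by
    intro p hp
    have hinj : Function.Injective (T.restrict hPT) := by
      intro a b hab
      apply Subtype.ext
      apply hTinj
      have h1 := congrArg Subtype.val hab
      simpa using h1
    have hs := LinearMap.injective_iff_surjective.mp hinj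
    obtain ⟨p', hp'⟩ := hs ⟨p, hp⟩
    exact ⟨p'.1, p'.2, by simpa using congrArg Subtype.val hp'⟩
  have hRN : ∀ w, w ∈ cycSpan N u 0 → w ∈ perp B (cycSpan N u 0) →
      N w ∈ perp B (cycSpan N u 0) := by
    intro w hwP hw p hp
    obtain ⟨p', hp', rfl⟩ := hsurj p hp
    rw [hNT, map_sub, hI.isom, hw p' hp', hw _ (hPT p' hp'), sub_zero]
  have hbot : cycSpan N u 0 ⊓ perp B (cycSpan N u 0) = ⊥ := by
    rw [Submodule.eq_bot_iff]
    rintro w ⟨hwP, hwR⟩
    by_contra hw0
    have hkill : (N ^ e) w = 0 := by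
      have h1 : (N ^ e) w ∈ (cycSpan N u 0).map (N ^ e) := Submodule.mem_map_of_mem hwP
      rw [cycSpan_map, zero_add, cycSpan_eq_bot N u (le_refl e) hN] at h1
      exact (Submodule.mem_bot F).mp h1
    have hex : ∃ n, (N ^ n) w = 0 := ⟨e, hkill⟩
    classical
    have hspec := Nat.find_spec hex
    have hn0 : Nat.find hex ≠ 0 := by
      intro h0
      rw [h0, pow_zero] at hspec
      exact hw0 hspec
    have hmin : (N ^ (Nat.find hex - 1)) w ≠ 0 := Nat.find_min hex (by omega)
    have hall : ∀ l : ℕ, (N ^ l) w ∈ cycSpan N u 0 ∧ (N ^ l) w ∈ perp B (cycSpan N u 0) := by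
      intro l
      induction l with
      | zero => exact ⟨by simpa using hwP, by simpa using hwR⟩
      | succ l ih =>
        rw [pow_succ', Module.End.mul_apply]
        exact ⟨hPN _ ih.1, hRN _ ih.1 ih.2⟩
    have hker : (N ^ (Nat.find hex - 1)) w ∈ cycSpan N u 0 ⊓ LinearMap.ker N := by
      refine ⟨(hall _).1, ?_⟩
      change N ((N ^ (Nat.find hex - 1)) w) = 0
      rw [← Module.End.mul_apply, ← pow_succ']
      have h1 : Nat.find hex - 1 + 1 = Nat.find hex := by omega
      rw [h1]
      exact hspec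
    rw [cycSpan_ker_eq N u e he hN hind, Submodule.mem_span_range_iff_exists_fun] at hker
    obtain ⟨c, hc⟩ := hker
    rw [Fin.sum_univ_one] at hc
    have hperp := (hall (Nat.find hex - 1)).2 u0
      (Submodule.subset_span ⟨0, 0, le_refl _, by simp [u]⟩)
    rw [← hc] at hperp
    have hc' : (N ^ (e - 1)) (u 0) = (N ^ (e - 1)) u0 := rfl
    rw [hc', LinearMap.map_smulₛₗ, smul_eq_mul] at hperp
    have hc0 : c 0 = 0 := by
      rcases mul_eq_zero.mp hperp with h | h
      · exact (RingHom.injective σ) (by rw [h, map_zero])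
      · exact absurd h hB
    apply hmin
    rw [← hc, hc0, zero_smul]
  refine ⟨cycSpan N u 0, ?_, ⟨?_, hbot⟩, ?_⟩
  · unfold cycSpan
    apply Submodule.span_le.mpr
    rintro x ⟨k, l, _, rfl⟩
    exact hWNl l _ (hu k)
  · exact (Module.End.mem_invtSubmodule_iff_forall_mem_of_mem T).mpr hPT
  · intro j
    rw [cycSpan_ker_finrank N u e he hN hind j, Fintype.card_fin, one_mul]

example : StUUCyc.{u, v} := uUCyc

end Cfsg.Agent.H64.Un
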