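import Mathlib
import Cfsg.Agent.H42.UnDefs
import Cfsg.Agent.H16.SpnModBase

/-!
# S5954 piece UN-UMODONE: the hermitian model of one Jordan block
-/

set_option autoImplicit false

namespace Cfsg.Agent.H64.Un

open Cfsg.Agent.H45 Cfsg.Agent.H42.Spd Cfsg.Agent.H42.Un Cfsg.Agent.H16.Spn Module

universe u

section

variable {F : Type u} [Field F] (σ : F →+* F) {e : ℕ}

/-- The sesquilinear pairing `∑ c a * x a * σ (y (rev a))`. -/
def prS (c : Fin e → F) : (Fin e → F) →ₗ[F] (Fin e → F) →ₛₗ[σ] F :=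
  LinearMap.mk₂'ₛₗ (RingHom.id F) σ (fun x y => pr c x (fun a => σ (y a)))
    (by intro x x' y; rw [map_add]; rfl)
    (by intro k x y; rw [map_smul]; rfl)
    (by
      intro x y y'
      have h : (fun a => σ ((y + y') a)) = (fun a => σ (y a)) + (fun a => σ (y' a)) := by
        funext a; simp
      rw [h, map_add])
    (by
      intro k x y
      have h : (fun a => σ ((k • y) a)) = σ k • (fun a => σ (y a)) := by
        funext a; simp
      rw [h, map_smul])

theorem prS_apply (c : Fin e → F) (x y : Fin e → F) :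
    prS σ c x y = pr c x (fun a => σ (y a)) := rfl

end

/-- UN-UMODONE. -/
theorem uModOne : StUModOne.{u} := by
  intro F _ σ hinv hnt _ e he
  obtain ⟨a, ha⟩ := hnt
  obtain ⟨c0, hc0, hσc0⟩ : ∃ c0 : F, c0 ≠ 0 ∧ σ c0 = (-1) ^ (e - 1) * c0 := by
    rcases Nat.even_or_odd e with hev | hodd
    · refine ⟨a - σ a, sub_ne_zero.mpr (Ne.symm ha), ?_⟩
      have : Odd (e - 1) := by obtain ⟨k, hk⟩ := hev; exact ⟨k - 1, by omega⟩
      rw [this.neg_one_pow, map_sub, hinv]; ring
    · refine ⟨1, one_ne_zero, ?_⟩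
      have : Even (e - 1) := by obtain ⟨k, hk⟩ := hodd; exact ⟨k, by omega⟩
      rw [this.neg_one_pow, map_one, one_mul]
  obtain ⟨n, rfl⟩ : ∃ n, e = n + 1 := ⟨e - 1, by omega⟩
  have hn : n + 1 - 1 = n := by omega
  rw [hn] at hσc0
  let c : Fin (n + 1) → F := fun a => (-1) ^ a.val * c0
  have hcne : ∀ a, c a ≠ 0 := fun a => mul_ne_zero (pow_ne_zero _ (by simp)) hc0
  have hcrev : ∀ a : Fin (n + 1), σ (c a) = c (Fin.rev a) := by
    intro a
    simp only [c, map_mul, map_pow, map_neg, map_one, hσc0, Fin.val_rev]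
    have h1 : n + 1 - (a.val + 1) + a.val = n := by have := a.isLt; omega
    have h2 : ((-1 : F)) ^ (n + 1 - (a.val + 1)) * ((-1) ^ a.val * (-1) ^ a.val) =
        (-1) ^ (n + 1 - (a.val + 1)) := by
      rw [← mul_pow]; simp
    calc (-1 : F) ^ a.val * ((-1) ^ n * c0)
        = (-1) ^ a.val * ((-1) ^ (n + 1 - (a.val + 1) + a.val) * c0) := by rw [h1]
      _ = (-1) ^ (n + 1 - (a.val + 1)) * ((-1) ^ a.val * (-1) ^ a.val) * c0 := by
          rw [pow_add]; ring
      _ = (-1) ^ (n + 1 - (a.val + 1)) * c0 := by rw [h2]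
  refine ⟨Fin (n + 1) → F, inferInstance, inferInstance, inferInstance, prS σ c,
    sh F (n + 1), ?_, ?_, ?_, ?_, ?_⟩
  · -- hermitian
    intro x y
    rw [prS_apply, prS_apply, pr_apply, pr_apply, map_sum, ← Equiv.sum_comp Fin.revPerm]
    refine Finset.sum_congr rfl (fun a _ => ?_)
    simp only [Fin.revPerm_apply, Fin.rev_rev, map_mul, hinv, hcrev]
    ring
  · -- nondegenerate
    intro x hx
    apply pr_nondeg c hcne x
    intro y
    have h := hx (fun a => σ (y a))
    rw [prS_apply] at h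
    simpa [hinv] using h
  · -- skew-adjoint
    intro x y
    rw [prS_apply, prS_apply]
    have hcomm : (fun a => σ (sh F (n + 1) y a)) = sh F (n + 1) (fun a => σ (y a)) := by
      funext a
      rw [sh_apply, sh_apply]
      split_ifs <;> simp
    rw [hcomm, pr_sh c (-1) (fun i => ?_)]
    · ring
    · simp only [c, Fin.val_succ, Fin.val_castSucc, pow_succ]
      ring
  · simp
  · intro k
    rw [finrank_ker_sh_pow]
    simp

example : StUModOne.{u} := uModOne

end Cfsg.Agent.H64.Un
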