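import Mathlib
import Cfsg.Agent.H42.UnDefs
import Cfsg.Agent.H62.SpnKerAdd
import Cfsg.Agent.H64.UnUBlock

/-!
# S5954 piece UN-UTYPE: the Jordan type of a unipotent isometry of a hermitian space on an
invariant nondegenerate subspace, and the subspaces realizing its sub-types.
(Port of helper96's SPN-UTYPE.)
-/

set_option autoImplicit false

namespace Cfsg.Agent.H64.Un

open Cfsg.Agent.H45 Cfsg.Agent.H42.Spd Cfsg.Agent.H42.Un Module

universe u v

/-- UN-UTYPE. -/
theorem uUType (hB : StUUBlock.{u, v}) (hC : StUCompl.{u, v}) (hS : StUSum.{u, v}) :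
    StUUType.{u, v} := by
  classical
  intro F _ _ σ V _ _ _ B T hIso hnil
  have hnil' := hnil
  obtain ⟨k, hk⟩ := hnil'
  have key : ∀ n : ℕ, ∀ W : Submodule F V, Module.finrank F W = n → UNd B T W →
      ∃ μ : Multiset ℕ, (∀ a ∈ μ, 0 < a) ∧
        (∀ e : ℕ, Module.finrank F ↥(W ⊓ LinearMap.ker ((T - 1) ^ e)) =
          (μ.map (fun s => min e s)).sum) ∧
        ∀ ν : Multiset ℕ, ν ≤ μ →
          ∃ U : Submodule F V, U ≤ W ∧ UNd B T U ∧ Module.finrank F U = ν.sum := by
    intro n
    induction n using Nat.strong_induction_on with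
    | _ n ih =>
      intro W hn hW
      have hNdBot : UNd B T (⊥ : Submodule F V) :=
        ⟨(Module.End.mem_invtSubmodule T).2 bot_le, bot_inf_eq _⟩
      by_cases hWne : W = ⊥
      · subst hWne
        refine ⟨0, by simp, ?_, ?_⟩
        · intro e
          rw [bot_inf_eq, finrank_bot]
          simp
        · intro ν hν
          rw [Multiset.le_zero] at hν
          subst hν
          exact ⟨⊥, bot_le, hNdBot, by simp⟩
      obtain ⟨P, e, hPW, hNdP, he0, hPker⟩ := hB F σ V B T hIso hnil W hW hWne
      have hW'W : W ⊓ perp B P ≤ W := inf_le_left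
      have hW'P : W ⊓ perp B P ≤ perp B P := inf_le_right
      obtain ⟨hNdW', hsup, hdim⟩ := hC F σ V B T hIso P W hNdP hW hPW
      generalize W ⊓ perp B P = W' at hW'W hW'P hNdW' hsup hdim
      have hdisj : P ⊓ W' = ⊥ := by
        rw [eq_bot_iff, ← hNdP.2]
        exact inf_le_inf_left P hW'P
      have hinv : ∀ (X : Submodule F V), X ∈ T.invtSubmodule → ∀ j : ℕ,
          X ∈ ((T - 1) ^ j).invtSubmodule := by
        intro X hX j
        rw [Module.End.mem_invtSubmodule]
        exact fun w hw => pow_sub_one_mem' hX j w hw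
      have hker : ∀ j : ℕ, Module.finrank F ↥(W ⊓ LinearMap.ker ((T - 1) ^ j)) =
          Module.finrank F ↥(P ⊓ LinearMap.ker ((T - 1) ^ j)) +
            Module.finrank F ↥(W' ⊓ LinearMap.ker ((T - 1) ^ j)) := by
        intro j
        have h := Cfsg.Agent.H62.Spn.kerAdd F V ((T - 1) ^ j) P W' (hinv P hNdP.1 j)
          (hinv W' hNdW'.1 j) hdisj
        rw [hsup] at h
        exact h
      have hPtop : P ⊓ LinearMap.ker ((T - 1) ^ (max k e)) = P := by
        rw [pow_eq_zero_of_le (le_max_left k e) hk, LinearMap.ker_zero, inf_top_eq]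
      have hPfull : Module.finrank F ↥(P ⊓ LinearMap.ker ((T - 1) ^ (max k e))) =
          Module.finrank F P := congrArg (fun X : Submodule F V => Module.finrank F X) hPtop
      have hminE : min (max k e) e = e := Nat.min_eq_right (le_max_right k e)
      have hadd : ∀ U' : Submodule F V, U' ≤ W' → UNd B T U' →
          P ⊔ U' ≤ W ∧ UNd B T (P ⊔ U') ∧
            Module.finrank F ↥(P ⊔ U') = Module.finrank F P + Module.finrank F U' := by
        intro U' hU' hNdU'
        obtain ⟨h1, h2'⟩ := hS F σ V B T hIso P U' hNdP hNdU' (hU'.trans hW'P)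
        exact ⟨sup_le hPW (hU'.trans hW'W), h1, h2'⟩
      have hPdim : Module.finrank F P = e := by
        rw [← hPfull, hPker, hminE]
      have hlt : Module.finrank F W' < n := by omega
      obtain ⟨μ', hpos', hker', hsel'⟩ := ih (Module.finrank F W') hlt W' rfl hNdW'
      refine ⟨e ::ₘ μ', ?_, ?_, ?_⟩
      · intro a ha
        rw [Multiset.mem_cons] at ha
        rcases ha with rfl | ha
        · exact he0
        · exact hpos' a ha
      · intro j
        rw [Multiset.map_cons, Multiset.sum_cons, ← hker' j, hker j, hPker j]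
      · intro ν hν
        by_cases hmem : e ∈ ν
        · have hν' : ν.erase e ≤ μ' := Multiset.erase_le_iff_le_cons.2 hν
          obtain ⟨U', hU', hNdU', hdU'⟩ := hsel' (ν.erase e) hν'
          obtain ⟨h1, h2', h3⟩ := hadd U' hU' hNdU'
          refine ⟨P ⊔ U', h1, h2', ?_⟩
          rw [h3, hdU', hPdim, ← Multiset.sum_cons, Multiset.cons_erase hmem]
        · have hν' : ν ≤ μ' := by
            have := Multiset.erase_le_iff_le_cons.2 hν
            rwa [Multiset.erase_of_notMem hmem] at this
          obtain ⟨U, hU, hNdU, hdU⟩ := hsel' ν hν'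
          exact ⟨U, hU.trans hW'W, hNdU, hdU⟩
  intro W hW
  exact key _ W rfl hW

example (hB : StUUBlock.{u, v}) (hC : StUCompl.{u, v}) (hS : StUSum.{u, v}) :
    StUUType.{u, v} := uUType hB hC hS

end Cfsg.Agent.H64.Un
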