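import Mathlib
import Cfsg.Agent.H74.W2PDefs

set_option autoImplicit false

namespace Cfsg.Agent.H64.W2P

open Cfsg.Agent.H74.W2P Equiv MulAction

/-- a level set of `B y + C y²` has at most two elements when `(B, C) ≠ 0`. -/
theorem level_le_two {F : Type*} [Field F] (B C v : F) (h : B ≠ 0 ∨ C ≠ 0) (S : Finset F)
    (hS : ∀ y ∈ S, B * y + C * y ^ 2 = v) : S.card ≤ 2 := by
  by_contra hcon
  push Not at hcon
  obtain ⟨y1, h1, y2, h2, y3, h3, h12, h13, h23⟩ := Finset.two_lt_card.mp hcon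
  have e1 := hS y1 h1
  have e2 := hS y2 h2
  have e3 := hS y3 h3
  have f12 : B + C * (y1 + y2) = 0 := by
    have : (y1 - y2) * (B + C * (y1 + y2)) = 0 := by linear_combination e1 - e2
    rcases mul_eq_zero.mp this with h | h
    · exact absurd (sub_eq_zero.mp h) h12
    · exact h
  have f13 : B + C * (y1 + y3) = 0 := by
    have : (y1 - y3) * (B + C * (y1 + y3)) = 0 := by linear_combination e1 - e3
    rcases mul_eq_zero.mp this with h | h
    · exact absurd (sub_eq_zero.mp h) h13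
    · exact h
  have hC : C = 0 := by
    have : C * (y2 - y3) = 0 := by linear_combination f12 - f13
    rcases mul_eq_zero.mp this with h | h
    · exact h
    · exact absurd (sub_eq_zero.mp h) h23
  have hB : B = 0 := by
    rw [hC] at f12
    simpa using f12
  rcases h with h | h
  · exact h hB
  · exact h hC

section
open Classical

variable {p : ℕ} [Fact p.Prime]

/-- nonzero points of a fibre -/
noncomputable def Snz {Q : Type*} (c : ZMod p → Q) (q : Q) : Finset (ZMod p) :=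
  Finset.univ.filter (fun z : ZMod p => z ≠ 0 ∧ c z = q)

/-- the `e₀`-th powers of the nonzero points of a fibre -/
noncomputable def Yset {Q : Type*} (e₀ : ℕ) (c : ZMod p → Q) (q : Q) : Finset (ZMod p) :=
  (Snz c q).image (fun z => z ^ e₀)

theorem exists_pow_mul {a : ZMod p} {e₀ : ℕ} (he : 0 < e₀) (ha : orderOf a = e₀) {z z' : ZMod p}
    (hz : z ≠ 0) (h : z' ^ e₀ = z ^ e₀) : ∃ i < e₀, z' = a ^ i * z := by
  have : NeZero e₀ := ⟨by omega⟩
  have hprim : IsPrimitiveRoot a e₀ := ha ▸ IsPrimitiveRoot.orderOf a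
  have hu : (z' / z) ^ e₀ = 1 := by rw [div_pow, h, div_self (pow_ne_zero _ hz)]
  obtain ⟨i, hi, hai⟩ := hprim.eq_pow_of_pow_eq_one hu
  exact ⟨i, hi, by rw [hai, div_mul_cancel₀ _ hz]⟩

theorem c_pow_mul {Q : Type*} {c : ZMod p → Q} {a : ZMod p} (hc : ∀ z, c (a * z) = c z) (i : ℕ)
    (z : ZMod p) : c (a ^ i * z) = c z := by
  induction i with
  | zero => simp
  | succ i ih => rw [pow_succ', mul_assoc, hc, ih]

theorem pow_fiber_card {a : ZMod p} {e₀ : ℕ} (he : 0 < e₀) (ha : orderOf a = e₀) {z₀ : ZMod p}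
    (hz₀ : z₀ ≠ 0) :
    (Finset.univ.filter (fun z : ZMod p => z ^ e₀ = z₀ ^ e₀)).card = e₀ := by
  have hae : a ^ e₀ = 1 := by rw [← ha]; exact pow_orderOf_eq_one a
  have hset : Finset.univ.filter (fun z : ZMod p => z ^ e₀ = z₀ ^ e₀)
      = (Finset.range e₀).image (fun i => a ^ i * z₀) := by
    ext z
    simp only [Finset.mem_filter, Finset.mem_univ, true_and, Finset.mem_image, Finset.mem_range]
    constructor
    · intro h
      obtain ⟨i, hi, hzi⟩ := exists_pow_mul he ha hz₀ h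
      exact ⟨i, hi, hzi.symm⟩
    · rintro ⟨i, hi, rfl⟩
      rw [mul_pow, ← pow_mul, mul_comm i e₀, pow_mul, hae, one_pow, one_mul]
  rw [hset, Finset.card_image_of_injOn, Finset.card_range]
  intro i hi j hj hij
  simp only [Finset.coe_range, Set.mem_Iio] at hi hj
  have h2 : a ^ i = a ^ j := mul_right_cancel₀ hz₀ hij
  exact pow_injOn_Iio_orderOf (by rw [Set.mem_Iio, ha]; exact hi) (by rw [Set.mem_Iio, ha]; exact hj) h2

theorem card_saturated {a : ZMod p} {e₀ : ℕ} (he : 0 < e₀) (ha : orderOf a = e₀)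
    (S : Finset (ZMod p)) (h0 : ∀ z ∈ S, z ≠ 0)
    (hsat : ∀ z ∈ S, ∀ z' : ZMod p, z' ^ e₀ = z ^ e₀ → z' ∈ S) :
    S.card = e₀ * (S.image (fun z => z ^ e₀)).card := by
  rw [Finset.card_eq_sum_card_image (fun z => z ^ e₀) S]
  rw [Finset.sum_const_nat (m := e₀)]
  · ring
  · intro y hy
    obtain ⟨z₀, hz₀, rfl⟩ := Finset.mem_image.mp hy
    have hf := pow_fiber_card he ha (h0 z₀ hz₀)
    have hset : S.filter (fun z => z ^ e₀ = z₀ ^ e₀)
        = Finset.univ.filter (fun z : ZMod p => z ^ e₀ = z₀ ^ e₀) := by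
      ext z
      simp only [Finset.mem_filter, Finset.mem_univ, true_and]
      exact ⟨fun h => h.2, fun h => ⟨hsat z₀ hz₀ z h, h⟩⟩
    rw [hset, hf]

theorem cnt_eq {Q : Type*} {a : ZMod p} {e₀ : ℕ} (he : 0 < e₀) (ha : orderOf a = e₀)
    (c : ZMod p → Q) (hc : ∀ z, c (a * z) = c z) (q : Q) :
    cnt c q = e₀ * (Yset e₀ c q).card + (if c 0 = q then 1 else 0) := by
  have hS : (Snz c q).card = e₀ * (Yset e₀ c q).card := by
    apply card_saturated he ha
    · intro z hz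
      exact (Finset.mem_filter.mp hz).2.1
    · intro z hz z' hzz
      have hz' := (Finset.mem_filter.mp hz).2
      have hz'0 : z' ≠ 0 := by
        intro h0
        rw [h0, zero_pow he.ne'] at hzz
        exact hz'.1 ((pow_eq_zero_iff he.ne').mp hzz.symm)
      obtain ⟨i, -, rfl⟩ := exists_pow_mul he ha hz'.1 hzz
      refine Finset.mem_filter.mpr ⟨Finset.mem_univ _, hz'0, ?_⟩
      rw [c_pow_mul hc, hz'.2]
  unfold cnt
  by_cases h0 : c 0 = q
  · rw [if_pos h0, ← hS]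
    have hins : Finset.univ.filter (fun z : ZMod p => c z = q) = insert 0 (Snz c q) := by
      ext z
      simp only [Snz, Finset.mem_filter, Finset.mem_univ, true_and, Finset.mem_insert]
      constructor
      · intro h
        by_cases hz : z = 0
        · exact Or.inl hz
        · exact Or.inr ⟨hz, h⟩
      · rintro (rfl | h)
        · exact h0
        · exact h.2
    rw [hins, Finset.card_insert_of_notMem]
    intro h
    exact (Finset.mem_filter.mp h).2.1 rfl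
  · rw [if_neg h0, add_zero, ← hS]
    congr 1
    ext z
    simp only [Snz, Finset.mem_filter, Finset.mem_univ, true_and]
    constructor
    · intro h
      refine ⟨?_, h⟩
      rintro rfl
      exact h0 h
    · exact fun h => h.2

theorem Yset_card_le {Q : Type*} {e₀ : ℕ} (he : 0 < e₀) (c : ZMod p → Q) (val : Q → ZMod p)
    (A B C : ZMod p) (hv : ∀ z, val (c z) = A + B * z ^ e₀ + C * z ^ (2 * e₀))
    (hBC : B ≠ 0 ∨ C ≠ 0) (q : Q) :
    (Yset e₀ c q).card ≤ 2 ∧ (c 0 = q → (Yset e₀ c q).card ≤ 1) := by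
  have hlev : ∀ y ∈ Yset e₀ c q, B * y + C * y ^ 2 = val q - A := by
    intro y hy
    obtain ⟨z, hz, rfl⟩ := Finset.mem_image.mp hy
    have hz' := (Finset.mem_filter.mp hz).2
    have h1 := hv z
    rw [hz'.2] at h1
    rw [h1, ← pow_mul, mul_comm e₀ 2]
    ring
  refine ⟨level_le_two B C _ hBC _ hlev, fun h0 => ?_⟩
  have h0Y : (0 : ZMod p) ∉ Yset e₀ c q := by
    intro h
    obtain ⟨z, hz, hz0⟩ := Finset.mem_image.mp h
    exact (Finset.mem_filter.mp hz).2.1 ((pow_eq_zero_iff he.ne').mp hz0)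
  have h2 := level_le_two B C (val q - A) hBC (insert 0 (Yset e₀ c q)) (by
    intro y hy
    rcases Finset.mem_insert.mp hy with rfl | hy
    · have h1 := hv 0
      rw [h0, zero_pow he.ne', zero_pow (by omega)] at h1
      rw [h1]
      ring
    · exact hlev y hy)
  rw [Finset.card_insert_of_notMem h0Y] at h2
  omega

theorem sum_cnt {Q : Type*} [Fintype Q] (c : ZMod p → Q) : ∑ q, cnt c q = p := by
  have h := Finset.card_eq_sum_card_fiberwise (f := c) (s := Finset.univ) (t := Finset.univ)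
    (fun z _ => Finset.mem_univ _)
  rw [Finset.card_univ, ZMod.card] at h
  exact h.symm

theorem exists_of_cnt_pos {Q : Type*} {c : ZMod p → Q} {q : Q} (h : 1 ≤ cnt c q) :
    ∃ z, c z = q := by
  unfold cnt at h
  obtain ⟨z, hz⟩ := Finset.card_pos.mp h
  exact ⟨z, (Finset.mem_filter.mp hz).2⟩

theorem arith_core (e kb mb m : ℕ) (he : 2 ≤ e) (hkb : kb = 1 ∨ kb = 2) (hmb : mb = 0 ∨ mb = 1)
    (hm1 : kb ≤ m + mb) (hm2 : m ≤ kb + mb)
    (h : (((e * kb : ℕ) : ℚ) - ((e * mb + 1 : ℕ) : ℚ)) ^ 2 /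
        (((e * kb : ℕ) : ℚ) + ((e * mb + 1 : ℕ) : ℚ)) + (m : ℚ) * ((e : ℚ) / 3) = 1) :
    e = 2 ∧ kb = 1 ∧ mb = 0 ∧ m = 1 := by
  have hD : (((e * kb : ℕ) : ℚ) + ((e * mb + 1 : ℕ) : ℚ)) ≠ 0 := by
    have h1 : (0 : ℚ) ≤ ((e * kb : ℕ) : ℚ) := Nat.cast_nonneg _
    have h2 : (1 : ℚ) ≤ ((e * mb + 1 : ℕ) : ℚ) := by exact_mod_cast Nat.le_add_left 1 (e * mb)
    linarith
  have hq : (3 * ((e : ℚ) * kb - (e * mb + 1)) ^ 2 + m * e * (e * kb + e * mb + 1) : ℚ)
      = 3 * (e * kb + e * mb + 1) := by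
    have h1 : (((e * kb : ℕ) : ℚ) - ((e * mb + 1 : ℕ) : ℚ)) ^ 2 /
        (((e * kb : ℕ) : ℚ) + ((e * mb + 1 : ℕ) : ℚ)) = 1 - (m : ℚ) * ((e : ℚ) / 3) := by
      linarith
    rw [div_eq_iff hD] at h1
    push_cast at h1
    linear_combination 3 * h1
  have hz : (3 * ((e : ℤ) * kb - (e * mb + 1)) ^ 2 + m * e * (e * kb + e * mb + 1) : ℤ)
      = 3 * (e * kb + e * mb + 1) := by
    exact_mod_cast hq
  have hfac : (e : ℤ) * (3 * e * ((kb : ℤ) - mb) ^ 2 - 6 * ((kb : ℤ) - mb)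
      + m * (e * kb + e * mb + 1) - 3 * (kb + mb)) = 0 := by
    linear_combination hz
  have hL : 3 * (e : ℤ) * ((kb : ℤ) - mb) ^ 2 - 6 * ((kb : ℤ) - mb)
      + m * (e * kb + e * mb + 1) - 3 * (kb + mb) = 0 := by
    rcases mul_eq_zero.mp hfac with h | h
    · omega
    · exact h
  rcases hkb with rfl | rfl <;> rcases hmb with rfl | rfl
  · have hm : m = 1 := by omega
    subst hm
    refine ⟨?_, rfl, rfl, rfl⟩
    push_cast at hL
    ring_nf at hL
    omega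
  · exfalso
    have hm : m ≤ 2 := by omega
    interval_cases m <;> push_cast at hL <;> ring_nf at hL <;> omega
  · exfalso
    have hm : m = 2 := by omega
    subst hm
    push_cast at hL
    ring_nf at hL
    omega
  · exfalso
    have hm : m ≤ 3 := by omega
    have hm' : 1 ≤ m := by omega
    interval_cases m <;> push_cast at hL <;> ring_nf at hL <;> omega

theorem core_comb {Q : Type*} [DecidableEq Q] (Q'' : Finset Q) (κ μ : Q → ℕ) (e t kb mb : ℕ)
    (he : 2 ≤ e) (hcard : Q''.card = t)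
    (hκ : ∀ q ∈ Q'', κ q = 1 ∨ κ q = 2) (hμ : ∀ q ∈ Q'', μ q = 1 ∨ μ q = 2)
    (hkb : kb = 1 ∨ kb = 2) (hmb : mb = 0 ∨ mb = 1)
    (hsκ : kb + ∑ q ∈ Q'', κ q = 2 * t) (hsμ : mb + ∑ q ∈ Q'', μ q = 2 * t)
    (h : (((e * kb : ℕ) : ℚ) - ((e * mb + 1 : ℕ) : ℚ)) ^ 2 /
        (((e * kb : ℕ) : ℚ) + ((e * mb + 1 : ℕ) : ℚ)) +
        ∑ q ∈ Q'', (((e * κ q : ℕ) : ℚ) - ((e * μ q : ℕ) : ℚ)) ^ 2 /
          (((e * κ q : ℕ) : ℚ) + ((e * μ q : ℕ) : ℚ)) = 1) :
    e = 2 ∧ kb = 1 ∧ mb = 0 ∧ ∃ q₁ ∈ Q'', κ q₁ = 1 ∧ μ q₁ = 2 ∧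
      ∀ q ∈ Q'', q ≠ q₁ → κ q = 2 ∧ μ q = 2 := by
  have heq : (e : ℚ) ≠ 0 := by exact_mod_cast (by omega : e ≠ 0)
  have hn1 : (Q''.filter (fun q => κ q = 1)).card + ∑ q ∈ Q'', κ q = 2 * Q''.card := by
    rw [Finset.card_filter, ← Finset.sum_add_distrib, Finset.card_eq_sum_ones, Finset.mul_sum]
    apply Finset.sum_congr rfl
    intro q hq
    rcases hκ q hq with h | h <;> simp [h]
  have hn2 : (Q''.filter (fun q => μ q = 1)).card + ∑ q ∈ Q'', μ q = 2 * Q''.card := by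
    rw [Finset.card_filter, ← Finset.sum_add_distrib, Finset.card_eq_sum_ones, Finset.mul_sum]
    apply Finset.sum_congr rfl
    intro q hq
    rcases hμ q hq with h | h <;> simp [h]
  have hm2 : (Q''.filter (fun q => κ q ≠ μ q)).card ≤
      (Q''.filter (fun q => κ q = 1)).card + (Q''.filter (fun q => μ q = 1)).card := by
    refine le_trans (Finset.card_le_card ?_) (Finset.card_union_le _ _)
    intro q hq
    simp only [Finset.mem_filter, Finset.mem_union] at hq ⊢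
    rcases hκ q hq.1 with h1 | h1 <;> rcases hμ q hq.1 with h2 | h2
    · exact Or.inl ⟨hq.1, h1⟩
    · exact Or.inl ⟨hq.1, h1⟩
    · exact Or.inr ⟨hq.1, h2⟩
    · exact absurd (h1.trans h2.symm) hq.2
  have hm1 : (Q''.filter (fun q => κ q = 1)).card ≤
      (Q''.filter (fun q => κ q ≠ μ q)).card + (Q''.filter (fun q => μ q = 1)).card := by
    refine le_trans (Finset.card_le_card ?_) (Finset.card_union_le _ _)
    intro q hq
    simp only [Finset.mem_filter, Finset.mem_union] at hq ⊢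
    by_cases h2 : μ q = 1
    · exact Or.inr ⟨hq.1, h2⟩
    · exact Or.inl ⟨hq.1, by rw [hq.2]; exact fun h => h2 h.symm⟩
  have hsum : ∑ q ∈ Q'', (((e * κ q : ℕ) : ℚ) - ((e * μ q : ℕ) : ℚ)) ^ 2 /
          (((e * κ q : ℕ) : ℚ) + ((e * μ q : ℕ) : ℚ))
      = ((Q''.filter (fun q => κ q ≠ μ q)).card : ℚ) * ((e : ℚ) / 3) := by
    rw [Finset.card_filter, Nat.cast_sum, Finset.sum_mul]
    apply Finset.sum_congr rfl
    intro q hq
    have hk := hκ q hq
    have hm := hμ q hq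
    by_cases hne : κ q = μ q
    · rw [if_neg (not_not.mpr hne), hne]
      simp
    · rw [if_pos hne]
      have hcases : (κ q = 1 ∧ μ q = 2) ∨ (κ q = 2 ∧ μ q = 1) := by omega
      rcases hcases with ⟨h1, h2⟩ | ⟨h1, h2⟩
      · rw [h1, h2]
        have h3 : ((e * 1 : ℕ) : ℚ) + ((e * 2 : ℕ) : ℚ) ≠ 0 := by
          push_cast
          intro h
          apply heq
          linarith
        rw [div_eq_iff h3]
        push_cast
        ring
      · rw [h1, h2]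
        have h3 : ((e * 2 : ℕ) : ℚ) + ((e * 1 : ℕ) : ℚ) ≠ 0 := by
          push_cast
          intro h
          apply heq
          linarith
        rw [div_eq_iff h3]
        push_cast
        ring
  rw [hsum] at h
  have hkb' : (Q''.filter (fun q => κ q = 1)).card = kb := by omega
  have hmb' : (Q''.filter (fun q => μ q = 1)).card = mb := by omega
  rw [hkb', hmb'] at hm1 hm2
  obtain ⟨he2, hkb1, hmb0, hm⟩ := arith_core e kb mb _ he hkb hmb hm1 hm2 h
  refine ⟨he2, hkb1, hmb0, ?_⟩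
  rw [hkb1] at hkb'
  rw [hmb0] at hmb'
  obtain ⟨q₁, hq₁⟩ := Finset.card_eq_one.mp hkb'
  have hq₁mem : q₁ ∈ Q''.filter (fun q => κ q = 1) := by
    rw [hq₁]
    exact Finset.mem_singleton_self _
  have hμ2 : ∀ q ∈ Q'', μ q = 2 := by
    intro q hq
    rcases hμ q hq with h | h
    · exfalso
      have hmem : q ∈ Q''.filter (fun q => μ q = 1) := Finset.mem_filter.mpr ⟨hq, h⟩
      rw [Finset.card_eq_zero.mp hmb'] at hmem
      exact absurd hmem (Finset.notMem_empty _)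
    · exact h
  refine ⟨q₁, (Finset.mem_filter.mp hq₁mem).1, (Finset.mem_filter.mp hq₁mem).2,
    hμ2 q₁ (Finset.mem_filter.mp hq₁mem).1, ?_⟩
  intro q hq hne
  refine ⟨?_, hμ2 q hq⟩
  rcases hκ q hq with h | h
  · exfalso
    have hmem : q ∈ Q''.filter (fun q => κ q = 1) := Finset.mem_filter.mpr ⟨hq, h⟩
    rw [hq₁] at hmem
    exact hne (Finset.mem_singleton.mp hmem)
  · exact h

theorem ara1 {p : ℕ} [Fact p.Prime] {Q : Type*} [Fintype Q] (t e₀ : ℕ) (ht : 2 ≤ t)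
    (he₀ : 2 ≤ e₀) (hpe : p - 1 = 2 * t * e₀) (hQ : Fintype.card Q = t + 2)
    (c1 c2 : ZMod p → Q) (q₀ : Q) (h10 : ∀ z, c1 z = q₀ ↔ z = 0) (h20 : ∀ z, c2 z ≠ q₀)
    (hsurj : ∀ q, ∃ z, c1 z = q ∨ c2 z = q)
    (a : ZMod p) (ha : orderOf a = e₀) (h1a : ∀ z, c1 (a * z) = c1 z)
    (h2a : ∀ z, c2 (a * z) = c2 z)
    (hn : ∀ q, q ≠ q₀ → 2 ≤ cnt c1 q + cnt c2 q)
    (hone : open Classical in ∑ q ∈ Finset.univ.erase q₀,
      ((cnt c1 q : ℚ) - cnt c2 q) ^ 2 / ((cnt c1 q : ℚ) + cnt c2 q) = 1)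
    (val : Q → ZMod p) (hval : ∃ q, val q ≠ 0) (B C A' B' C' : ZMod p)
    (hv1 : ∀ z, val (c1 z) = B * z ^ e₀ + C * z ^ (2 * e₀))
    (hv2 : ∀ z, val (c2 z) = A' + B' * z ^ e₀ + C' * z ^ (2 * e₀)) :
    e₀ = 2 ∧ ∃ q₁ : Q, q₁ ≠ q₀ ∧ q₁ ≠ c2 0 ∧ cnt c1 (c2 0) = 2 ∧ cnt c2 (c2 0) = 1 ∧
      cnt c1 q₁ = 2 ∧ cnt c2 q₁ = 4 ∧
      ∀ q, q ≠ q₀ → q ≠ c2 0 → q ≠ q₁ → cnt c1 q = 4 ∧ cnt c2 q = 4 := by
  have he : 0 < e₀ := by omega
  have hp : p.Prime := Fact.out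
  have hp2 := hp.two_le
  obtain ⟨Q', hQ', hone'⟩ : ∃ Q' : Finset Q, (∀ q, q ∈ Q' ↔ q ≠ q₀) ∧
      ∑ q ∈ Q', ((cnt c1 q : ℚ) - cnt c2 q) ^ 2 / ((cnt c1 q : ℚ) + cnt c2 q) = 1 :=
    ⟨_, fun q => by simp, hone⟩
  have hQ'eq : Q' = Finset.univ.erase q₀ := by
    ext q
    simp [hQ']
  -- positivity of the counts
  have hpos : ∀ q, q ≠ q₀ → 1 ≤ cnt c1 q ∧ 1 ≤ cnt c2 q := by
    intro q hq
    have hle : ((cnt c1 q : ℚ) - cnt c2 q) ^ 2 / ((cnt c1 q : ℚ) + cnt c2 q) ≤ 1 := by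
      rw [← hone']
      exact Finset.single_le_sum
        (f := fun q => ((cnt c1 q : ℚ) - cnt c2 q) ^ 2 / ((cnt c1 q : ℚ) + cnt c2 q))
        (fun i _ => div_nonneg (sq_nonneg _) (by positivity)) ((hQ' q).mpr hq)
    have h2 := hn q hq
    by_contra hcon
    have h0 : cnt c1 q = 0 ∨ cnt c2 q = 0 := by omega
    rcases h0 with h0 | h0
    · rw [h0] at hle h2
      have hl : (2 : ℚ) ≤ cnt c2 q := by exact_mod_cast (by omega : 2 ≤ cnt c2 q)
      have hval' : (((0 : ℕ) : ℚ) - cnt c2 q) ^ 2 / (((0 : ℕ) : ℚ) + cnt c2 q) = cnt c2 q := by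
        rw [Nat.cast_zero, zero_sub, zero_add, neg_sq, sq, mul_div_assoc,
          div_self (by linarith), mul_one]
      rw [hval'] at hle
      linarith
    · rw [h0] at hle h2
      have hl : (2 : ℚ) ≤ cnt c1 q := by exact_mod_cast (by omega : 2 ≤ cnt c1 q)
      have hval' : ((cnt c1 q : ℚ) - ((0 : ℕ) : ℚ)) ^ 2 / ((cnt c1 q : ℚ) + ((0 : ℕ) : ℚ))
          = cnt c1 q := by
        rw [Nat.cast_zero, sub_zero, add_zero, sq, mul_div_assoc,
          div_self (by linarith), mul_one]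
      rw [hval'] at hle
      linarith
  have hBC : B ≠ 0 ∨ C ≠ 0 := by
    by_contra hcon
    push Not at hcon
    obtain ⟨q, hq⟩ := hval
    apply hq
    by_cases hq0 : q = q₀
    · have h1 := hv1 0
      rw [(h10 0).mpr rfl] at h1
      rw [hq0, h1, hcon.1, hcon.2]
      ring
    · obtain ⟨z, hz⟩ := exists_of_cnt_pos (hpos q hq0).1
      rw [← hz, hv1, hcon.1, hcon.2]
      ring
  have hBC' : B' ≠ 0 ∨ C' ≠ 0 := by
    by_contra hcon
    push Not at hcon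
    have hvA : ∀ q, q ≠ q₀ → val q = A' := by
      intro q hq
      obtain ⟨z, hz⟩ := exists_of_cnt_pos (hpos q hq).2
      rw [← hz, hv2, hcon.1, hcon.2]
      ring
    have hScard : (Finset.univ.filter (fun z : ZMod p => z ≠ 0)).card = p - 1 := by
      rw [Finset.filter_ne', Finset.card_erase_of_mem (Finset.mem_univ _), Finset.card_univ,
        ZMod.card]
    have hsat := card_saturated he ha (Finset.univ.filter (fun z : ZMod p => z ≠ 0))
      (fun z hz => (Finset.mem_filter.mp hz).2) (by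
        intro z hz z' hzz
        refine Finset.mem_filter.mpr ⟨Finset.mem_univ _, ?_⟩
        intro h0
        rw [h0, zero_pow he.ne'] at hzz
        exact (Finset.mem_filter.mp hz).2 ((pow_eq_zero_iff he.ne').mp hzz.symm))
    have himg : ((Finset.univ.filter (fun z : ZMod p => z ≠ 0)).image
        (fun z => z ^ e₀)).card ≤ 2 := by
      apply level_le_two B C A' hBC
      intro y hy
      obtain ⟨z, hz, rfl⟩ := Finset.mem_image.mp hy
      have hz0 := (Finset.mem_filter.mp hz).2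
      have h1 := hv1 z
      rw [hvA _ (fun h => hz0 ((h10 z).mp h))] at h1
      rw [h1, ← pow_mul, mul_comm e₀ 2]
    rw [hScard, hpe] at hsat
    have h2t : 2 * t = ((Finset.univ.filter (fun z : ZMod p => z ≠ 0)).image
        (fun z => z ^ e₀)).card := by
      apply Nat.eq_of_mul_eq_mul_left he
      rw [← hsat]
      ring
    omega
  have hc10 : c1 0 = q₀ := (h10 0).mpr rfl
  have hβ : c2 0 ≠ q₀ := h20 0
  have hk : ∀ q, q ≠ q₀ → cnt c1 q = e₀ * (Yset e₀ c1 q).card := by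
    intro q hq
    rw [cnt_eq he ha c1 h1a q, if_neg (by rw [hc10]; exact fun h => hq h.symm), add_zero]
  have hl : ∀ q, cnt c2 q = e₀ * (Yset e₀ c2 q).card + if c2 0 = q then 1 else 0 :=
    fun q => cnt_eq he ha c2 h2a q
  have hκle : ∀ q, (Yset e₀ c1 q).card ≤ 2 := fun q =>
    (Yset_card_le he c1 val 0 B C (by intro z; rw [hv1, zero_add]) hBC q).1
  have hμle : ∀ q, (Yset e₀ c2 q).card ≤ 2 := fun q =>
    (Yset_card_le he c2 val A' B' C' hv2 hBC' q).1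
  have hμβ : (Yset e₀ c2 (c2 0)).card ≤ 1 :=
    (Yset_card_le he c2 val A' B' C' hv2 hBC' (c2 0)).2 rfl
  have hκpos : ∀ q, q ≠ q₀ → 1 ≤ (Yset e₀ c1 q).card := by
    intro q hq
    have h1 := (hpos q hq).1
    rw [hk q hq] at h1
    by_contra hcon
    have h0 : (Yset e₀ c1 q).card = 0 := by omega
    rw [h0, Nat.mul_zero] at h1
    omega
  have hμpos : ∀ q, q ≠ q₀ → q ≠ c2 0 → 1 ≤ (Yset e₀ c2 q).card := by
    intro q hq hqβ
    have h1 := (hpos q hq).2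
    rw [hl q, if_neg (fun h => hqβ h.symm), add_zero] at h1
    by_contra hcon
    have h0 : (Yset e₀ c2 q).card = 0 := by omega
    rw [h0, Nat.mul_zero] at h1
    omega
  have hcnt1q0 : cnt c1 q₀ = 1 := by
    unfold cnt
    rw [Finset.card_eq_one]
    refine ⟨0, ?_⟩
    ext z
    simp only [Finset.mem_filter, Finset.mem_univ, true_and, Finset.mem_singleton]
    exact h10 z
  have hcnt2q0 : cnt c2 q₀ = 0 := by
    unfold cnt
    rw [Finset.card_eq_zero, Finset.filter_eq_empty_iff]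
    intro z _
    exact h20 z
  have hs1 : ∑ q ∈ Q', cnt c1 q = 2 * t * e₀ := by
    have h := sum_cnt c1
    rw [← Finset.add_sum_erase Finset.univ _ (Finset.mem_univ q₀), hcnt1q0, ← hQ'eq] at h
    omega
  have hs2 : ∑ q ∈ Q', cnt c2 q = 2 * t * e₀ + 1 := by
    have h := sum_cnt c2
    rw [← Finset.add_sum_erase Finset.univ _ (Finset.mem_univ q₀), hcnt2q0, ← hQ'eq] at h
    omega
  have hβQ' : c2 0 ∈ Q' := (hQ' _).mpr hβ
  have hQ'card : Q'.card = t + 1 := by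
    rw [hQ'eq, Finset.card_erase_of_mem (Finset.mem_univ _), Finset.card_univ, hQ]
    rfl
  have hQ''card : (Q'.erase (c2 0)).card = t := by
    rw [Finset.card_erase_of_mem hβQ', hQ'card]
    rfl
  have hmemQ'' : ∀ q, q ∈ Q'.erase (c2 0) ↔ q ≠ c2 0 ∧ q ≠ q₀ := by
    intro q
    rw [Finset.mem_erase, hQ']
  have hsκ : (Yset e₀ c1 (c2 0)).card + ∑ q ∈ Q'.erase (c2 0), (Yset e₀ c1 q).card = 2 * t := by
    apply Nat.eq_of_mul_eq_mul_left he
    have e1 : ∑ q ∈ Q'.erase (c2 0), e₀ * (Yset e₀ c1 q).card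
        = ∑ q ∈ Q'.erase (c2 0), cnt c1 q :=
      Finset.sum_congr rfl (fun q hq => (hk q ((hmemQ'' q).mp hq).2).symm)
    rw [mul_add, Finset.mul_sum, ← hk _ hβ, e1, Finset.add_sum_erase Q' _ hβQ', hs1]
    ring
  have hsμ : (Yset e₀ c2 (c2 0)).card + ∑ q ∈ Q'.erase (c2 0), (Yset e₀ c2 q).card = 2 * t := by
    apply Nat.eq_of_mul_eq_mul_left he
    have e1 : ∑ q ∈ Q'.erase (c2 0), e₀ * (Yset e₀ c2 q).card
        = ∑ q ∈ Q'.erase (c2 0), cnt c2 q :=
      Finset.sum_congr rfl (fun q hq => by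
        rw [hl q, if_neg (fun h => ((hmemQ'' q).mp hq).1 h.symm), add_zero])
    have e2 : cnt c2 (c2 0) = e₀ * (Yset e₀ c2 (c2 0)).card + 1 := by rw [hl (c2 0), if_pos rfl]
    have e3 := Finset.add_sum_erase Q' (cnt c2) hβQ'
    have e4 : e₀ * (2 * t) = 2 * t * e₀ := by ring
    rw [mul_add, Finset.mul_sum, e1]
    omega
  have hsplit := Finset.add_sum_erase Q'
    (fun q => ((cnt c1 q : ℚ) - cnt c2 q) ^ 2 / ((cnt c1 q : ℚ) + cnt c2 q)) hβQ'
  rw [hone'] at hsplit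
  have hcore := core_comb (Q'.erase (c2 0)) (fun q => (Yset e₀ c1 q).card)
    (fun q => (Yset e₀ c2 q).card) e₀ t (Yset e₀ c1 (c2 0)).card (Yset e₀ c2 (c2 0)).card
    he₀ hQ''card
    (fun q hq => by
      have h1 := hκpos q ((hmemQ'' q).mp hq).2
      have h2 := hκle q
      show (Yset e₀ c1 q).card = 1 ∨ (Yset e₀ c1 q).card = 2
      omega)
    (fun q hq => by
      have h1 := hμpos q ((hmemQ'' q).mp hq).2 ((hmemQ'' q).mp hq).1
      have h2 := hμle q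
      show (Yset e₀ c2 q).card = 1 ∨ (Yset e₀ c2 q).card = 2
      omega)
    (by
      have h1 := hκpos _ hβ
      have h2 := hκle (c2 0)
      omega)
    (by omega)
    hsκ hsμ
    (by
      refine Eq.trans ?_ hsplit
      congr 1
      · rw [hk _ hβ, hl (c2 0), if_pos rfl]
      · apply Finset.sum_congr rfl
        intro q hq
        rw [hk q ((hmemQ'' q).mp hq).2, hl q, if_neg (fun h => ((hmemQ'' q).mp hq).1 h.symm),
          add_zero])
  obtain ⟨he2, hkβ1, hmβ0, q₁, hq₁, hκ1, hμ1, hrest⟩ := hcore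
  have hq₁' := (hmemQ'' q₁).mp hq₁
  refine ⟨he2, q₁, hq₁'.2, hq₁'.1, ?_, ?_, ?_, ?_, ?_⟩
  · have h1 := hk _ hβ
    rw [hkβ1] at h1
    omega
  · have h1 := hl (c2 0)
    rw [if_pos rfl, hmβ0] at h1
    omega
  · have h1 := hk q₁ hq₁'.2
    have h2 : (Yset e₀ c1 q₁).card = 1 := hκ1
    rw [h2] at h1
    omega
  · have h1 := hl q₁
    have h2 : (Yset e₀ c2 q₁).card = 2 := hμ1
    rw [if_neg (fun h => hq₁'.1 h.symm), h2] at h1
    omega
  · intro q hq0 hqβ hq1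
    obtain ⟨h1, h2⟩ := hrest q ((hmemQ'' q).mpr ⟨hqβ, hq0⟩) hq1
    have h1' : (Yset e₀ c1 q).card = 2 := h1
    have h2' : (Yset e₀ c2 q).card = 2 := h2
    have h3 := hk q hq0
    have h4 := hl q
    rw [h1'] at h3
    rw [if_neg (fun h => hqβ h.symm), h2'] at h4
    refine ⟨?_, ?_⟩ <;> omega

end

example {p : ℕ} [Fact p.Prime] {Q : Type*} [Fintype Q] (t e₀ : ℕ) (ht : 2 ≤ t)
    (he₀ : 2 ≤ e₀) (hpe : p - 1 = 2 * t * e₀) (hQ : Fintype.card Q = t + 2)
    (c1 c2 : ZMod p → Q) (q₀ : Q) (h10 : ∀ z, c1 z = q₀ ↔ z = 0) (h20 : ∀ z, c2 z ≠ q₀)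
    (hsurj : ∀ q, ∃ z, c1 z = q ∨ c2 z = q)
    (a : ZMod p) (ha : orderOf a = e₀) (h1a : ∀ z, c1 (a * z) = c1 z)
    (h2a : ∀ z, c2 (a * z) = c2 z)
    (hn : ∀ q, q ≠ q₀ → 2 ≤ cnt c1 q + cnt c2 q)
    (hone : open Classical in ∑ q ∈ Finset.univ.erase q₀,
      ((cnt c1 q : ℚ) - cnt c2 q) ^ 2 / ((cnt c1 q : ℚ) + cnt c2 q) = 1)
    (val : Q → ZMod p) (hval : ∃ q, val q ≠ 0) (B C A' B' C' : ZMod p)
    (hv1 : ∀ z, val (c1 z) = B * z ^ e₀ + C * z ^ (2 * e₀))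
    (hv2 : ∀ z, val (c2 z) = A' + B' * z ^ e₀ + C' * z ^ (2 * e₀)) :
    e₀ = 2 ∧ ∃ q₁ : Q, q₁ ≠ q₀ ∧ q₁ ≠ c2 0 ∧ cnt c1 (c2 0) = 2 ∧ cnt c2 (c2 0) = 1 ∧
      cnt c1 q₁ = 2 ∧ cnt c2 q₁ = 4 ∧
      ∀ q, q ≠ q₀ → q ≠ c2 0 → q ≠ q₁ → cnt c1 q = 4 ∧ cnt c2 q = 4 :=
  ara1 t e₀ ht he₀ hpe hQ c1 c2 q₀ h10 h20 hsurj a ha h1a h2a hn hone val hval B C A' B' C'
    hv1 hv2

end Cfsg.Agent.H64.W2P
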