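import Mathlib
import Cfsg.Agent.H74.W2PDefs
import Cfsg.Agent.H64.W2PARA1

set_option autoImplicit false

namespace Cfsg.Agent.H64.W2P

open Cfsg.Agent.H74.W2P Equiv MulAction

theorem sq_fiber_le_two {F : Type*} [Field F] [DecidableEq F] (S : Finset F) (a : F) :
    (S.filter (fun x => x ^ 2 = a)).card ≤ 2 := by
  by_contra hcon
  push Not at hcon
  obtain ⟨x1, h1, x2, h2, x3, h3, h12, h13, h23⟩ := Finset.two_lt_card.mp hcon
  have e1 := (Finset.mem_filter.mp h1).2
  have e2 := (Finset.mem_filter.mp h2).2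
  have e3 := (Finset.mem_filter.mp h3).2
  have f2 : x2 = -x1 := by
    rcases sq_eq_sq_iff_eq_or_eq_neg.mp (e2.trans e1.symm) with h | h
    · exact absurd h.symm h12
    · exact h
  have f3 : x3 = -x1 := by
    rcases sq_eq_sq_iff_eq_or_eq_neg.mp (e3.trans e1.symm) with h | h
    · exact absurd h.symm h13
    · exact h
  exact h23 (f2.trans f3.symm)

theorem card_le_four_of_level {F : Type*} [Field F] [DecidableEq F] (B C v : F)
    (h : B ≠ 0 ∨ C ≠ 0) (S : Finset F) (hS : ∀ z ∈ S, B * z ^ 2 + C * z ^ 4 = v) :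
    S.card ≤ 4 := by
  have h1 := Finset.card_le_mul_card_image (f := fun z : F => z ^ 2) S 2
    (fun a _ => sq_fiber_le_two S a)
  have h2 : (S.image (fun z : F => z ^ 2)).card ≤ 2 := by
    apply level_le_two B C v h
    intro y hy
    obtain ⟨z, hz, rfl⟩ := Finset.mem_image.mp hy
    rw [← hS z hz]
    ring
  omega

section
open Classical

theorem ara2 {p : ℕ} [Fact p.Prime] {Q : Type*} [Fintype Q] (t : ℕ) (ht : 2 ≤ t)
    (hpe : p - 1 = 4 * t) (hQ : Fintype.card Q = t + 2)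
    (hcyc : ∀ s : ZMod p, s ≠ 0 → (conicSet p s).card ≤ t)
    (c1 c2 : ZMod p → Q) (q₀ : Q) (h10 : ∀ z, c1 z = q₀ ↔ z = 0) (h20 : ∀ z, c2 z ≠ q₀)
    (h1a : ∀ z, c1 (-z) = c1 z) (h2a : ∀ z, c2 (-z) = c2 z)
    (q₁ : Q) (hq₁ : q₁ ≠ q₀) (hq₁β : q₁ ≠ c2 0) (hkβ : cnt c1 (c2 0) = 2)
    (hlβ : cnt c2 (c2 0) = 1) (hk₁ : cnt c1 q₁ = 2) (hl₁ : cnt c2 q₁ = 4)
    (hrest : ∀ q, q ≠ q₀ → q ≠ c2 0 → q ≠ q₁ → cnt c1 q = 4 ∧ cnt c2 q = 4)
    (val : Q → ZMod p) (hval : ∃ q, val q ≠ 0) (B C A' B' C' : ZMod p)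
    (hv1 : ∀ z, val (c1 z) = B * z ^ 2 + C * z ^ 4)
    (hv2 : ∀ z, val (c2 z) = A' + B' * z ^ 2 + C' * z ^ 4) : False := by
  have hp : p.Prime := Fact.out
  have hp2 := hp.two_le
  have h2ne : (2 : ZMod p) ≠ 0 :=
    Ring.two_ne_zero (by rw [ZMod.ringChar_zmod_n]; omega)
  have hβ : c2 0 ≠ q₀ := h20 0
  have hc10 : c1 0 = q₀ := (h10 0).mpr rfl
  have hpos1 : ∀ q, q ≠ q₀ → 1 ≤ cnt c1 q := by
    intro q hq
    by_cases h1 : q = c2 0
    · rw [h1, hkβ]
      norm_num
    · by_cases h2 : q = q₁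
      · rw [h2, hk₁]
        norm_num
      · rw [(hrest q hq h1 h2).1]
        norm_num
  have hcnt2 : ∀ q, q ≠ q₀ → q ≠ c2 0 → cnt c2 q = 4 := by
    intro q hq h1
    by_cases h2 : q = q₁
    · rw [h2, hl₁]
    · exact (hrest q hq h1 h2).2
  have hpos2 : ∀ q, q ≠ q₀ → 1 ≤ cnt c2 q := by
    intro q hq
    by_cases h1 : q = c2 0
    · rw [h1, hlβ]
    · rw [hcnt2 q hq h1]
      norm_num
  have hBC : B ≠ 0 ∨ C ≠ 0 := by
    by_contra hcon
    push Not at hcon
    obtain ⟨q, hq⟩ := hval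
    apply hq
    by_cases hq0 : q = q₀
    · have h1 := hv1 0
      rw [hc10] at h1
      rw [hq0, h1, hcon.1, hcon.2]
      ring
    · obtain ⟨z, hz⟩ := exists_of_cnt_pos (hpos1 q hq0)
      rw [← hz, hv1, hcon.1, hcon.2]
      ring
  have hBC' : B' ≠ 0 ∨ C' ≠ 0 := by
    by_contra hcon
    push Not at hcon
    have hvA : ∀ q, q ≠ q₀ → val q = A' := by
      intro q hq
      obtain ⟨z, hz⟩ := exists_of_cnt_pos (hpos2 q hq)
      rw [← hz, hv2, hcon.1, hcon.2]
      ring
    have hScard : (Finset.univ.filter (fun z : ZMod p => z ≠ 0)).card = p - 1 := by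
      rw [Finset.filter_ne', Finset.card_erase_of_mem (Finset.mem_univ _), Finset.card_univ,
        ZMod.card]
    have h4 := card_le_four_of_level B C A' hBC
      (Finset.univ.filter (fun z : ZMod p => z ≠ 0)) (by
        intro z hz
        have hz0 := (Finset.mem_filter.mp hz).2
        rw [← hv1 z]
        exact hvA _ (fun h => hz0 ((h10 z).mp h)))
    omega
  have hinj : ∀ q q', q ≠ q₀ → q' ≠ q₀ → val q = val q' → q = q' := by
    intro q q' hq hq' hv
    by_contra hne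
    have hdisj : Disjoint (Finset.univ.filter (fun z : ZMod p => c2 z = q))
        (Finset.univ.filter (fun z : ZMod p => c2 z = q')) := by
      rw [Finset.disjoint_left]
      intro z hz hz'
      exact hne ((Finset.mem_filter.mp hz).2.symm.trans (Finset.mem_filter.mp hz').2)
    have hcard : (Finset.univ.filter (fun z : ZMod p => c2 z = q) ∪
        Finset.univ.filter (fun z : ZMod p => c2 z = q')).card = cnt c2 q + cnt c2 q' := by
      rw [Finset.card_union_of_disjoint hdisj]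
      rfl
    have h5 : 5 ≤ cnt c2 q + cnt c2 q' := by
      by_cases h1 : q = c2 0
      · have h2 : q' ≠ c2 0 := fun h => hne (h1.trans h.symm)
        rw [hcnt2 q' hq' h2, h1, hlβ]
      · rw [hcnt2 q hq h1]
        have := hpos2 q' hq'
        omega
    have h4 := card_le_four_of_level B' C' (val q - A') hBC'
      (Finset.univ.filter (fun z : ZMod p => c2 z = q) ∪
        Finset.univ.filter (fun z : ZMod p => c2 z = q')) (by
      intro z hz
      rcases Finset.mem_union.mp hz with h | h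
      · have e := hv2 z
        rw [(Finset.mem_filter.mp h).2] at e
        rw [e]
        ring
      · have e := hv2 z
        rw [(Finset.mem_filter.mp h).2, ← hv] at e
        rw [e]
        ring)
    omega
  have hB : B ≠ 0 := by
    intro hB0
    obtain ⟨z₀, hz₀⟩ := exists_of_cnt_pos (hpos1 (c2 0) hβ)
    have hz₀0 : z₀ ≠ 0 := fun h => hβ (by rw [← hz₀, h]; exact hc10)
    have hsq : IsSquare (-1 : ZMod p) := by
      rw [ZMod.exists_sq_eq_neg_one_iff]
      omega
    obtain ⟨i, hi⟩ := hsq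
    have hi1 : i ≠ 1 := by
      rintro rfl
      apply h2ne
      linear_combination -hi
    have hi2 : i ≠ -1 := by
      rintro rfl
      apply h2ne
      linear_combination -hi
    have hi0 : i ≠ 0 := by
      rintro rfl
      simp at hi
    have hiz0 : i * z₀ ≠ 0 := mul_ne_zero hi0 hz₀0
    have hi4 : i ^ 4 = 1 := by linear_combination (-(i * i - 1)) * hi
    have hci : c1 (i * z₀) = c2 0 := by
      apply hinj _ _ (fun h => hiz0 ((h10 _).mp h)) hβ
      rw [hv1, ← hz₀, hv1, hB0]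
      linear_combination (C * z₀ ^ 4) * hi4
    have hmem : ∀ z, c1 z = c2 0 →
        z ∈ Finset.univ.filter (fun z : ZMod p => c1 z = c2 0) :=
      fun z h => Finset.mem_filter.mpr ⟨Finset.mem_univ _, h⟩
    have h3 : 2 < (Finset.univ.filter (fun z : ZMod p => c1 z = c2 0)).card := by
      rw [Finset.two_lt_card]
      refine ⟨z₀, hmem _ hz₀, -z₀, hmem _ (by rw [h1a, hz₀]), i * z₀, hmem _ hci, ?_, ?_, ?_⟩
      · intro h
        have h' : (2 : ZMod p) * z₀ = 0 := by linear_combination h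
        rcases mul_eq_zero.mp h' with h | h
        · exact h2ne h
        · exact hz₀0 h
      · intro h
        have h' : (1 - i) * z₀ = 0 := by linear_combination h
        rcases mul_eq_zero.mp h' with h | h
        · exact hi1 (sub_eq_zero.mp h).symm
        · exact hz₀0 h
      · intro h
        have h' : (-1 - i) * z₀ = 0 := by linear_combination h
        rcases mul_eq_zero.mp h' with h | h
        · exact hi2 (sub_eq_zero.mp h).symm
        · exact hz₀0 h
    have hc : cnt c1 (c2 0) = (Finset.univ.filter (fun z : ZMod p => c1 z = c2 0)).card := rfl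
    omega
  -- the classes with `k = 4`
  have m1 : c2 0 ∈ Finset.univ.erase q₀ := Finset.mem_erase.mpr ⟨hβ, Finset.mem_univ _⟩
  have m2 : q₁ ∈ (Finset.univ.erase q₀).erase (c2 0) :=
    Finset.mem_erase.mpr ⟨hq₁β, Finset.mem_erase.mpr ⟨hq₁, Finset.mem_univ _⟩⟩
  have hRmem : ∀ q, q ∈ ((Finset.univ.erase q₀).erase (c2 0)).erase q₁ ↔
      q ≠ q₁ ∧ q ≠ c2 0 ∧ q ≠ q₀ := by
    intro q
    simp only [Finset.mem_erase, Finset.mem_univ, and_true]
  have hRcard : (((Finset.univ.erase q₀).erase (c2 0)).erase q₁).card = t - 1 := by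
    rw [Finset.card_erase_of_mem m2, Finset.card_erase_of_mem m1,
      Finset.card_erase_of_mem (Finset.mem_univ _), Finset.card_univ, hQ]
    omega
  have hfib : ∀ q ∈ ((Finset.univ.erase q₀).erase (c2 0)).erase q₁, ∀ z, c1 z = q →
      ∃ w, c1 w = q ∧ w ≠ z ∧ w ≠ -z := by
    intro q hq z hz
    have hq' := (hRmem q).mp hq
    have h4 : cnt c1 q = 4 := (hrest q hq'.2.2 hq'.2.1 hq'.1).1
    have hlt : ({z, -z} : Finset (ZMod p)).card <
        (Finset.univ.filter (fun z : ZMod p => c1 z = q)).card := by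
      have h2 : ({z, -z} : Finset (ZMod p)).card ≤ 2 := Finset.card_le_two
      have h4' : (Finset.univ.filter (fun z : ZMod p => c1 z = q)).card = 4 := h4
      omega
    obtain ⟨w, hw, hwn⟩ := Finset.exists_mem_notMem_of_card_lt_card hlt
    refine ⟨w, (Finset.mem_filter.mp hw).2, ?_, ?_⟩
    · intro h
      exact hwn (by rw [h]; exact Finset.mem_insert_self _ _)
    · intro h
      exact hwn (by rw [h]; exact Finset.mem_insert_of_mem (Finset.mem_singleton_self _))
  have hkey : ∀ q ∈ ((Finset.univ.erase q₀).erase (c2 0)).erase q₁, ∀ z, c1 z = q →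
      ∃ w, w ≠ 0 ∧ B + C * (z ^ 2 + w ^ 2) = 0 := by
    intro q hq z hz
    obtain ⟨w, hw, hwz, hwnz⟩ := hfib q hq z hz
    have hq' := (hRmem q).mp hq
    have hw0 : w ≠ 0 := fun h => hq'.2.2 (by rw [← hw, h]; exact hc10)
    refine ⟨w, hw0, ?_⟩
    have e1 := hv1 z
    have e2 := hv1 w
    rw [hz] at e1
    rw [hw] at e2
    have hne : z ^ 2 - w ^ 2 ≠ 0 := by
      intro h
      rcases sq_eq_sq_iff_eq_or_eq_neg.mp (sub_eq_zero.mp h) with h | h
      · exact hwz h.symm
      · exact hwnz (by rw [h, neg_neg])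
    have hprod : (z ^ 2 - w ^ 2) * (B + C * (z ^ 2 + w ^ 2)) = 0 := by
      linear_combination e2 - e1
    rcases mul_eq_zero.mp hprod with h | h
    · exact absurd h hne
    · exact h
  have hRne : (((Finset.univ.erase q₀).erase (c2 0)).erase q₁).Nonempty := by
    rw [← Finset.card_pos, hRcard]
    omega
  obtain ⟨qR, hqR⟩ := hRne
  have hqR' := (hRmem qR).mp hqR
  obtain ⟨zR, hzR⟩ := exists_of_cnt_pos (hpos1 qR hqR'.2.2)
  obtain ⟨wR, hwR0, hwR⟩ := hkey qR hqR zR hzR
  have hC : C ≠ 0 := by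
    intro hC0
    rw [hC0, zero_mul, add_zero] at hwR
    exact hB hwR
  have hs : -B / C ≠ 0 := div_ne_zero (neg_ne_zero.mpr hB) hC
  have hconic : ∀ z, c1 z ∈ ((Finset.univ.erase q₀).erase (c2 0)).erase q₁ →
      z ^ 2 ∈ conicSet p (-B / C) := by
    intro z hz
    obtain ⟨w, hw0, hw⟩ := hkey _ hz z rfl
    have hz0 : z ≠ 0 := fun h => ((hRmem _).mp hz).2.2 (by rw [h]; exact hc10)
    have hsw : -B / C - z ^ 2 = w ^ 2 := by
      rw [sub_eq_iff_eq_add, div_eq_iff hC]
      linear_combination -hw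
    unfold conicSet
    refine Finset.mem_filter.mpr ⟨Finset.mem_univ _, pow_ne_zero 2 hz0, ⟨z, sq z⟩, ?_, ?_⟩
    · rw [hsw]
      exact pow_ne_zero 2 hw0
    · rw [hsw]
      exact ⟨w, sq w⟩
  have hfib4 : ∀ q ∈ ((Finset.univ.erase q₀).erase (c2 0)).erase q₁,
      ((Finset.univ.filter (fun z : ZMod p =>
        c1 z ∈ ((Finset.univ.erase q₀).erase (c2 0)).erase q₁)).filter
          (fun z => c1 z = q)).card = 4 := by
    intro q hq
    have hq' := (hRmem q).mp hq
    have h4 : cnt c1 q = 4 := (hrest q hq'.2.2 hq'.2.1 hq'.1).1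
    have h4' : (Finset.univ.filter (fun z : ZMod p => c1 z = q)).card = 4 := h4
    rw [← h4']
    congr 1
    ext z
    simp only [Finset.mem_filter, Finset.mem_univ, true_and]
    exact ⟨fun h => h.2, fun h => ⟨by rw [h]; exact hq, h⟩⟩
  have hZcard : (Finset.univ.filter (fun z : ZMod p =>
      c1 z ∈ ((Finset.univ.erase q₀).erase (c2 0)).erase q₁)).card = 4 * (t - 1) := by
    have hZ := Finset.card_eq_sum_card_fiberwise (f := c1)
      (s := Finset.univ.filter (fun z : ZMod p =>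
        c1 z ∈ ((Finset.univ.erase q₀).erase (c2 0)).erase q₁))
      (t := ((Finset.univ.erase q₀).erase (c2 0)).erase q₁)
      (fun z hz => (Finset.mem_filter.mp (Finset.mem_coe.mp hz)).2)
    rw [hZ, Finset.sum_const_nat hfib4, hRcard]
    ring
  have himg : ((Finset.univ.filter (fun z : ZMod p =>
      c1 z ∈ ((Finset.univ.erase q₀).erase (c2 0)).erase q₁)).image
        (fun z : ZMod p => z ^ 2)).card ≤ t := by
    refine le_trans (Finset.card_le_card ?_) (hcyc (-B / C) hs)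
    intro y hy
    obtain ⟨z, hz, rfl⟩ := Finset.mem_image.mp hy
    exact hconic z (Finset.mem_filter.mp hz).2
  have hle := Finset.card_le_mul_card_image (f := fun z : ZMod p => z ^ 2)
    (Finset.univ.filter (fun z : ZMod p =>
      c1 z ∈ ((Finset.univ.erase q₀).erase (c2 0)).erase q₁)) 2
    (fun a _ => sq_fiber_le_two _ a)
  have ht2 : t = 2 := by omega
  have hp9 : p = 9 := by omega
  rw [hp9] at hp
  exact absurd hp (by norm_num)

end

example {p : ℕ} [Fact p.Prime] {Q : Type*} [Fintype Q] (t : ℕ) (ht : 2 ≤ t)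
    (hpe : p - 1 = 4 * t) (hQ : Fintype.card Q = t + 2)
    (hcyc : ∀ s : ZMod p, s ≠ 0 → (conicSet p s).card ≤ t)
    (c1 c2 : ZMod p → Q) (q₀ : Q) (h10 : ∀ z, c1 z = q₀ ↔ z = 0) (h20 : ∀ z, c2 z ≠ q₀)
    (h1a : ∀ z, c1 (-z) = c1 z) (h2a : ∀ z, c2 (-z) = c2 z)
    (q₁ : Q) (hq₁ : q₁ ≠ q₀) (hq₁β : q₁ ≠ c2 0) (hkβ : cnt c1 (c2 0) = 2)
    (hlβ : cnt c2 (c2 0) = 1) (hk₁ : cnt c1 q₁ = 2) (hl₁ : cnt c2 q₁ = 4)
    (hrest : ∀ q, q ≠ q₀ → q ≠ c2 0 → q ≠ q₁ → cnt c1 q = 4 ∧ cnt c2 q = 4)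
    (val : Q → ZMod p) (hval : ∃ q, val q ≠ 0) (B C A' B' C' : ZMod p)
    (hv1 : ∀ z, val (c1 z) = B * z ^ 2 + C * z ^ 4)
    (hv2 : ∀ z, val (c2 z) = A' + B' * z ^ 2 + C' * z ^ 4) : False :=
  ara2 t ht hpe hQ hcyc c1 c2 q₀ h10 h20 h1a h2a q₁ hq₁ hq₁β hkβ hlβ hk₁ hl₁ hrest val hval
    B C A' B' C' hv1 hv2

end Cfsg.Agent.H64.W2P
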